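import Cfsg.Agent.Lib.Perm.Regular
import Cfsg.Agent.Lib.Perm.Normal
import Cfsg.Agent.Lib.Perm.SharplyTwo
import Mathlib.GroupTheory.PGroup

/-!
# Burnside's theorem on minimal normal subgroups of 2-transitive groups
-/

set_option autoImplicit false

open MulAction
open scoped Pointwise

namespace Cfsg.Agent.Lib.Perm.Burnside

open Cfsg.Agent.Lib.Perm.SharplyTwo (fpf one_mem_fpf)

section count

variable {H : Type*} [Group H] {α : Type*} [MulAction H α]

/-- Burnside's lemma for a transitive group in which non-identity elements fix at most one point. -/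
theorem card_fpf_of_sharp [Finite H] [Fintype α] [Nonempty α] [IsPretransitive H α]
    (sharp : ∀ (x : H) (a b : α), a ≠ b → x • a = a → x • b = b → x = 1) :
    Nat.card (fpf H α) = Fintype.card α := by
  classical
  have := Fintype.ofFinite H
  have hb := MulAction.sum_card_fixedBy_eq_card_orbits_mul_card_group H α
  have horb : Fintype.card (orbitRel.Quotient H α) = 1 := by
    obtain ⟨a⟩ := (inferInstance : Nonempty α)
    refine Fintype.card_eq_one_iff.mpr ⟨Quotient.mk'' a, fun q => ?_⟩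
    induction q using Quotient.inductionOn' with
    | h b =>
      obtain ⟨x, hx⟩ := exists_smul_eq H a b
      apply Quotient.sound'
      exact ⟨x, hx⟩
  rw [horb, one_mul] at hb
  let f : H → ℕ := fun x => if x = 1 then Fintype.card α else if x ∈ fpf H α then 0 else 1
  have hf : ∀ x : H, Fintype.card (fixedBy α x) = f x := by
    intro x
    simp only [f]
    split_ifs with h1 h2
    · subst h1
      rw [Fintype.card_congr (Equiv.subtypeUnivEquiv (by simp))]
    · have : IsEmpty (fixedBy α x) := by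
        refine ⟨fun a => ?_⟩
        rcases h2 with h2 | h2
        · exact h1 h2
        · exact h2 a.1 a.2
      exact Fintype.card_eq_zero
    · have : ∃ a : α, x • a = a := by
        by_contra hcon
        push Not at hcon
        exact h2 (Or.inr hcon)
      obtain ⟨a, ha⟩ := this
      refine Fintype.card_eq_one_iff.mpr ⟨⟨a, ha⟩, ?_⟩
      rintro ⟨b, hb⟩
      apply Subtype.ext
      by_contra hne
      exact h1 (sharp x b a hne hb ha)
  simp_rw [hf] at hb
  have hsum : ∑ x : H, f x + Fintype.card {x : H // x ∈ fpf H α} =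
      Fintype.card α + Fintype.card H := by
    have h1 : ∑ x : H, f x + ∑ x : H, (if x ∈ fpf H α then 1 else 0) =
        ∑ x : H, (if x = 1 then Fintype.card α else 0) + ∑ x : H, 1 := by
      rw [← Finset.sum_add_distrib, ← Finset.sum_add_distrib]
      apply Finset.sum_congr rfl
      intro x _
      simp only [f]
      by_cases hx1 : x = 1
      · simp [hx1, one_mem_fpf]
      · by_cases hx2 : x ∈ fpf H α <;> simp [hx1, hx2]
    have h2 : ∑ x : H, (if x ∈ fpf H α then 1 else 0) = Fintype.card {x : H // x ∈ fpf H α} := by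
      rw [Fintype.card_subtype]
      exact (Finset.card_filter _ _).symm
    have h3 : ∑ x : H, (if x = 1 then Fintype.card α else 0) = Fintype.card α := by
      simp
    have h4 : ∑ x : H, 1 = Fintype.card H := by simp
    rw [h2, h3, h4] at h1
    exact h1
  rw [hb] at hsum
  have : Fintype.card {x : H // x ∈ fpf H α} = Fintype.card α := by omega
  rw [Nat.card_eq_fintype_card]
  convert this

end count

variable {G X : Type*} [Group G] [MulAction G X]

/-- Translates of a block of a normal subgroup are blocks. -/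
theorem block_translate (N : Subgroup G) [hN : N.Normal] {B : Set X} (hB : IsBlock N B) (g : G) :
    IsBlock N (g • B) := by
  rw [isBlock_iff_smul_eq_of_mem] at hB ⊢
  intro n a ha hna
  have hmem : g⁻¹ * (n : G) * g ∈ N := by
    have := hN.conj_mem n n.2 g⁻¹
    rwa [inv_inv] at this
  let n' : N := ⟨_, hmem⟩
  have ha' : g⁻¹ • a ∈ B := Set.mem_smul_set_iff_inv_smul_mem.1 ha
  have hna' : g⁻¹ • ((n : G) • a) ∈ B := Set.mem_smul_set_iff_inv_smul_mem.1 hna
  have h1 : n' • B = B := hB ha' (by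
    change (g⁻¹ * (n : G) * g) • (g⁻¹ • a) ∈ B
    simp only [mul_smul, smul_inv_smul]
    exact hna')
  have h2 : ∀ S : Set X, (n : G) • (g • S) = g • (n' • S) := by
    intro S
    change (n : G) • (g • S) = g • ((g⁻¹ * (n : G) * g) • S)
    simp only [mul_smul, smul_inv_smul]
  change (n : G) • (g • B) = g • B
  rw [h2, h1]

/-- The key combinatorial lemma: a minimal nontrivial block of the normal subgroup `N` in a
2-transitive group gives a linear space, and elements of `N` fixing two points are trivial. -/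
theorem two_fixed_trivial [FaithfulSMul G X] (hG2 : IsMultiplyPretransitive G X 2)
    (N : Subgroup G) [N.Normal] {B : Set X} (hB : IsBlock N B) {c d : X} (hc : c ∈ B) (hd : d ∈ B)
    (hcd : c ≠ d) (hBu : B ≠ Set.univ)
    (hminB : ∀ B' : Set X, B' ⊆ B → IsBlock N B' → ¬ B'.Subsingleton → B' = B)
    {h : G} (hh : h ∈ N) {a b : X} (hab : a ≠ b) (ha : h • a = a) (hb : h • b = b) : h = 1 := by
  classical
  have htwo : ∀ {x y u v : X}, x ≠ y → u ≠ v → ∃ g : G, g • x = u ∧ g • y = v :=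
    fun h h' => is_two_pretransitive_iff.1 hG2 h h'
  -- lines
  have hsub : ∀ (g g' : G) {x y : X}, x ∈ g • B → y ∈ g • B → x ∈ g' • B → y ∈ g' • B → x ≠ y →
      g • B ⊆ g' • B := by
    intro g g' x y hx hy hx' hy' hxy
    let I : Set X := (g • B) ∩ (g' • B)
    have hI : IsBlock N I := (block_translate N hB g).inter (block_translate N hB g')
    have hJ : IsBlock N (g⁻¹ • I) := block_translate N hI g⁻¹
    have hJsub : g⁻¹ • I ⊆ B := by
      intro z hz
      rw [Set.mem_smul_set_iff_inv_smul_mem, inv_inv] at hz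
      have := Set.mem_smul_set_iff_inv_smul_mem.1 hz.1
      simpa using this
    have hJns : ¬ (g⁻¹ • I).Subsingleton := by
      intro hsing
      apply hxy
      have h1 : g⁻¹ • x ∈ g⁻¹ • I := Set.smul_mem_smul_set ⟨hx, hx'⟩
      have h2 : g⁻¹ • y ∈ g⁻¹ • I := Set.smul_mem_smul_set ⟨hy, hy'⟩
      exact MulAction.injective g⁻¹ (hsing h1 h2)
    have hJB := hminB _ hJsub hJ hJns
    intro z hz
    have hz' : g⁻¹ • z ∈ B := Set.mem_smul_set_iff_inv_smul_mem.1 hz
    rw [← hJB] at hz'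
    have := Set.mem_smul_set_iff_inv_smul_mem.1 hz'
    rw [inv_inv, smul_inv_smul] at this
    exact this.2
  have huniq : ∀ (g g' : G) {x y : X}, x ∈ g • B → y ∈ g • B → x ∈ g' • B → y ∈ g' • B → x ≠ y →
      g • B = g' • B := fun g g' x y hx hy hx' hy' hxy =>
    Set.Subset.antisymm (hsub g g' hx hy hx' hy' hxy) (hsub g' g hx' hy' hx hy hxy)
  have hline : ∀ {x y : X}, x ≠ y → ∃ g : G, x ∈ g • B ∧ y ∈ g • B := by
    intro x y hxy
    obtain ⟨g, hg1, hg2⟩ := htwo hcd hxy
    exact ⟨g, hg1 ▸ Set.smul_mem_smul_set hc, hg2 ▸ Set.smul_mem_smul_set hd⟩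
  have hpres : ∀ (g : G) {x z : X}, h • x = x → x ∈ g • B → z ∈ g • B → h • z ∈ g • B := by
    intro g x z hx hxL hzL
    have hblk := block_translate N hB g
    have h1 : (⟨h, hh⟩ : N) • (g • B) = g • B := hblk.smul_eq_of_mem hxL (by
      change h • x ∈ g • B
      rw [hx]
      exact hxL)
    rw [← h1]
    exact Set.smul_mem_smul_set hzL
  -- Step 1
  have hstep1 : ∀ (g : G) {u v : X}, u ≠ v → h • u = u → h • v = v → u ∈ g • B → v ∈ g • B →
      ∀ x, x ∉ g • B → h • x = x := by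
    intro g u v huv hu hv huL hvL x hx
    by_contra hne
    have hux : u ≠ x := fun h' => hx (h' ▸ huL)
    have hvx : v ≠ x := fun h' => hx (h' ▸ hvL)
    obtain ⟨g₁, hg₁u, hg₁x⟩ := hline hux
    obtain ⟨g₂, hg₂v, hg₂x⟩ := hline hvx
    have hx1 := hpres g₁ hu hg₁u hg₁x
    have hx2 := hpres g₂ hv hg₂v hg₂x
    have heq := huniq g₁ g₂ hg₁x hx1 hg₂x hx2 (Ne.symm hne)
    have hv1 : v ∈ g₁ • B := heq ▸ hg₂v
    have heq2 := huniq g g₁ huL hvL hg₁u hv1 huv
    exact hx (heq2 ▸ hg₁x)
  -- Step 2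
  obtain ⟨g, hga, hgb⟩ := hline hab
  have hLu : g • B ≠ Set.univ := by
    intro hcon
    apply hBu
    have := congrArg (fun S : Set X => g⁻¹ • S) hcon
    simpa using this
  obtain ⟨c', hc'⟩ : ∃ c', c' ∉ g • B := by
    by_contra hcon
    push Not at hcon
    exact hLu (Set.eq_univ_of_forall hcon)
  have hfixc' := hstep1 g hab ha hb hga hgb c' hc'
  have hac' : a ≠ c' := fun h' => hc' (h' ▸ hga)
  obtain ⟨g', hg'a, hg'c⟩ := hline hac'
  have hstep2 := hstep1 g' hac' ha hfixc' hg'a hg'c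
  apply FaithfulSMul.eq_of_smul_eq_smul (α := X)
  intro x
  rw [one_smul]
  by_cases hx1 : x ∈ g • B
  · by_cases hx2 : x ∈ g' • B
    · by_cases hxa : x = a
      · rw [hxa, ha]
      · exfalso
        have heq := huniq g g' hga hx1 hg'a hx2 (Ne.symm hxa)
        exact hc' (heq ▸ hg'c)
    · exact hstep2 x hx2
  · exact hstep1 g hab ha hb hga hgb x hx1

/-- If every non-identity element of a transitive normal subgroup `N` of a 2-transitive group
fixes at most one point, then the identity and the fixed-point-free elements form a normal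
subgroup. -/
theorem frobenius_kernel [Finite G] [Fintype X] (hG2 : IsMultiplyPretransitive G X 2)
    (N : Subgroup G) [hN : N.Normal] (htr : IsPretransitive N X) [Nontrivial X]
    (sharp : ∀ h ∈ N, ∀ a b : X, a ≠ b → h • a = a → h • b = b → h = 1) :
    ∃ D : Subgroup G, D.Normal ∧ D ≤ N ∧ D ≠ ⊥ ∧ ∀ x ∈ D, x = 1 ∨ ∀ a : X, x • a ≠ a := by
  classical
  have hcard : Nat.card (fpf N X) = Fintype.card X := card_fpf_of_sharp (fun x a b hab ha hb => by
    have := sharp x x.2 a b hab ha hb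
    exact Subtype.ext this)
  have htwo : ∀ {x y u v : X}, x ≠ y → u ≠ v → ∃ g : G, g • x = u ∧ g • y = v :=
    fun h h' => is_two_pretransitive_iff.1 hG2 h h'
  have : Fintype (fpf N X) := Fintype.ofFinite _
  have hcard2 : 1 < Fintype.card (fpf N X) := by
    rw [← Nat.card_eq_fintype_card, hcard]
    exact Fintype.one_lt_card
  obtain ⟨x₀, hx₀⟩ : ∃ x₀ : fpf N X, x₀ ≠ ⟨1, one_mem_fpf⟩ := by
    obtain ⟨x₀, hx₀⟩ := Fintype.exists_ne_of_one_lt_card hcard2 (⟨1, one_mem_fpf⟩ : fpf N X)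
    exact ⟨x₀, hx₀⟩
  have hx₀1 : (x₀ : N) ≠ 1 := fun h => hx₀ (Subtype.ext h)
  have hx₀f : ∀ a : X, (x₀ : N) • a ≠ a := by
    rcases x₀.2 with h | h
    · exact (hx₀1 h).elim
    · exact h
  -- the evaluation map is bijective
  have hinj : ∀ a : X, Function.Injective (fun x : fpf N X => (x : N) • a) := by
    intro a
    have hsurj : Function.Surjective (fun x : fpf N X => (x : N) • a) := by
      intro b
      by_cases hba : a = b
      · exact ⟨⟨1, one_mem_fpf⟩, by simp [hba]⟩
      · obtain ⟨g, hga, hgb⟩ := htwo (Ne.symm (hx₀f a)) hba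
        -- conjugate of `x₀`
        have hmem : g * ((x₀ : N) : G) * g⁻¹ ∈ N := hN.conj_mem _ (x₀ : N).2 g
        let x : N := ⟨_, hmem⟩
        have hga' : g⁻¹ • a = a := by rw [inv_smul_eq_iff, hga]
        have hxf : x ∈ fpf N X := by
          right
          intro c hc
          have hc' : (g * ((x₀ : N) : G) * g⁻¹) • c = c := hc
          simp only [mul_smul] at hc'
          rw [smul_eq_iff_eq_inv_smul] at hc'
          exact hx₀f (g⁻¹ • c) hc'
        refine ⟨⟨x, hxf⟩, ?_⟩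
        change (g * ((x₀ : N) : G) * g⁻¹) • a = b
        simp only [mul_smul]
        rw [hga']
        exact hgb
    exact ((Fintype.bijective_iff_surjective_and_card _).2 ⟨hsurj, by
      rw [← Nat.card_eq_fintype_card, hcard]⟩).1
  -- closure
  have hclosed : ∀ x ∈ fpf N X, ∀ y ∈ fpf N X, y⁻¹ * x ∈ fpf N X := by
    intro x hx y hy
    by_cases hxy : x = y
    · subst hxy
      rw [inv_mul_cancel]
      exact one_mem_fpf
    · right
      intro a ha
      rw [mul_smul, inv_smul_eq_iff] at ha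
      exact hxy (congrArg Subtype.val (hinj a (a₁ := ⟨x, hx⟩) (a₂ := ⟨y, hy⟩) ha))
  have hinvmem : ∀ x ∈ fpf N X, x⁻¹ ∈ fpf N X := fun x hx => by
    have := hclosed 1 one_mem_fpf x hx
    simpa using this
  let D : Subgroup G :=
    { carrier := {x | ∃ h : x ∈ N, (⟨x, h⟩ : N) ∈ fpf N X}
      mul_mem' := by
        rintro a b ⟨ha, ha'⟩ ⟨hb, hb'⟩
        refine ⟨N.mul_mem ha hb, ?_⟩
        have := hclosed _ hb' _ (hinvmem _ ha')
        rw [inv_inv] at this
        exact this
      one_mem' := ⟨N.one_mem, one_mem_fpf⟩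
      inv_mem' := by
        rintro a ⟨ha, ha'⟩
        exact ⟨N.inv_mem ha, hinvmem _ ha'⟩ }
  refine ⟨D, ⟨?_⟩, fun x hx => hx.1, ?_, ?_⟩
  · rintro x ⟨hx, hx'⟩ g
    refine ⟨hN.conj_mem x hx g, ?_⟩
    rcases hx' with h1 | h1
    · left
      apply Subtype.ext
      have : x = 1 := congrArg Subtype.val h1
      simp [this]
    · right
      intro c hc
      have hc' : (g * x * g⁻¹) • c = c := hc
      simp only [mul_smul] at hc'
      rw [smul_eq_iff_eq_inv_smul] at hc'
      exact h1 (g⁻¹ • c) hc'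
  · intro hbot
    have : ((x₀ : N) : G) ∈ D := ⟨(x₀ : N).2, x₀.2⟩
    rw [hbot, Subgroup.mem_bot] at this
    exact hx₀1 (Subtype.ext this)
  · rintro x ⟨hx, hx'⟩
    rcases hx' with h1 | h1
    · left
      exact congrArg Subtype.val h1
    · right
      exact h1

/-- Imprimitive case: the minimal normal subgroup is regular. -/
theorem regular_of_imprimitive [Finite G] [Fintype X] [FaithfulSMul G X]
    (hG2 : IsMultiplyPretransitive G X 2)
    (N : Subgroup G) [hN : N.Normal]
    (hmin : ∀ M : Subgroup G, M.Normal → M ≤ N → M = ⊥ ∨ M = N)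
    (htr : IsPretransitive N X) (hnp : ¬ IsPreprimitive N X) :
    ∀ a : X, stabilizer N a = ⊥ := by
  classical
  have hex : ∃ B : Set X, IsBlock N B ∧ ¬ IsTrivialBlock B := by
    by_contra hcon
    push Not at hcon
    exact hnp { toIsPretransitive := htr, isTrivialBlock_of_isBlock := fun {B} hB => hcon B hB }
  obtain ⟨B₀, hB₀, hB₀t⟩ := hex
  rw [IsTrivialBlock, not_or] at hB₀t
  let S : Set (Set X) := {B | IsBlock N B ∧ ¬ B.Subsingleton ∧ B ≠ Set.univ}
  have hSne : S.Nonempty := ⟨B₀, hB₀, hB₀t.1, hB₀t.2⟩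
  obtain ⟨B, hBm⟩ := (Set.toFinite S).exists_minimal hSne
  obtain ⟨⟨hB, hBs, hBu⟩, hBmin⟩ := hBm
  obtain ⟨c, hc, d, hd, hcd⟩ := Set.not_subsingleton_iff.1 hBs
  have hminB : ∀ B' : Set X, B' ⊆ B → IsBlock N B' → ¬ B'.Subsingleton → B' = B := by
    intro B' hsub hblk hns
    have hne : B' ≠ Set.univ := by
      rintro rfl
      exact hBu (Set.univ_subset_iff.1 hsub)
    exact Set.Subset.antisymm hsub (hBmin ⟨hblk, hns, hne⟩ hsub)
  have hsharp : ∀ h ∈ N, ∀ a b : X, a ≠ b → h • a = a → h • b = b → h = 1 := by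
    intro h hh a b hab ha hb
    exact two_fixed_trivial hG2 N hB hc hd hcd hBu hminB hh hab ha hb
  have : Nontrivial X := ⟨⟨c, d, hcd⟩⟩
  obtain ⟨D, hDn, hDN, hD1, hDf⟩ := frobenius_kernel hG2 N htr hsharp
  have hDeq : D = N := (hmin D hDn hDN).resolve_left hD1
  intro a
  rw [Subgroup.eq_bot_iff_forall]
  intro x hx
  have hx' : (x : G) ∈ D := hDeq ▸ x.2
  rcases hDf _ hx' with h1 | h1
  · exact Subtype.ext h1
  · exact (h1 a hx).elim

/-- Conjugate of a subgroup. -/
private abbrev cg (g : G) (T : Subgroup G) : Subgroup G := T.map (MulAut.conj g).toMonoidHom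

private theorem mem_cg {g : G} {T : Subgroup G} {y : G} : y ∈ cg g T ↔ g⁻¹ * y * g ∈ T := by
  rw [Subgroup.mem_map_equiv]
  simp

/-- The set of proper non-trivial `N`-normal subgroups of `N`. -/
private def Prop₁ (N T : Subgroup G) : Prop :=
  T ≠ ⊥ ∧ T ≤ N ∧ (∀ n ∈ N, ∀ t ∈ T, n * t * n⁻¹ ∈ T) ∧ T ≠ N

private theorem cg_cg (g h : G) (T : Subgroup G) : cg g (cg h T) = cg (g * h) T := by
  ext y
  simp only [mem_cg]
  simp [mul_assoc]

private theorem cg_one (T : Subgroup G) : cg 1 T = T := by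
  ext y
  simp only [mem_cg]
  simp

private theorem cg_prop {N T : Subgroup G} (hNn : N.Normal) (hT : Prop₁ N T) (g : G) :
    Prop₁ N (cg g T) := by
  obtain ⟨h1, h2, h3, h4⟩ := hT
  refine ⟨?_, ?_, ?_, ?_⟩
  · intro hbot
    apply h1
    rw [Subgroup.eq_bot_iff_forall]
    intro x hx
    have : g * x * g⁻¹ ∈ cg g T := by
      rw [mem_cg]
      simpa [mul_assoc] using hx
    rw [hbot, Subgroup.mem_bot] at this
    have h5 : g⁻¹ * (g * x * g⁻¹) * g = x := by group
    rw [← h5, this]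
    simp
  · intro y hy
    rw [mem_cg] at hy
    have := hNn.conj_mem _ (h2 hy) g
    simpa [mul_assoc] using this
  · intro n hn t ht
    rw [mem_cg] at ht ⊢
    have hn' : g⁻¹ * n * g ∈ N := by
      have := hNn.conj_mem n hn g⁻¹
      simpa using this
    have := h3 _ hn' _ ht
    have h6 : g⁻¹ * (n * t * n⁻¹) * g = g⁻¹ * n * g * (g⁻¹ * t * g) * (g⁻¹ * n * g)⁻¹ := by group
    rw [h6]
    exact this
  · intro heq
    apply h4
    ext y
    constructor
    · exact fun hy => h2 hy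
    · intro hy
      have hy' : g * y * g⁻¹ ∈ N := hNn.conj_mem y hy g
      rw [← heq, mem_cg] at hy'
      simpa [mul_assoc] using hy'

/-- Primitive case: a minimal normal subgroup which is primitive is simple. -/
theorem simple_of_primitive [Finite G] [FaithfulSMul G X]
    (hG2 : IsMultiplyPretransitive G X 2)
    (N : Subgroup G) [hNn : N.Normal] (hN : N ≠ ⊥)
    (hmin : ∀ M : Subgroup G, M.Normal → M ≤ N → M = ⊥ ∨ M = N)
    (hprim : IsPreprimitive N X) : IsSimpleGroup N := by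
  classical
  have hnt : Nontrivial N := (Subgroup.nontrivial_iff_ne_bot N).2 hN
  refine { eq_bot_or_eq_top_of_normal := fun T₀ hT₀n => ?_ }
  by_contra hcon
  rw [not_or] at hcon
  obtain ⟨hT₀1, hT₀2⟩ := hcon
  have htwo : ∀ {x y u v : X}, x ≠ y → u ≠ v → ∃ g : G, g • x = u ∧ g • y = v :=
    fun h h' => is_two_pretransitive_iff.1 hG2 h h'
  -- the minimal element
  have hSne : {T : Subgroup G | Prop₁ N T}.Nonempty := by
    refine ⟨T₀.map N.subtype, ?_, ?_, ?_, ?_⟩
    · intro h
      apply hT₀1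
      exact (Subgroup.map_eq_bot_iff_of_injective _ N.subtype_injective).1 h
    · rintro _ ⟨t, _, rfl⟩
      exact t.2
    · rintro n hn _ ⟨t, ht, rfl⟩
      refine ⟨⟨n, hn⟩ * t * ⟨n, hn⟩⁻¹, hT₀n.conj_mem _ ht _, rfl⟩
    · intro h
      apply hT₀2
      rw [eq_top_iff]
      rintro x -
      have : (x : G) ∈ T₀.map N.subtype := by rw [h]; exact x.2
      obtain ⟨t, ht, hte⟩ := this
      have : t = x := Subtype.ext hte
      exact this ▸ ht
  obtain ⟨T₁, hT₁m⟩ := (Set.toFinite {T : Subgroup G | Prop₁ N T}).exists_minimal hSne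
  obtain ⟨hT₁, hT₁min⟩ := hT₁m
  have hT₁' : Prop₁ N T₁ := hT₁
  have hmin1 : ∀ T', Prop₁ N T' → T' ≤ T₁ → T₁ ≤ T' := fun T' h1 h2 => hT₁min h1 h2
  -- minimality of translates
  have hmint : ∀ g T', Prop₁ N T' → T' ≤ cg g T₁ → T' = cg g T₁ := by
    intro g T' hT' hle
    apply le_antisymm hle
    have h1 : cg g⁻¹ T' ≤ T₁ := by
      intro y hy
      rw [mem_cg, inv_inv] at hy
      have := hle hy
      rw [mem_cg] at this
      simpa [mul_assoc] using this
    have h2 := hmin1 _ (cg_prop hNn hT' g⁻¹) h1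
    intro y hy
    rw [mem_cg] at hy
    have := h2 hy
    rw [mem_cg, inv_inv] at this
    simpa [mul_assoc] using this
  -- dichotomy
  have hdich : ∀ g, cg g T₁ ≠ T₁ → cg g T₁ ⊓ T₁ = ⊥ := by
    intro g hne
    by_contra hI
    have hTg := cg_prop hNn hT₁' g
    have hIp : Prop₁ N (cg g T₁ ⊓ T₁) := by
      refine ⟨hI, inf_le_right.trans hT₁'.2.1, ?_, ?_⟩
      · rintro n hn t ⟨ht1, ht2⟩
        exact ⟨hTg.2.2.1 n hn t ht1, hT₁'.2.2.1 n hn t ht2⟩
      · intro heq
        apply hT₁'.2.2.2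
        apply le_antisymm hT₁'.2.1
        rw [← heq]
        exact inf_le_right
    have h1 := hmin1 _ hIp inf_le_right
    have h2 : T₁ ≤ cg g T₁ := h1.trans inf_le_left
    exact hne (hmint g T₁ hT₁' h2).symm
  -- commuting
  have hcomm : ∀ g, cg g T₁ ≠ T₁ → ∀ u ∈ cg g T₁, ∀ v ∈ T₁, u * v = v * u := by
    intro g hne u hu v hv
    have hTg := cg_prop hNn hT₁' g
    have h1 : u * v * u⁻¹ * v⁻¹ ∈ T₁ :=
      T₁.mul_mem (hT₁'.2.2.1 u (hTg.2.1 hu) v hv) (T₁.inv_mem hv)
    have h2 : u * v * u⁻¹ * v⁻¹ ∈ cg g T₁ := by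
      have : u * v * u⁻¹ * v⁻¹ = u * (v * u⁻¹ * v⁻¹) := by group
      rw [this]
      exact (cg g T₁).mul_mem hu (hTg.2.2.1 v (hT₁'.2.1 hv) _ ((cg g T₁).inv_mem hu))
    have h3 : u * v * u⁻¹ * v⁻¹ ∈ cg g T₁ ⊓ T₁ := ⟨h2, h1⟩
    rw [hdich g hne, Subgroup.mem_bot] at h3
    have : u * v * u⁻¹ * v⁻¹ * (v * u) = v * u := by rw [h3, one_mul]
    rw [← this]
    group
  -- transitivity
  have htrans : ∀ T, Prop₁ N T → ∀ a b : X, ∃ t ∈ T, t • a = b := by
    intro T hT a b
    have hnorm : (T.subgroupOf N).Normal := ⟨by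
      intro x hx g
      rw [Subgroup.mem_subgroupOf] at hx ⊢
      exact hT.2.2.1 g g.2 x hx⟩
    have hne : T.subgroupOf N ≠ ⊥ := by
      intro hbot
      apply hT.1
      rw [Subgroup.eq_bot_iff_forall]
      intro x hx
      have : (⟨x, hT.2.1 hx⟩ : N) ∈ T.subgroupOf N := by
        rw [Subgroup.mem_subgroupOf]
        exact hx
      rw [hbot, Subgroup.mem_bot] at this
      exact congrArg Subtype.val this
    have := Cfsg.Agent.Lib.Perm.Normal.isPretransitive_of_normal_of_ne_bot hprim _ hne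
    obtain ⟨t, ht⟩ := this.exists_smul_eq a b
    exact ⟨t, t.2, ht⟩
  -- a nontrivial translate
  obtain ⟨g₀, hg₀⟩ : ∃ g₀, cg g₀ T₁ ≠ T₁ := by
    by_contra hcon
    push Not at hcon
    have hnormal : T₁.Normal := ⟨by
      intro t ht g
      have := hcon g
      rw [← this, mem_cg]
      simpa [mul_assoc] using ht⟩
    rcases hmin T₁ hnormal hT₁'.2.1 with h | h
    · exact hT₁'.1 h
    · exact hT₁'.2.2.2 h
  -- semiregularity
  have hsemi : ∀ t ∈ T₁, ∀ a : X, t • a = a → t = 1 := by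
    intro t ht a hta
    apply FaithfulSMul.eq_of_smul_eq_smul (α := X)
    intro b
    obtain ⟨u, hu, rfl⟩ := htrans _ (cg_prop hNn hT₁' g₀) a b
    rw [one_smul, smul_smul, ← hcomm g₀ hg₀ u hu t ht, mul_smul, hta]
  have hsemi' : ∀ t ∈ T₁, t ≠ 1 → ∀ a : X, t • a ≠ a := fun t ht h1 a h => h1 (hsemi t ht a h)
  -- exponents
  have hexp : ∀ y ∈ T₁, y ≠ 1 → ∀ y' ∈ T₁, y' ≠ 1 → ∀ k : ℕ, y ^ k = 1 → y' ^ k = 1 := by
    intro y hy hy1 y' hy' hy'1 k hk
    -- a point
    have hX : Nonempty X := by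
      by_contra hne
      rw [not_nonempty_iff] at hne
      apply hy1
      apply FaithfulSMul.eq_of_smul_eq_smul (α := X)
      intro b
      exact (hne.false b).elim
    obtain ⟨a⟩ := hX
    obtain ⟨g, hga, hgb⟩ := htwo (Ne.symm (hsemi' y hy hy1 a)) (Ne.symm (hsemi' y' hy' hy'1 a))
    have hw : g * y * g⁻¹ ∈ cg g T₁ := by
      rw [mem_cg]
      simpa [mul_assoc] using hy
    have hga' : g⁻¹ • a = a := by rw [inv_smul_eq_iff, hga]
    have hwa : (g * y * g⁻¹) • a = y' • a := by
      simp only [mul_smul]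
      rw [hga', hgb]
    have hwk : (g * y * g⁻¹) ^ k = 1 := by
      rw [conj_pow, hk]
      simp
    by_cases hT : cg g T₁ = T₁
    · have hwT : g * y * g⁻¹ ∈ T₁ := hT ▸ hw
      have h1 := hsemi (y'⁻¹ * (g * y * g⁻¹)) (T₁.mul_mem (T₁.inv_mem hy') hwT) a (by
        rw [mul_smul, hwa, inv_smul_smul])
      have h2 : g * y * g⁻¹ = y' := (inv_mul_eq_one.1 h1).symm
      rw [h2] at hwk
      exact hwk
    · have hc := hcomm g hT _ hw y' hy'
      have hj : ∀ j : ℕ, (g * y * g⁻¹) ^ j • a = y' ^ j • a := by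
        intro j
        induction j with
        | zero => simp
        | succ j ih =>
          have hcj : Commute y' ((g * y * g⁻¹) ^ j) := (Commute.pow_right hc.symm j)
          calc (g * y * g⁻¹) ^ (j + 1) • a = (g * y * g⁻¹) ^ j • ((g * y * g⁻¹) • a) := by
                rw [pow_succ, mul_smul]
            _ = ((g * y * g⁻¹) ^ j * y') • a := by rw [hwa, mul_smul]
            _ = y' • ((g * y * g⁻¹) ^ j • a) := by rw [← hcj.eq, mul_smul]
            _ = y' ^ (j + 1) • a := by rw [ih, pow_succ', mul_smul]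
      have h3 := hj k
      rw [hwk, one_smul] at h3
      exact hsemi _ (T₁.pow_mem hy' k) a h3.symm
  -- an element of prime order
  obtain ⟨y₀, hy₀, hy₀1⟩ : ∃ y ∈ T₁, y ≠ 1 := by
    have := hT₁'.1
    rw [Ne, Subgroup.eq_bot_iff_forall] at this
    push Not at this
    exact this
  have hord0 : orderOf y₀ ≠ 0 := (orderOf_pos y₀).ne'
  have hord1 : orderOf y₀ ≠ 1 := by
    rw [Ne, orderOf_eq_one_iff]
    exact hy₀1
  let p := (orderOf y₀).minFac
  have hp : p.Prime := Nat.minFac_prime hord1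
  have hpd : p ∣ orderOf y₀ := Nat.minFac_dvd _
  let y₁ := y₀ ^ (orderOf y₀ / p)
  have hy₁ord : orderOf y₁ = p := orderOf_pow_orderOf_div hord0 hpd
  have hy₁T : y₁ ∈ T₁ := T₁.pow_mem hy₀ _
  have hy₁1 : y₁ ≠ 1 := by
    intro h
    rw [h, orderOf_one] at hy₁ord
    exact hp.one_lt.ne hy₁ord
  have hy₁p : y₁ ^ p = 1 := by
    rw [← hy₁ord]
    exact pow_orderOf_eq_one y₁
  have hpow : ∀ y ∈ T₁, y ^ p = 1 := by
    intro y hy
    by_cases hy1 : y = 1
    · rw [hy1, one_pow]
    · exact hexp y₁ hy₁T hy₁1 y hy hy1 p hy₁p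
  -- `T₁` is a `p`-group, so it has a nontrivial centre
  have : Fact p.Prime := ⟨hp⟩
  have hpg : IsPGroup p T₁ := by
    intro t
    refine ⟨1, ?_⟩
    rw [pow_one]
    exact Subtype.ext (hpow t t.2)
  have hT₁nt : Nontrivial T₁ := (Subgroup.nontrivial_iff_ne_bot T₁).2 hT₁'.1
  have hcnt := hpg.center_nontrivial
  let C : Subgroup G := (Subgroup.center T₁).map T₁.subtype
  have hCp : Prop₁ N C := by
    refine ⟨?_, ?_, ?_, ?_⟩
    · intro h
      have := (Subgroup.map_eq_bot_iff_of_injective _ T₁.subtype_injective).1 h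
      exact (Subgroup.nontrivial_iff_ne_bot _).1 hcnt this
    · rintro _ ⟨t, _, rfl⟩
      exact hT₁'.2.1 t.2
    · rintro n hn _ ⟨t, ht, rfl⟩
      have hmem : n * (t : G) * n⁻¹ ∈ T₁ := hT₁'.2.2.1 n hn t t.2
      refine ⟨⟨_, hmem⟩, ?_, rfl⟩
      rw [SetLike.mem_coe, Subgroup.mem_center_iff]
      rintro ⟨s, hs⟩
      apply Subtype.ext
      have hs' : n⁻¹ * s * n ∈ T₁ := by
        have := hT₁'.2.2.1 n⁻¹ (N.inv_mem hn) s hs
        simpa using this
      have h1 := (Subgroup.mem_center_iff.1 ht) ⟨_, hs'⟩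
      have h2 : (n⁻¹ * s * n) * (t : G) = (t : G) * (n⁻¹ * s * n) := congrArg Subtype.val h1
      change s * (n * (t : G) * n⁻¹) = n * (t : G) * n⁻¹ * s
      calc s * (n * (t : G) * n⁻¹) = n * ((n⁻¹ * s * n) * (t : G)) * n⁻¹ := by group
        _ = n * ((t : G) * (n⁻¹ * s * n)) * n⁻¹ := by rw [h2]
        _ = n * (t : G) * n⁻¹ * s := by group
    · intro h
      apply hT₁'.2.2.2
      apply le_antisymm hT₁'.2.1
      rw [← h]
      rintro _ ⟨t, _, rfl⟩
      exact t.2
  have hCle : C ≤ T₁ := by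
    rintro _ ⟨t, _, rfl⟩
    exact t.2
  have hT₁C := hmin1 C hCp hCle
  have habel : ∀ s ∈ T₁, ∀ t ∈ T₁, s * t = t * s := by
    intro s hs t ht
    obtain ⟨s', hs', hse⟩ := hT₁C hs
    have h1 := (Subgroup.mem_center_iff.1 hs') ⟨t, ht⟩
    have h2 : t * (s' : G) = (s' : G) * t := congrArg Subtype.val h1
    rw [← hse]
    exact h2.symm
  -- the translate lies in `T₁`
  have hTg₀ := cg_prop hNn hT₁' g₀
  have hle : cg g₀ T₁ ≤ T₁ := by
    intro u hu
    -- a point
    have hX : Nonempty X := by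
      by_contra hne
      rw [not_nonempty_iff] at hne
      apply hy₀1
      apply FaithfulSMul.eq_of_smul_eq_smul (α := X)
      intro b
      exact (hne.false b).elim
    obtain ⟨a⟩ := hX
    obtain ⟨t, ht, hta⟩ := htrans T₁ hT₁' a (u • a)
    have : u = t := by
      apply FaithfulSMul.eq_of_smul_eq_smul (α := X)
      intro b
      obtain ⟨v, hv, rfl⟩ := htrans T₁ hT₁' a b
      rw [smul_smul, hcomm g₀ hg₀ u hu v hv, mul_smul, ← hta, ← mul_smul, ← mul_smul, habel v hv t ht]
    exact this ▸ ht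
  have hbot : cg g₀ T₁ = ⊥ := by
    have h1 := hdich g₀ hg₀
    rwa [inf_eq_left.2 hle] at h1
  exact hTg₀.1 hbot

/-- Burnside's theorem on minimal normal subgroups of 2-transitive groups. -/
theorem burnside [Finite G] [Fintype X] [FaithfulSMul G X]
    (hG2 : IsMultiplyPretransitive G X 2)
    (N : Subgroup G) [hNn : N.Normal] (hN : N ≠ ⊥)
    (hmin : ∀ M : Subgroup G, M.Normal → M ≤ N → M = ⊥ ∨ M = N) :
    (IsMulCommutative N ∧ (∃ p : ℕ, p.Prime ∧ ∀ n ∈ N, n ^ p = 1) ∧ ∀ a : X, stabilizer N a = ⊥) ∨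
      (IsSimpleGroup N ∧ IsPreprimitive N X) := by
  have hprim2 : IsPreprimitive G X := isPreprimitive_of_is_two_pretransitive hG2
  have htr := Cfsg.Agent.Lib.Perm.Normal.isPretransitive_of_normal_of_ne_bot hprim2 N hN
  by_cases hp : IsPreprimitive N X
  · exact Or.inr ⟨simple_of_primitive hG2 N hN hmin hp, hp⟩
  · left
    have hreg := regular_of_imprimitive hG2 N hmin htr hp
    have hne : Nonempty X := by
      by_contra hne
      rw [not_nonempty_iff] at hne
      apply hN
      rw [Subgroup.eq_bot_iff_forall]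
      intro x _
      apply FaithfulSMul.eq_of_smul_eq_smul (α := X)
      intro b
      exact (hne.false b).elim
    obtain ⟨h1, h2⟩ := Cfsg.Agent.Lib.Perm.Regular.elementary_abelian hG2 N htr hreg
    exact ⟨h1, h2, hreg⟩

end Cfsg.Agent.Lib.Perm.Burnside
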