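import Mathlib.GroupTheory.GroupAction.SubMulAction.Combination
import Mathlib.Data.Nat.Choose.Lucas
import Mathlib.Combinatorics.Enumerative.DoubleCounting
import Mathlib.Data.Nat.Factorization.Basic

/-!
# `k`-homogeneous groups
-/

set_option autoImplicit false

open MulAction
open scoped Pointwise

namespace Cfsg.Agent.Lib.Perm.Homogeneous

variable {G α : Type*} [Group G] [MulAction G α] [DecidableEq α]

/-- Homogeneity in concrete form. -/
theorem homog_iff {k : ℕ} : IsPretransitive G (Set.powersetCard α k) ↔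
    ∀ A B : Finset α, A.card = k → B.card = k → ∃ g : G, g • A = B := by
  constructor
  · intro h A B hA hB
    obtain ⟨g, hg⟩ := h.exists_smul_eq ⟨A, hA⟩ ⟨B, hB⟩
    exact ⟨g, congrArg Subtype.val hg⟩
  · intro h
    refine ⟨fun A B => ?_⟩
    obtain ⟨g, hg⟩ := h A.1 B.1 A.2 B.2
    exact ⟨g, Subtype.ext hg⟩

private theorem aux_sub (p A : ℕ) (hp : 0 < p) (hA : 0 < A) : p * A - 1 = (p - 1) + p * (A - 1) := by
  obtain ⟨w, rfl⟩ : ∃ w, p = w + 1 := ⟨p - 1, by omega⟩
  obtain ⟨B, rfl⟩ : ∃ B, A = B + 1 := ⟨A - 1, by omega⟩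
  simp only [Nat.add_sub_cancel]
  apply Nat.sub_eq_of_eq_add
  ring

/-- Binomial coefficient modulo `p` by Lucas. -/
theorem choose_prime_pow_modEq {p : ℕ} (hp : p.Prime) (a : ℕ) : ∀ k : ℕ, p ^ a ∣ k →
    (k + p ^ a - 1).choose (p ^ a - 1) ≡ 1 [MOD p] := by
  have := Fact.mk hp
  induction a with
  | zero =>
    intro k _
    simp [Nat.ModEq]
  | succ a ih =>
    rintro k ⟨l, rfl⟩
    have hpa : 0 < p ^ a := pow_pos hp.pos a
    have hppos := hp.pos
    set u := p ^ a with hu
    have h1 : p ^ (a + 1) * l + p ^ (a + 1) - 1 = (p - 1) + p * (u * l + u - 1) := by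
      rw [← aux_sub p (u * l + u) hppos (by positivity), pow_succ, ← hu]
      congr 1
      ring
    have h2 : p ^ (a + 1) - 1 = (p - 1) + p * (u - 1) := by
      rw [← aux_sub p u hppos hpa, pow_succ, ← hu, mul_comm]
    have hlt : p - 1 < p := by omega
    have hmod : ∀ x, ((p - 1) + p * x) % p = p - 1 := fun x => by
      rw [Nat.add_mul_mod_self_left, Nat.mod_eq_of_lt hlt]
    have hdiv : ∀ x, ((p - 1) + p * x) / p = x := fun x => by
      rw [Nat.add_mul_div_left _ _ hppos, Nat.div_eq_of_lt hlt, zero_add]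
    have h3 := Choose.choose_modEq_choose_mod_mul_choose_div_nat (n := p ^ (a + 1) * l + p ^ (a + 1) - 1)
      (k := p ^ (a + 1) - 1) (p := p)
    rw [h1, h2, hmod, hmod, hdiv, hdiv, Nat.choose_self, one_mul] at h3
    rw [h1, h2]
    exact h3.trans (ih (u * l) (dvd_mul_right _ _))

/-- Number of one-point extensions of `S` inside `Y`. -/
theorem card_superset {Y S : Finset α} (hS : S ⊆ Y) :
    ((Y.powersetCard (S.card + 1)).filter (fun K => S ⊆ K)).card = Y.card - S.card := by
  rw [← Finset.card_sdiff_of_subset hS]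
  symm
  refine Finset.card_bij (fun y _ => insert y S) ?_ ?_ ?_
  · intro y hy
    rw [Finset.mem_sdiff] at hy
    simp only [Finset.mem_filter, Finset.mem_powersetCard]
    refine ⟨⟨Finset.insert_subset hy.1 hS, Finset.card_insert_of_notMem hy.2⟩,
      Finset.subset_insert _ _⟩
  · intro y hy z hz hyz
    rw [Finset.mem_sdiff] at hy hz
    have : y ∈ insert z S := hyz ▸ Finset.mem_insert_self y S
    rcases Finset.mem_insert.1 this with h | h
    · exact h
    · exact (hy.2 h).elim
  · intro K hK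
    simp only [Finset.mem_filter, Finset.mem_powersetCard] at hK
    obtain ⟨⟨hKY, hKc⟩, hSK⟩ := hK
    have h1 : (K \ S).card = 1 := by
      rw [Finset.card_sdiff_of_subset hSK]
      omega
    obtain ⟨y, hy⟩ := Finset.card_eq_one.1 h1
    have hyK : y ∈ K \ S := by rw [hy]; exact Finset.mem_singleton_self y
    rw [Finset.mem_sdiff] at hyK
    refine ⟨y, Finset.mem_sdiff.2 ⟨hKY hyK.1, hyK.2⟩, ?_⟩
    rw [← Finset.sdiff_union_of_subset hSK, hy]
    rfl

/-- The descent `k → k-1`. -/
theorem descend [Fintype α] {k : ℕ} (hk : 2 ≤ k) (hG : IsPretransitive G (Set.powersetCard α k))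
    (hq : ∀ q : ℕ, IsPrimePow q → q ∣ k → k + q - 1 ≤ Fintype.card α) :
    IsPretransitive G (Set.powersetCard α (k - 1)) := by
  classical
  rw [homog_iff] at hG ⊢
  -- `k ≤ n`
  have hkn : k ≤ Fintype.card α := by
    obtain ⟨p, hp, hpk⟩ := Nat.exists_prime_and_dvd (show k ≠ 1 by omega)
    have := hq p hp.isPrimePow hpk
    have := hp.two_le
    omega
  obtain ⟨m, rfl⟩ : ∃ m, k = m + 1 := ⟨k - 1, by omega⟩
  simp only [Nat.add_sub_cancel]
  -- reduce to a base point
  suffices hbase : ∀ S₀ T : Finset α, S₀.card = m → T.card = m → ∃ g : G, g • S₀ = T from hbase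
  intro S₀ T hS₀ hT
  -- the orbit as a finset
  let O : Finset (Finset α) := Finset.univ.filter (fun S => ∃ g : G, g • S₀ = S)
  have hOmem : ∀ S, S ∈ O ↔ ∃ g : G, g • S₀ = S := fun S => by simp [O]
  have hOinv : ∀ (g : G) (S : Finset α), S ∈ O ↔ g • S ∈ O := by
    intro g S
    rw [hOmem, hOmem]
    constructor
    · rintro ⟨h, rfl⟩
      exact ⟨g * h, mul_smul _ _ _⟩
    · rintro ⟨h, hh⟩
      exact ⟨g⁻¹ * h, by rw [mul_smul, hh, inv_smul_smul]⟩
  -- the count
  let cnt : Finset α → ℕ := fun K => (O.filter (fun S => S.card = m ∧ S ⊆ K)).card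
  have hcnt : ∀ K K' : Finset α, K.card = m + 1 → K'.card = m + 1 → cnt K = cnt K' := by
    intro K K' hK hK'
    obtain ⟨g, hg⟩ := hG K K' hK hK'
    refine Finset.card_bij (fun S _ => g • S) ?_ ?_ ?_
    · intro S hS
      simp only [Finset.mem_filter] at hS ⊢
      refine ⟨(hOinv g S).1 hS.1, by rw [Finset.card_smul_finset]; exact hS.2.1, ?_⟩
      rw [← hg]
      exact Finset.smul_finset_subset_smul_finset_iff.2 hS.2.2
    · intro S _ S' _ h
      exact MulAction.injective g h
    · intro S hS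
      simp only [Finset.mem_filter] at hS
      refine ⟨g⁻¹ • S, ?_, by simp⟩
      simp only [Finset.mem_filter]
      refine ⟨(hOinv g⁻¹ S).1 hS.1, by rw [Finset.card_smul_finset]; exact hS.2.1, ?_⟩
      rw [← hg] at hS
      have := Finset.smul_finset_subset_smul_finset_iff (a := g⁻¹).2 hS.2.2
      simpa using this
  -- a superset of `S₀`
  obtain ⟨K₀, hS₀K₀, hK₀⟩ := Finset.exists_superset_card_eq (s := S₀) (n := m + 1) (by omega) hkn
  have hcpos : 0 < cnt K₀ := by
    refine Finset.card_pos.2 ⟨S₀, ?_⟩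
    simp only [Finset.mem_filter]
    exact ⟨(hOmem _).2 ⟨1, one_smul _ _⟩, hS₀, hS₀K₀⟩
  have hcle : cnt K₀ ≤ m + 1 := by
    have h1 : O.filter (fun S => S.card = m ∧ S ⊆ K₀) ⊆ K₀.powersetCard m := by
      intro S hS
      simp only [Finset.mem_filter] at hS
      exact Finset.mem_powersetCard.2 ⟨hS.2.2, hS.2.1⟩
    have h2 := Finset.card_le_card h1
    rw [Finset.card_powersetCard, hK₀, Nat.choose_succ_self_right] at h2
    exact h2
  -- divisibility
  have hcdvd : ∀ p a : ℕ, p.Prime → p ^ a ∣ m + 1 → p ^ a ∣ cnt K₀ := by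
    intro p a hp hpa
    rcases Nat.eq_zero_or_pos a with rfl | ha
    · simp
    set q := p ^ a with hqdef
    have hqpp : IsPrimePow q := hp.isPrimePow.pow ha.ne'
    have hqb := hq q hqpp hpa
    have hqpos : 0 < q := pow_pos hp.pos a
    obtain ⟨Y, -, hY⟩ := Finset.exists_subset_card_eq (s := (Finset.univ : Finset α)) (n := m + q)
      (by rw [Finset.card_univ]; omega)
    let O' : Finset (Finset α) := O.filter (fun S => S.card = m ∧ S ⊆ Y)
    have hdc := Finset.sum_card_bipartiteAbove_eq_sum_card_bipartiteBelow (s := O')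
      (t := Y.powersetCard (m + 1)) (fun S K => S ⊆ K)
    have hleft : ∀ S ∈ O', (Finset.bipartiteAbove (fun S K => S ⊆ K)
        (Y.powersetCard (m + 1)) S).card = q := by
      intro S hS
      simp only [O', Finset.mem_filter] at hS
      have h1 := card_superset hS.2.2
      rw [hS.2.1, hY] at h1
      rw [Finset.bipartiteAbove, h1]
      omega
    have hright : ∀ K ∈ Y.powersetCard (m + 1), (Finset.bipartiteBelow (fun S K => S ⊆ K)
        O' K).card = cnt K₀ := by
      intro K hK
      rw [Finset.mem_powersetCard] at hK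
      rw [← hcnt K K₀ hK.2 hK₀]
      congr 1
      ext S
      simp only [Finset.bipartiteBelow, O', Finset.mem_filter]
      constructor
      · rintro ⟨⟨h1, h2, _⟩, h3⟩
        exact ⟨h1, h2, h3⟩
      · rintro ⟨h1, h2, h3⟩
        exact ⟨⟨h1, h2, h3.trans hK.1⟩, h3⟩
    rw [Finset.sum_congr rfl hleft, Finset.sum_congr rfl hright] at hdc
    simp only [Finset.sum_const, smul_eq_mul, Finset.card_powersetCard, hY] at hdc
    have hsymm : (m + q).choose (m + 1) = (m + q).choose (q - 1) :=
      Nat.choose_symm_of_eq_add (by omega)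
    rw [hsymm] at hdc
    have hlucas := choose_prime_pow_modEq hp a (m + 1) hpa
    have heq : m + 1 + p ^ a - 1 = m + q := by omega
    rw [heq] at hlucas
    have hcop : Nat.Coprime p ((m + q).choose (q - 1)) := by
      rw [hp.coprime_iff_not_dvd]
      intro hd
      have h1 := (Nat.modEq_zero_iff_dvd.2 hd).symm.trans hlucas
      have h2 : p ∣ 1 := (Nat.modEq_zero_iff_dvd.1 h1.symm)
      exact hp.one_lt.ne' (Nat.dvd_one.1 h2)
    have hcop' : Nat.Coprime q ((m + q).choose (q - 1)) := Nat.Coprime.pow_left a hcop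
    refine hcop'.dvd_of_dvd_mul_left ?_
    rw [← hdc]
    exact dvd_mul_left _ _
  have hdvd : m + 1 ∣ cnt K₀ := by
    rw [Nat.dvd_iff_prime_pow_dvd_dvd]
    intro p a hp hpa
    exact hcdvd p a hp hpa
  have hceq : cnt K₀ = m + 1 := le_antisymm hcle (Nat.le_of_dvd hcpos hdvd)
  -- conclusion
  obtain ⟨K, hTK, hK⟩ := Finset.exists_superset_card_eq (s := T) (n := m + 1) (by omega) hkn
  have hcK : cnt K = m + 1 := by rw [hcnt K K₀ hK hK₀, hceq]
  have hsub : O.filter (fun S => S.card = m ∧ S ⊆ K) ⊆ K.powersetCard m := by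
    intro S hS
    simp only [Finset.mem_filter] at hS
    exact Finset.mem_powersetCard.2 ⟨hS.2.2, hS.2.1⟩
  have heq := Finset.eq_of_subset_of_card_le hsub (by
    rw [Finset.card_powersetCard, hK, Nat.choose_succ_self_right]
    exact hcK.ge)
  have hTmem : T ∈ O.filter (fun S => S.card = m ∧ S ⊆ K) := by
    rw [heq]
    exact Finset.mem_powersetCard.2 ⟨hTK, hT⟩
  exact (hOmem T).1 (Finset.mem_filter.1 hTmem).1

end Cfsg.Agent.Lib.Perm.Homogeneous
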