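import Cfsg.Agent.Lib.Perm.NSClassify
import Mathlib.GroupTheory.IndexNormal
import Mathlib.GroupTheory.SpecificGroups.Alternating.Simple
import Cfsg.Agent.Lib.Perm.Homogeneous

/-!
# The group induced on a finite subset
-/

set_option autoImplicit false
set_option linter.unusedSectionVars false

open MulAction Equiv
open scoped Pointwise

namespace Cfsg.Agent.Lib.Perm.Induced

open Cfsg.Agent.Lib.Perm Cfsg.Agent.Lib.Perm.Basic Cfsg.Agent.Lib.Perm.LWCore
  Cfsg.Agent.Lib.Perm.NSClassify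

/-- A subgroup of small index in a symmetric group contains the alternating group. -/
theorem alternating_le_of_index_lt {X : Type*} [Fintype X] [DecidableEq X]
    (hX : 5 ≤ Fintype.card X) (L : Subgroup (Perm X)) (hL : L.index < Fintype.card X) :
    alternatingGroup X ≤ L := by
  have hdvd : L.normalCore.index ∣ L.index.factorial := by
    rw [Subgroup.normalCore_eq_ker, Subgroup.index_ker, Subgroup.index_eq_card, ← Nat.card_perm]
    exact Subgroup.card_subgroup_dvd_card _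
  have hntr : Nontrivial L.normalCore := by
    by_contra hcon
    rw [not_nontrivial_iff_subsingleton] at hcon
    have hbot : L.normalCore = ⊥ := Subgroup.eq_bot_of_subsingleton _
    rw [hbot, Subgroup.index_bot, Nat.card_perm] at hdvd
    have h1 := Nat.le_of_dvd (Nat.factorial_pos _) hdvd
    have hpos : 0 < L.index := Nat.pos_of_ne_zero Subgroup.index_ne_zero_of_finite
    have h2 : L.index.factorial < (Nat.card X).factorial := by
      rw [Nat.card_eq_fintype_card]
      exact Nat.factorial_lt hpos |>.2 hL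
    omega
  have := Perm.alternatingGroup_le_of_normal (α := X) (by rwa [Nat.card_eq_fintype_card])
    (N := L.normalCore) hntr
  exact this.trans L.normalCore_le

variable {α : Type*} [Fintype α] [DecidableEq α] {G : Subgroup (Perm α)} {t : ℕ}

/-- The group of permutations of `Δ` induced by elements of `G`. -/
def indGrp (G : Subgroup (Perm α)) (Δ : Finset α) : Subgroup (Perm ↥Δ) where
  carrier := {σ | ∃ g ∈ G, ∀ x : ↥Δ, g (x : α) = σ x}
  mul_mem' := by
    rintro σ τ ⟨g, hg, hgσ⟩ ⟨h, hh, hhτ⟩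
    refine ⟨g * h, G.mul_mem hg hh, fun x => ?_⟩
    rw [Perm.mul_apply, hhτ, hgσ]
    rfl
  one_mem' := ⟨1, G.one_mem, fun _ => rfl⟩
  inv_mem' := by
    rintro σ ⟨g, hg, hgσ⟩
    refine ⟨g⁻¹, G.inv_mem hg, fun x => ?_⟩
    rw [Perm.inv_eq_iff_eq, hgσ]
    simp

theorem mem_indGrp {Δ : Finset α} {σ : Perm ↥Δ} :
    σ ∈ indGrp G Δ ↔ ∃ g ∈ G, ∀ x : ↥Δ, g (x : α) = σ x := Iff.rfl

/-- The order of `G` through a `t`-set. -/
theorem card_G (hG : IsMultiplyPretransitive G α t) (s : Finset α) (hs : s.card = t) :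
    Nat.card G = (Fintype.card α).descFactorial t * hOrd G s := by
  have h1 := hG.index_of_fixingSubgroup_mul (s := (s : Set α)) (by rw [Set.ncard_coe_finset, hs])
  have htn : t ≤ Fintype.card α := by rw [← hs]; exact Finset.card_le_univ s
  rw [Nat.card_eq_fintype_card] at h1
  have h2 := Nat.factorial_mul_descFactorial htn
  have h3 : (fixingSubgroup (↥G) (s : Set α)).index = (Fintype.card α).descFactorial t := by
    apply Nat.eq_of_mul_eq_mul_right (Nat.factorial_pos (Fintype.card α - t))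
    rw [h1, ← h2, mul_comm]
  rw [← Subgroup.index_mul_card (fixingSubgroup (↥G) (s : Set α)), h3]

/-- The group homomorphism from the setwise stabiliser. -/
noncomputable def stabHom (G : Subgroup (Perm α)) (Δ : Finset α) :
    stabilizer G Δ →* Perm ↥Δ where
  toFun u := ((u : G) : Perm α).subtypePerm (fun x => by
    have h : (u : G) • Δ = Δ := u.2
    have h2 : ((u : G) : Perm α) x = (u : G) • x := rfl
    rw [h2]
    have h3 := Finset.smul_mem_smul_finset_iff (s := Δ) (b := x) (u : G)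
    rw [h] at h3
    exact h3)
  map_one' := by
    ext x
    rfl
  map_mul' u v := by
    ext x
    rfl

theorem stabHom_apply {Δ : Finset α} (u : stabilizer G Δ) (x : ↥Δ) :
    ((stabHom G Δ u x : ↥Δ) : α) = ((u : G) : Perm α) x := rfl

theorem range_stabHom (Δ : Finset α) : (stabHom G Δ).range = indGrp G Δ := by
  ext σ
  constructor
  · rintro ⟨u, rfl⟩
    exact ⟨_, (u : G).2, fun x => rfl⟩
  · rintro ⟨g, hg, hgσ⟩
    have hmem : (⟨g, hg⟩ : G) ∈ stabilizer G Δ := by
      rw [mem_stabilizer_iff]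
      apply Finset.eq_of_subset_of_card_le
      · intro y hy
        obtain ⟨x, hx, rfl⟩ := Finset.mem_smul_finset.1 hy
        have : g x = σ ⟨x, hx⟩ := hgσ ⟨x, hx⟩
        change g x ∈ Δ
        rw [this]
        exact (σ ⟨x, hx⟩).2
      · rw [Finset.card_smul_finset]
    refine ⟨⟨⟨g, hg⟩, hmem⟩, ?_⟩
    ext x
    exact hgσ x

/-- The order of the setwise stabiliser. -/
theorem card_stab (Δ : Finset α) :
    Nat.card (stabilizer G Δ) = Nat.card (indGrp G Δ) * hOrd G Δ := by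
  have h1 := Subgroup.index_mul_card (stabHom G Δ).ker
  rw [Subgroup.index_ker, range_stabHom] at h1
  rw [← h1]
  congr 1
  refine Nat.card_congr ⟨fun u => ⟨(u : stabilizer G Δ), mem_MZ.2 (fun z hz => ?_)⟩,
    fun v => ⟨⟨v, ?_⟩, ?_⟩, fun _ => rfl, fun _ => rfl⟩
  · have h2 := DFunLike.congr_fun (MonoidHom.mem_ker.1 u.2) ⟨z, hz⟩
    exact congrArg Subtype.val h2
  · rw [mem_stabilizer_iff]
    apply Finset.eq_of_subset_of_card_le
    · intro y hy
      obtain ⟨x, hx, rfl⟩ := Finset.mem_smul_finset.1 hy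
      have h3 : ((v : G) : Perm α) x = x := mem_MZ.1 v.2 x hx
      change ((v : G) : Perm α) x ∈ Δ
      rw [h3]
      exact hx
    · rw [Finset.card_smul_finset]
  · rw [MonoidHom.mem_ker]
    ext x
    exact mem_MZ.1 v.2 x x.2

/-- The order formula through the size of an orbit. -/
theorem orbit_card_mul (Δ : Finset α) :
    (orbit G Δ).ncard * (Nat.card (indGrp G Δ) * hOrd G Δ) = Nat.card G := by
  rw [← card_stab, ← index_stabilizer, Subgroup.index_mul_card]

theorem hOrd_eq_one_of_rigid (hR : Rigid G t) {Δ : Finset α} (hΔ : Δ.card = t + 1) :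
    hOrd G Δ = 1 := by
  rw [Nat.card_eq_one_iff_unique]
  refine ⟨⟨fun u v => ?_⟩, ⟨1⟩⟩
  have h1 := hR Δ hΔ _ (u : G).2 (fun a ha => mem_MZ.1 u.2 a ha)
  have h2 := hR Δ hΔ _ (v : G).2 (fun a ha => mem_MZ.1 v.2 a ha)
  exact Subtype.ext (Subtype.ext (h1.trans h2.symm))

theorem card_perm_coe {Δ : Finset α} (hΔ : Δ.card = t + 1) :
    Nat.card (Perm ↥Δ) = (t + 1).factorial := by
  rw [Nat.card_perm, Nat.card_eq_fintype_card, Fintype.card_coe, hΔ]

/-- The fundamental formula: `|orbit| · N = C(n, t + 1) · i · h`. -/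
theorem orbit_formula (hG : IsMultiplyPretransitive G α t) (hR : Rigid G t) {Δ : Finset α}
    (hΔ : Δ.card = t + 1) {s : Finset α} (hs : s.card = t) :
    (orbit G Δ).ncard * (Fintype.card α - t) =
      (Fintype.card α).choose (t + 1) * ((indGrp G Δ).index * hOrd G s) := by
  have h1 := orbit_card_mul (G := G) Δ
  rw [hOrd_eq_one_of_rigid hR hΔ, mul_one, card_G hG s hs] at h1
  have h2 := Subgroup.index_mul_card (indGrp G Δ)
  rw [card_perm_coe hΔ] at h2
  have h3 := Nat.descFactorial_eq_factorial_mul_choose (Fintype.card α) (t + 1)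
  rw [Nat.descFactorial_succ] at h3
  set O := (orbit G Δ).ncard
  set N := Fintype.card α - t
  set D := (Fintype.card α).descFactorial t
  set C := (Fintype.card α).choose (t + 1)
  set i := (indGrp G Δ).index
  set L := Nat.card (indGrp G Δ)
  set h := hOrd G s
  have hL : 0 < L := Nat.card_pos
  apply Nat.eq_of_mul_eq_mul_right hL
  calc O * N * L = (O * L) * N := by ring
    _ = D * h * N := by rw [h1]
    _ = (N * D) * h := by ring
    _ = (i * L) * C * h := by rw [h3, h2]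
    _ = C * (i * h) * L := by ring

theorem orbit_subset {m : ℕ} {Δ : Finset α} (hΔ : Δ.card = m) :
    orbit G Δ ⊆ ((Finset.univ.powersetCard m : Finset (Finset α)) : Set (Finset α)) := by
  rintro _ ⟨g, rfl⟩
  rw [Finset.mem_coe, Finset.mem_powersetCard]
  refine ⟨Finset.subset_univ _, ?_⟩
  change (g • Δ).card = m
  rw [Finset.card_smul_finset, hΔ]

theorem orbit_le {m : ℕ} {Δ : Finset α} (hΔ : Δ.card = m) :
    (orbit G Δ).ncard ≤ (Fintype.card α).choose m := by
  have h1 := Set.ncard_le_ncard (orbit_subset (G := G) hΔ) (Finset.finite_toSet _)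
  rw [Set.ncard_coe_finset, Finset.card_powersetCard, Finset.card_univ] at h1
  exact h1

theorem orbit_eq_of_homog {m : ℕ} (hh : IsPretransitive G (Set.powersetCard α m)) {Δ : Finset α}
    (hΔ : Δ.card = m) : (orbit G Δ).ncard = (Fintype.card α).choose m := by
  have hh' := Homogeneous.homog_iff.1 hh
  have h1 : orbit G Δ = ((Finset.univ.powersetCard m : Finset (Finset α)) : Set (Finset α)) := by
    apply Set.Subset.antisymm (orbit_subset hΔ)
    intro B hB
    rw [Finset.mem_coe, Finset.mem_powersetCard] at hB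
    obtain ⟨g, hg⟩ := hh' Δ B hΔ hB.2
    exact ⟨g, hg⟩
  rw [h1, Set.ncard_coe_finset, Finset.card_powersetCard, Finset.card_univ]

theorem orbit_two {m : ℕ} {Δ₁ Δ₂ : Finset α} (h₁ : Δ₁.card = m) (h₂ : Δ₂.card = m)
    (hne : Δ₂ ∉ orbit G Δ₁) :
    (orbit G Δ₁).ncard + (orbit G Δ₂).ncard ≤ (Fintype.card α).choose m := by
  classical
  have hdisj : Disjoint (orbit G Δ₁) (orbit G Δ₂) := by
    rw [Set.disjoint_left]
    rintro x ⟨g, rfl⟩ ⟨h, hh⟩
    apply hne
    refine ⟨h⁻¹ * g, ?_⟩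
    have hh' : h • Δ₂ = g • Δ₁ := hh
    change (h⁻¹ * g) • Δ₁ = Δ₂
    rw [mul_smul, ← hh', inv_smul_smul]
  rw [← Set.ncard_union_eq hdisj (Set.toFinite _) (Set.toFinite _)]
  have h1 := Set.ncard_le_ncard (s := orbit G Δ₁ ∪ orbit G Δ₂)
    (t := ((Finset.univ.powersetCard m : Finset (Finset α)) : Set (Finset α)))
    (Set.union_subset (orbit_subset h₁) (orbit_subset h₂)) (Finset.finite_toSet _)
  rw [Set.ncard_coe_finset, Finset.card_powersetCard, Finset.card_univ] at h1
  exact h1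

theorem choose_pos {Δ : Finset α} {m : ℕ} (hΔ : Δ.card = m) : 0 < (Fintype.card α).choose m :=
  Nat.choose_pos (by rw [← hΔ]; exact Finset.card_le_univ Δ)

/-- The index of the induced group is at most `N / h`. -/
theorem index_mul_le (hG : IsMultiplyPretransitive G α t) (hR : Rigid G t) {Δ : Finset α}
    (hΔ : Δ.card = t + 1) {s : Finset α} (hs : s.card = t) :
    (indGrp G Δ).index * hOrd G s ≤ Fintype.card α - t := by
  have h1 := orbit_formula hG hR hΔ hs
  have h2 := orbit_le (G := G) hΔ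
  have h3 := choose_pos hΔ
  apply Nat.le_of_mul_le_mul_left _ h3
  rw [← h1]
  exact Nat.mul_le_mul_right _ h2

/-- The index of the induced group under homogeneity. -/
theorem index_mul_eq (hG : IsMultiplyPretransitive G α t) (hR : Rigid G t)
    (hh : IsPretransitive G (Set.powersetCard α (t + 1))) {Δ : Finset α}
    (hΔ : Δ.card = t + 1) {s : Finset α} (hs : s.card = t) :
    (indGrp G Δ).index * hOrd G s = Fintype.card α - t := by
  have h1 := orbit_formula hG hR hΔ hs
  rw [orbit_eq_of_homog hh hΔ] at h1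
  exact (Nat.eq_of_mul_eq_mul_left (choose_pos hΔ) h1).symm

/-- Two orbits on `(t + 1)`-sets. -/
theorem index_two_le (hG : IsMultiplyPretransitive G α t) (hR : Rigid G t) {Δ₁ Δ₂ : Finset α}
    (h₁ : Δ₁.card = t + 1) (h₂ : Δ₂.card = t + 1) (hne : Δ₂ ∉ orbit G Δ₁) {s : Finset α}
    (hs : s.card = t) :
    ((indGrp G Δ₁).index + (indGrp G Δ₂).index) * hOrd G s ≤ Fintype.card α - t := by
  have h1 := orbit_formula hG hR h₁ hs
  have h2 := orbit_formula hG hR h₂ hs
  have h3 := orbit_two (G := G) h₁ h₂ hne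
  have h4 := choose_pos h₁
  apply Nat.le_of_mul_le_mul_left _ h4
  calc (Fintype.card α).choose (t + 1) * (((indGrp G Δ₁).index + (indGrp G Δ₂).index) * hOrd G s)
      = (Fintype.card α).choose (t + 1) * ((indGrp G Δ₁).index * hOrd G s) +
        (Fintype.card α).choose (t + 1) * ((indGrp G Δ₂).index * hOrd G s) := by ring
    _ = ((orbit G Δ₁).ncard + (orbit G Δ₂).ncard) * (Fintype.card α - t) := by
        rw [← h1, ← h2]; ring
    _ ≤ _ := Nat.mul_le_mul_right _ h3

/-- A full induced group and homogeneity give multiple transitivity. -/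
theorem trans_of_full {m : ℕ} (hh : IsPretransitive G (Set.powersetCard α m)) {Δ₀ : Finset α}
    (hΔ₀ : Δ₀.card = m) (hfull : indGrp G Δ₀ = ⊤) : IsMultiplyPretransitive G α m := by
  classical
  have hh' := Homogeneous.homog_iff.1 hh
  apply of_exists_agree
  intro s hs f hf
  have hs' : (s.image f).card = m := by
    rw [Finset.card_image_of_injOn hf, hs]
  obtain ⟨g₁, hg₁⟩ := hh' Δ₀ s hΔ₀ hs
  obtain ⟨g₂, hg₂⟩ := hh' Δ₀ (s.image f) hΔ₀ hs'
  have hmap : ∀ x : ↥Δ₀, g₂⁻¹ • f (g₁ • (x : α)) ∈ Δ₀ := by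
    intro x
    have h1 : g₁ • (x : α) ∈ s := by
      rw [← hg₁]
      exact Finset.smul_mem_smul_finset x.2
    have h2 : f (g₁ • (x : α)) ∈ s.image f := Finset.mem_image_of_mem f h1
    rw [← hg₂] at h2
    exact Finset.mem_smul_finset.1 h2 |>.elim (fun y hy => by
      rw [← hy.2, inv_smul_smul]
      exact hy.1)
  let F : ↥Δ₀ → ↥Δ₀ := fun x => ⟨g₂⁻¹ • f (g₁ • (x : α)), hmap x⟩
  have hFinj : Function.Injective F := by
    intro x y hxy
    have h1 : g₂⁻¹ • f (g₁ • (x : α)) = g₂⁻¹ • f (g₁ • (y : α)) := congrArg Subtype.val hxy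
    have h2 := MulAction.injective _ h1
    have h3 : g₁ • (x : α) ∈ (s : Set α) := by
      rw [Finset.mem_coe, ← hg₁]
      exact Finset.smul_mem_smul_finset x.2
    have h4 : g₁ • (y : α) ∈ (s : Set α) := by
      rw [Finset.mem_coe, ← hg₁]
      exact Finset.smul_mem_smul_finset y.2
    exact Subtype.ext (MulAction.injective _ (hf h3 h4 h2))
  let σ : Perm ↥Δ₀ := Equiv.ofBijective F (Finite.injective_iff_bijective.1 hFinj)
  have hσ : σ ∈ indGrp G Δ₀ := by rw [hfull]; exact Subgroup.mem_top _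
  obtain ⟨g, hg, hgσ⟩ := hσ
  refine ⟨g₂ * ⟨g, hg⟩ * g₁⁻¹, fun x hx => ?_⟩
  have hx' : g₁⁻¹ • x ∈ Δ₀ := by
    rw [← hg₁] at hx
    obtain ⟨y, hy, rfl⟩ := Finset.mem_smul_finset.1 hx
    rw [inv_smul_smul]
    exact hy
  have h1 := hgσ ⟨g₁⁻¹ • x, hx'⟩
  rw [mul_smul, mul_smul]
  have h2 : (⟨g, hg⟩ : G) • (g₁⁻¹ • x) = g (g₁⁻¹ • x) := rfl
  rw [h2, h1]
  change g₂ • (g₂⁻¹ • f (g₁ • g₁⁻¹ • x)) = f x
  rw [smul_inv_smul, smul_inv_smul]

/-- Extension by an even permutation. -/
theorem exists_even_ext {E E' : Finset α} (hAlt : alternatingGroup ↥E' ≤ indGrp G E') (g₀ : G)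
    (hg₀ : g₀ • E = E') (φ : α → α) (hφ1 : ∀ x ∈ E, φ x ∈ E') (hφ2 : Set.InjOn φ E) {p q : α}
    (hp : p ∈ E') (hq : q ∈ E') (hpq : p ≠ q) :
    (∃ g : G, ∀ x ∈ E, g • x = φ x) ∨ (∃ g : G, ∀ x ∈ E, g • x = Equiv.swap p q (φ x)) := by
  classical
  have hmem : ∀ y : ↥E', g₀⁻¹ • (y : α) ∈ E := by
    intro y
    have h1 : (y : α) ∈ g₀ • E := by
      rw [hg₀]
      exact y.2
    obtain ⟨x, hx, hxy⟩ := Finset.mem_smul_finset.1 h1
    rw [← hxy, inv_smul_smul]
    exact hx
  let F : ↥E' → ↥E' := fun y => ⟨φ (g₀⁻¹ • (y : α)), hφ1 _ (hmem y)⟩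
  have hFinj : Function.Injective F := by
    intro x y hxy
    have h1 : φ (g₀⁻¹ • (x : α)) = φ (g₀⁻¹ • (y : α)) := congrArg Subtype.val hxy
    have h2 := hφ2 (Finset.mem_coe.2 (hmem x)) (Finset.mem_coe.2 (hmem y)) h1
    exact Subtype.ext (MulAction.injective _ h2)
  let σ₀ : Perm ↥E' := Equiv.ofBijective F (Finite.injective_iff_bijective.1 hFinj)
  have hσ₀ : ∀ x (hx : x ∈ E), ((σ₀ ⟨g₀ • x, hg₀ ▸ Finset.smul_mem_smul_finset hx⟩ : ↥E') : α) = φ x := by
    intro x hx
    change φ (g₀⁻¹ • (g₀ • x)) = φ x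
    rw [inv_smul_smul]
  have hx₀ : ∀ x (hx : x ∈ E), g₀ • x ∈ E' := fun x hx => hg₀ ▸ Finset.smul_mem_smul_finset hx
  rcases Int.units_eq_one_or (Perm.sign σ₀) with hs | hs
  · left
    obtain ⟨g', hg', hgσ⟩ := hAlt (Perm.mem_alternatingGroup.2 hs)
    refine ⟨⟨g', hg'⟩ * g₀, fun x hx => ?_⟩
    have h1 := hgσ ⟨g₀ • x, hx₀ x hx⟩
    rw [mul_smul]
    change g' (g₀ • x) = φ x
    rw [h1, hσ₀ x hx]
  · right
    let P : ↥E' := ⟨p, hp⟩
    let Q : ↥E' := ⟨q, hq⟩
    have hPQ : P ≠ Q := fun h => hpq (congrArg Subtype.val h)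
    let σ₁ : Perm ↥E' := Equiv.swap P Q * σ₀
    have hs₁ : Perm.sign σ₁ = 1 := by
      simp only [σ₁, map_mul, Perm.sign_swap hPQ, hs]
      decide
    obtain ⟨g', hg', hgσ⟩ := hAlt (Perm.mem_alternatingGroup.2 hs₁)
    refine ⟨⟨g', hg'⟩ * g₀, fun x hx => ?_⟩
    have h1 := hgσ ⟨g₀ • x, hx₀ x hx⟩
    rw [mul_smul]
    change g' (g₀ • x) = _
    rw [h1]
    simp only [σ₁, Perm.mul_apply]
    have h2 := hσ₀ x hx
    set w := σ₀ ⟨g₀ • x, hx₀ x hx⟩ with hw
    rw [← h2]
    by_cases h3 : w = P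
    · rw [h3, Equiv.swap_apply_left, Equiv.swap_apply_left]
    · by_cases h4 : w = Q
      · rw [h4, Equiv.swap_apply_right, Equiv.swap_apply_right]
      · rw [Equiv.swap_apply_of_ne_of_ne h3 h4, Equiv.swap_apply_of_ne_of_ne]
        · exact fun h => h3 (Subtype.ext h)
        · exact fun h => h4 (Subtype.ext h)

end Cfsg.Agent.Lib.Perm.Induced
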