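import Mathlib.GroupTheory.SpecificGroups.Alternating.Simple

/-!
# Lifting elements of a symmetric group to the kernel of an action on fewer points
-/

set_option autoImplicit false

open Equiv

namespace Cfsg.Agent.Lib.Perm.KpAbstract

variable {N X W : Type*} [Group N] [Fintype X] [DecidableEq X] [Fintype W] [DecidableEq W]

/-- Pigeonhole: the kernel of an action on fewer points maps nontrivially. -/
theorem exists_ker_ne (φ : N →* Perm X) (hφ : Function.Surjective φ) (ρ : N →* Perm W)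
    (hW : 1 ≤ Fintype.card W) (hcard : Fintype.card W < Fintype.card X) :
    ∃ x ∈ ρ.ker, φ x ≠ 1 := by
  choose sec hsec using hφ
  have hlt : Fintype.card (Perm W) < Fintype.card (Perm X) := by
    rw [Fintype.card_perm, Fintype.card_perm]
    exact Nat.factorial_lt_of_lt hW hcard
  obtain ⟨τ, τ', hne, heq⟩ := Fintype.exists_ne_map_eq_of_card_lt (fun τ => ρ (sec τ)) hlt
  refine ⟨(sec τ)⁻¹ * sec τ', ?_, ?_⟩
  · rw [MonoidHom.mem_ker, map_mul, map_inv]
    rw [heq]
    simp
  · rw [map_mul, map_inv, hsec, hsec]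
    intro h
    apply hne
    rw [inv_mul_eq_one] at h
    exact h

/-- If `|X| ≥ 5`, all even permutations lift to the kernel. -/
theorem alternating_lifts (φ : N →* Perm X) (hφ : Function.Surjective φ) (ρ : N →* Perm W)
    (hW : 1 ≤ Fintype.card W) (hcard : Fintype.card W < Fintype.card X)
    (h5 : 5 ≤ Fintype.card X) {σ : Perm X} (hσ : σ ∈ alternatingGroup X) :
    ∃ x ∈ ρ.ker, φ x = σ := by
  obtain ⟨x, hx, hx1⟩ := exists_ker_ne φ hφ ρ hW hcard
  have hn : (ρ.ker.map φ).Normal := Subgroup.Normal.map inferInstance φ hφ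
  have hnt : Nontrivial (ρ.ker.map φ) :=
    ⟨⟨⟨φ x, x, hx, rfl⟩, 1, fun h => hx1 (congrArg Subtype.val h)⟩⟩
  have := Equiv.Perm.alternatingGroup_le_of_normal (by rwa [Nat.card_eq_fintype_card]) hnt hσ
  obtain ⟨y, hy, hyσ⟩ := this
  exact ⟨y, hy, hyσ⟩

/-- If `|W| ≤ 2`, permutations with `σ⁴ = σ` lift to the kernel. -/
theorem fourth_lifts (φ : N →* Perm X) (hφ : Function.Surjective φ) (ρ : N →* Perm W)
    (hW : Fintype.card W ≤ 2) {σ : Perm X} (hσ : σ ^ 4 = σ) :
    ∃ x ∈ ρ.ker, φ x = σ := by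
  obtain ⟨g, hg⟩ := hφ σ
  refine ⟨g ^ 4, ?_, ?_⟩
  · rw [MonoidHom.mem_ker, map_pow]
    have hc : Fintype.card (Perm W) ∣ 2 := by
      rw [Fintype.card_perm]
      have : (Fintype.card W).factorial ≤ 2 := by
        calc (Fintype.card W).factorial ≤ Nat.factorial 2 := Nat.factorial_le hW
          _ = 2 := rfl
      have hpos := Nat.factorial_pos (Fintype.card W)
      have h12 : (Fintype.card W).factorial = 1 ∨ (Fintype.card W).factorial = 2 := by omega
      rcases h12 with h | h <;> simp [h]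
    have h2 : (ρ g) ^ 2 = 1 := by
      have := pow_card_eq_one (x := ρ g)
      obtain ⟨c, hc⟩ := hc
      calc (ρ g) ^ 2 = (ρ g) ^ (Fintype.card (Perm W) * c) := by rw [← hc]
        _ = 1 := by rw [pow_mul, this, one_pow]
    calc (ρ g) ^ 4 = ((ρ g) ^ 2) ^ 2 := by rw [← pow_mul]
      _ = 1 := by rw [h2, one_pow]
  · rw [map_pow, hg, hσ]

/-- The commutator of two three-cycles sharing two points. -/
theorem commutator_three_cycles {X : Type*} [DecidableEq X] (a b c d : X) (hab : a ≠ b) (hac : a ≠ c) (had : a ≠ d)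
    (hbc : b ≠ c) (hbd : b ≠ d) (hcd : c ≠ d) :
    (swap a b * swap a c)⁻¹ * (swap a b * swap a d)⁻¹ * (swap a b * swap a c) * (swap a b * swap a d)
      = swap a b * swap c d := by
  have e : ∀ z, z = a ∨ z = b ∨ z = c ∨ z = d ∨ (z ≠ a ∧ z ≠ b ∧ z ≠ c ∧ z ≠ d) := by
    intro z
    by_cases h1 : z = a
    · exact Or.inl h1
    by_cases h2 : z = b
    · exact Or.inr (Or.inl h2)
    by_cases h3 : z = c
    · exact Or.inr (Or.inr (Or.inl h3))
    by_cases h4 : z = d
    · exact Or.inr (Or.inr (Or.inr (Or.inl h4)))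
    exact Or.inr (Or.inr (Or.inr (Or.inr ⟨h1, h2, h3, h4⟩)))
  have s1 := hab.symm
  have s2 := hac.symm
  have s3 := had.symm
  have s4 := hbc.symm
  have s5 := hbd.symm
  have s6 := hcd.symm
  ext z
  simp only [mul_inv_rev, swap_inv, Perm.mul_apply]
  rcases e z with rfl | rfl | rfl | rfl | ⟨h1, h2, h3, h4⟩
  · simp [swap_apply_of_ne_of_ne, *]
  · simp [swap_apply_of_ne_of_ne, *]
  · simp [swap_apply_of_ne_of_ne, *]
  · simp [swap_apply_of_ne_of_ne, *]
  · simp [swap_apply_of_ne_of_ne, *]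

/-- A nontrivial commutator in a symmetric group of degree at least `3`: centre is trivial. -/
theorem exists_ne_comm {X : Type*} [Fintype X] [DecidableEq X] (h3 : 3 ≤ Fintype.card X) {z : Perm X}
    (hz : z ≠ 1) : ∃ σ : Perm X, σ * z * σ⁻¹ * z⁻¹ ≠ 1 := by
  obtain ⟨a, ha⟩ : ∃ a, z a ≠ a := by
    by_contra hcon
    push Not at hcon
    exact hz (Equiv.ext hcon)
  obtain ⟨c, hc⟩ : ∃ c, c ∉ ({a, z a} : Finset X) := by
    by_contra hcon
    push Not at hcon
    have : (Finset.univ : Finset X) ⊆ {a, z a} := fun x _ => hcon x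
    have h2 := Finset.card_le_card this
    have h3' : ({a, z a} : Finset X).card ≤ 2 := Finset.card_le_two
    rw [Finset.card_univ] at h2
    omega
  simp only [Finset.mem_insert, Finset.mem_singleton, not_or] at hc
  refine ⟨swap (z a) c, fun h => ?_⟩
  rw [mul_inv_eq_one] at h
  have h1 := DFunLike.congr_fun h a
  simp only [Perm.mul_apply] at h1
  have ha1 : (swap (z a) c)⁻¹ a = a := by
    rw [swap_inv, swap_apply_of_ne_of_ne (Ne.symm ha) (Ne.symm hc.1)]
  rw [ha1, swap_apply_left] at h1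
  exact hc.2 h1

end Cfsg.Agent.Lib.Perm.KpAbstract
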