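import Cfsg.Agent.Lib.Perm.MinDegree

/-!
# Four-transitive groups of degree nine

A `4`-transitive group of degree `9` contains the alternating group: otherwise it is sharply
`4`-transitive, and the Klein four-group generated by two commuting involutions of such a group
gives a contradiction.
-/

set_option autoImplicit false
set_option linter.unusedSectionVars false

open MulAction Equiv

namespace Cfsg.Agent.Lib.Perm.KpNine

variable {α : Type*} [Fintype α] [DecidableEq α]

theorem three_fix {g : Perm α} (hcard : g.supportᶜ.card = 3) {p q : α} (hp : g p = p) (hq : g q = q)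
    (hpq : p ≠ q) : ∃ y, y ≠ p ∧ y ≠ q ∧ g y = y ∧ ∀ z, g z = z → z = p ∨ z = q ∨ z = y := by
  have hp' : p ∈ g.supportᶜ := by simpa [Perm.mem_support] using hp
  have hq' : q ∈ g.supportᶜ := by simpa [Perm.mem_support] using hq
  have h1 : (g.supportᶜ.erase p).card = 2 := by
    rw [Finset.card_erase_of_mem hp', hcard]
  have hq'' : q ∈ g.supportᶜ.erase p := Finset.mem_erase.2 ⟨hpq.symm, hq'⟩
  have h2 : ((g.supportᶜ.erase p).erase q).card = 1 := by
    rw [Finset.card_erase_of_mem hq'', h1]
  obtain ⟨y, hy⟩ := Finset.card_eq_one.1 h2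
  have hym : y ∈ (g.supportᶜ.erase p).erase q := by simp [hy]
  simp only [Finset.mem_erase, Finset.mem_compl, Perm.mem_support, not_not] at hym
  refine ⟨y, hym.2.1, hym.1, hym.2.2, fun z hz => ?_⟩
  by_cases hzp : z = p
  · exact Or.inl hzp
  by_cases hzq : z = q
  · exact Or.inr (Or.inl hzq)
  refine Or.inr (Or.inr ?_)
  have : z ∈ (g.supportᶜ.erase p).erase q := by
    simp only [Finset.mem_erase, Finset.mem_compl, Perm.mem_support, not_not]
    exact ⟨hzq, hzp, hz⟩
  rw [hy] at this
  simpa using this

theorem nine_contra (G : Subgroup (Perm α)) (hn : Fintype.card α = 9)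
    (hG : IsMultiplyPretransitive G α 4) (hmin : ∀ g ∈ G, g ≠ 1 → 6 ≤ g.support.card) : False := by
  -- an element fixing four points is trivial
  have fix4 : ∀ g ∈ G, ∀ a b c d : α, a ≠ b → a ≠ c → a ≠ d → b ≠ c → b ≠ d → c ≠ d →
      g a = a → g b = b → g c = c → g d = d → g = 1 := by
    intro g hg a b c d hab hac had hbc hbd hcd ha hb hc hd
    by_contra hne
    have h6 := hmin g hg hne
    have hsub : ({a, b, c, d} : Finset α) ⊆ g.supportᶜ := by
      intro z hz
      simp only [Finset.mem_insert, Finset.mem_singleton] at hz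
      simp only [Finset.mem_compl, Perm.mem_support, not_not]
      rcases hz with rfl | rfl | rfl | rfl <;> assumption
    have h4 : ({a, b, c, d} : Finset α).card = 4 := by
      simp [Finset.card_insert_of_notMem, *]
    have := Finset.card_le_card hsub
    rw [h4, Finset.card_compl, hn] at this
    omega
  -- the involutions
  have exs : ∀ a b c d : α, a ≠ b → a ≠ c → a ≠ d → b ≠ c → b ≠ d → c ≠ d →
      ∃ s ∈ G, s a = b ∧ s b = a ∧ s c = c ∧ s d = d := by
    intro a b c d hab hac had hbc hbd hcd
    have h4 : ({a, b, c, d} : Finset α).card = 4 := by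
      simp [Finset.card_insert_of_notMem, *]
    obtain ⟨g, hg⟩ := Basic.exists_agree_of_card_eq hG {a, b, c, d} h4 (swap a b)
      (swap a b).injective.injOn
    refine ⟨(g : Perm α), g.2, ?_, ?_, ?_, ?_⟩
    · have : (g : Perm α) a = swap a b a := hg a (by simp)
      simpa using this
    · have : (g : Perm α) b = swap a b b := hg b (by simp)
      simpa using this
    · have : (g : Perm α) c = swap a b c := hg c (by simp)
      rw [this, swap_apply_of_ne_of_ne hac.symm hbc.symm]
    · have : (g : Perm α) d = swap a b d := hg d (by simp)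
      rw [this, swap_apply_of_ne_of_ne had.symm hbd.symm]
  have inv2 : ∀ s ∈ G, ∀ a b c d : α, a ≠ b → a ≠ c → a ≠ d → b ≠ c → b ≠ d → c ≠ d →
      s a = b → s b = a → s c = c → s d = d → s * s = 1 := by
    intro s hs a b c d hab hac had hbc hbd hcd h1 h2 h3 h4
    apply fix4 (s * s) (G.mul_mem hs hs) a b c d hab hac had hbc hbd hcd
    · simp [Perm.mul_apply, h1, h2]
    · simp [Perm.mul_apply, h1, h2]
    · simp [Perm.mul_apply, h3]
    · simp [Perm.mul_apply, h4]
  have fix3 : ∀ s ∈ G, ∀ a b c d : α, a ≠ b → a ≠ c → a ≠ d → b ≠ c → b ≠ d → c ≠ d →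
      s a = b → s b = a → s c = c → s d = d → s.supportᶜ.card = 3 := by
    intro s hs a b c d hab hac had hbc hbd hcd h1 h2 h3 h4
    have hss := inv2 s hs a b c d hab hac had hbc hbd hcd h1 h2 h3 h4
    have hne : s ≠ 1 := by
      rintro rfl
      exact hab h1
    have h6 := hmin s hs hne
    have : Fact (Nat.Prime 2) := ⟨Nat.prime_two⟩
    have hmod := Perm.card_compl_support_modEq (p := 2) (n := 1) (σ := s) (by
      rw [pow_one, sq, hss])
    have hcc : s.supportᶜ.card = 9 - s.support.card := by
      rw [Finset.card_compl, hn]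
    have hle : s.support.card ≤ 9 := by
      rw [← hn]
      exact Finset.card_le_univ _
    have hsub : ({c, d} : Finset α) ⊆ s.supportᶜ := by
      intro z hz
      simp only [Finset.mem_insert, Finset.mem_singleton] at hz
      simp only [Finset.mem_compl, Perm.mem_support, not_not]
      rcases hz with rfl | rfl <;> assumption
    have h2' := Finset.card_le_card hsub
    rw [Finset.card_pair hcd] at h2'
    rw [hn] at hmod
    unfold Nat.ModEq at hmod
    omega
  -- choose the points
  have hcard4 : Fintype.card (Fin 4) ≤ Fintype.card α := by simp [hn]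
  obtain ⟨e⟩ := Function.Embedding.nonempty_of_card_le hcard4
  have ne : ∀ i j : Fin 4, i ≠ j → e i ≠ e j := fun i j h h' => h (e.injective h')
  set a := e 0 with ha
  set b := e 1 with hb
  set c := e 2 with hc
  set d := e 3 with hd
  have hab : a ≠ b := ne _ _ (by decide)
  have hac : a ≠ c := ne _ _ (by decide)
  have had : a ≠ d := ne _ _ (by decide)
  have hbc : b ≠ c := ne _ _ (by decide)
  have hbd : b ≠ d := ne _ _ (by decide)
  have hcd : c ≠ d := ne _ _ (by decide)
  obtain ⟨t, htG, ht1, ht2, ht3, ht4⟩ := exs a b c d hab hac had hbc hbd hcd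
  have htt := inv2 t htG a b c d hab hac had hbc hbd hcd ht1 ht2 ht3 ht4
  have htc := fix3 t htG a b c d hab hac had hbc hbd hcd ht1 ht2 ht3 ht4
  have tinv : ∀ z, t (t z) = z := fun z => by
    have := DFunLike.congr_fun htt z
    simpa [Perm.mul_apply] using this
  -- a second pair swapped by `t`
  obtain ⟨p, hp⟩ : ∃ p, p ∉ t.supportᶜ ∪ {a, b} := by
    by_contra hcon
    push Not at hcon
    have : (Finset.univ : Finset α) ⊆ t.supportᶜ ∪ {a, b} := fun z _ => hcon z
    have h1 := Finset.card_le_card this
    have h2 := Finset.card_union_le t.supportᶜ ({a, b} : Finset α)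
    have h3 : ({a, b} : Finset α).card = 2 := Finset.card_pair hab
    rw [Finset.card_univ, hn] at h1
    omega
  simp only [Finset.mem_union, Finset.mem_compl, Perm.mem_support, not_not, Finset.mem_insert,
    Finset.mem_singleton, not_or] at hp
  obtain ⟨hp1, hpa, hpb⟩ := hp
  set q := t p with hq
  have hpq : p ≠ q := fun h => hp1 h.symm
  have hqa : q ≠ a := by
    intro h
    have : t q = t a := by rw [h]
    rw [hq, tinv, ht1] at this
    exact hpb this
  have hqb : q ≠ b := by
    intro h
    have : t q = t b := by rw [h]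
    rw [hq, tinv, ht2] at this
    exact hpa this
  have htq : t q = p := tinv p
  -- the two involutions
  have hap : a ≠ p := Ne.symm hpa
  have haq : a ≠ q := hqa.symm
  have hbp : b ≠ p := Ne.symm hpb
  have hbq : b ≠ q := hqb.symm
  obtain ⟨s₁, hs₁G, s1a, s1b, s1p, s1q⟩ := exs a b p q hab hap haq hbp hbq hpq
  obtain ⟨s₂, hs₂G, s2p, s2q, s2a, s2b⟩ := exs p q a b hpq hap.symm hbp.symm haq.symm hbq.symm hab
  have hs₁ := inv2 s₁ hs₁G a b p q hab hap haq hbp hbq hpq s1a s1b s1p s1q
  have hs₂ := inv2 s₂ hs₂G p q a b hpq hap.symm hbp.symm haq.symm hbq.symm hab s2p s2q s2a s2b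
  have c₁ := fix3 s₁ hs₁G a b p q hab hap haq hbp hbq hpq s1a s1b s1p s1q
  have c₂ := fix3 s₂ hs₂G p q a b hpq hap.symm hbp.symm haq.symm hbq.symm hab s2p s2q s2a s2b
  have i₁ : ∀ z, s₁ (s₁ z) = z := fun z => by
    have := DFunLike.congr_fun hs₁ z
    simpa [Perm.mul_apply] using this
  have i₂ : ∀ z, s₂ (s₂ z) = z := fun z => by
    have := DFunLike.congr_fun hs₂ z
    simpa [Perm.mul_apply] using this
  -- `t = s₁ s₂`
  have ht : t = s₁ * s₂ := by
    have h1 : t⁻¹ * (s₁ * s₂) = 1 := by
      apply fix4 _ (G.mul_mem (G.inv_mem htG) (G.mul_mem hs₁G hs₂G)) a b p q hab hap haq hbp hbq hpq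
      · rw [Perm.mul_apply, Perm.inv_eq_iff_eq, Perm.mul_apply, s2a, s1a, ht1]
      · rw [Perm.mul_apply, Perm.inv_eq_iff_eq, Perm.mul_apply, s2b, s1b, ht2]
      · rw [Perm.mul_apply, Perm.inv_eq_iff_eq, Perm.mul_apply, s2p, s1q]
      · rw [Perm.mul_apply, Perm.inv_eq_iff_eq, Perm.mul_apply, s2q, s1p, htq]
    exact inv_mul_eq_one.1 h1
  have tz : ∀ z, t z = s₁ (s₂ z) := fun z => by rw [ht]; rfl
  have comm : ∀ z, s₁ (s₂ z) = s₂ (s₁ z) := by
    intro z
    have h1 := tinv (s₂ (s₁ z))
    rw [tz (s₂ (s₁ z)), i₂, i₁, tz] at h1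
    exact h1
  -- fixed points of `s₁`
  obtain ⟨y, hyp, hyq, hy1, hF1⟩ := three_fix c₁ s1p s1q hpq
  have hy2 : s₂ y = y := by
    have h1 : s₁ (s₂ y) = s₂ y := by rw [comm, hy1]
    rcases hF1 _ h1 with h | h | h
    · exfalso
      apply hyq
      have := congrArg s₂ h
      rwa [i₂, s2p] at this
    · exfalso
      apply hyp
      have := congrArg s₂ h
      rwa [i₂, s2q] at this
    · exact h
  have hya : y ≠ a := by
    intro h
    rw [h] at hy1
    exact hab (hy1.symm.trans s1a)
  have hyb : y ≠ b := by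
    intro h
    rw [h] at hy1
    exact hab (s1b.symm.trans hy1)
  have hF2 : ∀ z, s₂ z = z → z = a ∨ z = b ∨ z = y := by
    obtain ⟨y', hy'a, hy'b, hy'2, hF⟩ := three_fix c₂ s2a s2b hab
    rcases hF y hy2 with h | h | h
    · exact absurd h hya
    · exact absurd h hyb
    · subst h
      exact hF
  have hty : t y = y := by rw [tz, hy2, hy1]
  -- fixed points of `t`
  obtain ⟨m, hmy, hm0, hmf, hFt⟩ : ∃ m, m ≠ y ∧ True ∧ t m = m ∧ True := by
    have hycomp : y ∈ t.supportᶜ := by simpa [Perm.mem_support] using hty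
    have : (t.supportᶜ.erase y).card = 2 := by
      rw [Finset.card_erase_of_mem hycomp, htc]
    obtain ⟨m, n, hmn, hmem⟩ := Finset.card_eq_two.1 this
    have hm : m ∈ t.supportᶜ.erase y := by simp [hmem]
    simp only [Finset.mem_erase, Finset.mem_compl, Perm.mem_support, not_not] at hm
    exact ⟨m, hm.1, trivial, hm.2, trivial⟩
  obtain ⟨n, hny, hnm, htn, hFt⟩ := three_fix htc hty hmf hmy.symm
  have hFt' : ∀ z, t z = z → z = y ∨ z = m ∨ z = n := hFt
  have hma : m ≠ a := by
    intro h
    rw [h] at hmf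
    exact hab (hmf.symm.trans ht1)
  have hmb : m ≠ b := by
    intro h
    rw [h] at hmf
    exact hab (ht2.symm.trans hmf)
  have hmp : m ≠ p := by
    intro h
    rw [h] at hmf
    exact hp1 hmf
  have hmq : m ≠ q := by
    intro h
    rw [h] at hmf
    exact hpq (htq.symm.trans hmf)
  have hna : n ≠ a := by
    intro h
    rw [h] at htn
    exact hab (htn.symm.trans ht1)
  have hnb : n ≠ b := by
    intro h
    rw [h] at htn
    exact hab (ht2.symm.trans htn)
  have hnp : n ≠ p := by
    intro h
    rw [h] at htn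
    exact hp1 htn
  have hnq : n ≠ q := by
    intro h
    rw [h] at htn
    exact hpq (htq.symm.trans htn)
  have hmn : m ≠ n := hnm.symm
  -- `s₁` and `s₂` swap `m` and `n`
  have hm1 : s₁ m = n := by
    have h1 : t (s₁ m) = s₁ m := by
      rw [tz, comm, i₁]
      have := tz m
      rw [hmf] at this
      have h2 := congrArg s₁ this
      rw [i₁] at h2
      exact h2.symm
    rcases hFt' _ h1 with h | h | h
    · exfalso
      apply hmy
      have := congrArg s₁ h
      rwa [i₁, hy1] at this
    · exfalso
      rcases hF1 m h with h' | h' | h'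
      · exact hmp h'
      · exact hmq h'
      · exact hmy h'
    · exact h
  have hn1 : s₁ n = m := by
    rw [← hm1, i₁]
  have hm2 : s₂ m = n := by
    have := tz m
    rw [hmf] at this
    have h2 := congrArg s₁ this
    rw [i₁] at h2
    rw [← h2, hm1]
  have hn2 : s₂ n = m := by
    rw [← hm2, i₂]
  -- the remaining two points
  have h7 : ({a, b, p, q, y, m, n} : Finset α).card = 7 := by
    have e1 : a ∉ ({b, p, q, y, m, n} : Finset α) := by
      simp [hab, hap, haq, hya.symm, hma.symm, hna.symm]
    have e2 : b ∉ ({p, q, y, m, n} : Finset α) := by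
      simp [hbp, hbq, hyb.symm, hmb.symm, hnb.symm]
    have e3 : p ∉ ({q, y, m, n} : Finset α) := by
      simp [hpq, hyp.symm, hmp.symm, hnp.symm]
    have e4 : q ∉ ({y, m, n} : Finset α) := by
      simp [hyq.symm, hmq.symm, hnq.symm]
    have e5 : y ∉ ({m, n} : Finset α) := by
      simp [hmy.symm, hny.symm]
    have e6 : m ∉ ({n} : Finset α) := by
      simp [hmn]
    rw [Finset.card_insert_of_notMem e1, Finset.card_insert_of_notMem e2,
      Finset.card_insert_of_notMem e3, Finset.card_insert_of_notMem e4,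
      Finset.card_insert_of_notMem e5, Finset.card_insert_of_notMem e6, Finset.card_singleton]
  have hZ : (({a, b, p, q, y, m, n} : Finset α)ᶜ).card = 2 := by
    rw [Finset.card_compl, hn, h7]
  obtain ⟨u, v, huv, hUV⟩ := Finset.card_eq_two.1 hZ
  have memZ : ∀ z, z ∈ ({a, b, p, q, y, m, n} : Finset α)ᶜ ↔ z = u ∨ z = v := by
    intro z
    rw [hUV]
    simp
  have hu : u ∈ ({a, b, p, q, y, m, n} : Finset α)ᶜ := (memZ u).2 (Or.inl rfl)
  have hu' := hu
  simp only [Finset.mem_compl, Finset.mem_insert, Finset.mem_singleton, not_or] at hu'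
  obtain ⟨ua, ub, up, uq, uy, um, un⟩ := hu'
  have hs1u : s₁ u ∈ ({a, b, p, q, y, m, n} : Finset α)ᶜ := by
    simp only [Finset.mem_compl, Finset.mem_insert, Finset.mem_singleton, not_or]
    refine ⟨fun h => ub ?_, fun h => ua ?_, fun h => up ?_, fun h => uq ?_, fun h => uy ?_,
      fun h => un ?_, fun h => um ?_⟩
    · have := congrArg s₁ h; rwa [i₁, s1a] at this
    · have := congrArg s₁ h; rwa [i₁, s1b] at this
    · have := congrArg s₁ h; rwa [i₁, s1p] at this
    · have := congrArg s₁ h; rwa [i₁, s1q] at this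
    · have := congrArg s₁ h; rwa [i₁, hy1] at this
    · have := congrArg s₁ h; rwa [i₁, hm1] at this
    · have := congrArg s₁ h; rwa [i₁, hn1] at this
  have hs2u : s₂ u ∈ ({a, b, p, q, y, m, n} : Finset α)ᶜ := by
    simp only [Finset.mem_compl, Finset.mem_insert, Finset.mem_singleton, not_or]
    refine ⟨fun h => ua ?_, fun h => ub ?_, fun h => uq ?_, fun h => up ?_, fun h => uy ?_,
      fun h => un ?_, fun h => um ?_⟩
    · have := congrArg s₂ h; rwa [i₂, s2a] at this
    · have := congrArg s₂ h; rwa [i₂, s2b] at this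
    · have := congrArg s₂ h; rwa [i₂, s2p] at this
    · have := congrArg s₂ h; rwa [i₂, s2q] at this
    · have := congrArg s₂ h; rwa [i₂, hy2] at this
    · have := congrArg s₂ h; rwa [i₂, hm2] at this
    · have := congrArg s₂ h; rwa [i₂, hn2] at this
  have hs1v : s₁ u = v := by
    rcases (memZ _).1 hs1u with h | h
    · rcases hF1 u h with h' | h' | h'
      · exact absurd h' up
      · exact absurd h' uq
      · exact absurd h' uy
    · exact h
  have hs2v : s₂ u = v := by
    rcases (memZ _).1 hs2u with h | h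
    · rcases hF2 u h with h' | h' | h'
      · exact absurd h' ua
      · exact absurd h' ub
      · exact absurd h' uy
    · exact h
  have htu : t u = u := by
    rw [tz, hs2v, ← hs1v, i₁]
  rcases hFt' u htu with h | h | h
  · exact uy h
  · exact um h
  · exact un h

/-- A `4`-transitive group of degree `9` contains the alternating group. -/
theorem alternating_le (G : Subgroup (Perm α)) (hn : Fintype.card α = 9)
    (hG : IsMultiplyPretransitive G α 4) : alternatingGroup α ≤ G := by
  by_cases h : ∀ g ∈ G, g ≠ 1 → 6 ≤ g.support.card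
  · exact (nine_contra G hn hG h).elim
  · push Not at h
    obtain ⟨g, hg, hg1, hs⟩ := h
    exact (MinDegree.small_support_alternating G (k := 4) (by norm_num) (by omega) hG g hg hg1
      (by omega)).2

end Cfsg.Agent.Lib.Perm.KpNine
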