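import Cfsg.Agent.Lib.Perm.LocalOrbit

/-!
# Scalar action on a `p`-group with at most three orbits of length `p`

If a `p`-group `P` has three orbits of length `p` covering everything it moves, no nonidentity
element of `P` is supported on a single orbit, and `x` normalises `P` and preserves the three
orbits, then `x` acts on `P` by a power map.
-/

set_option autoImplicit false
set_option linter.unusedSectionVars false

open MulAction Equiv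

namespace Cfsg.Agent.Lib.Perm.KpScalar

open Cfsg.Agent.Lib.Perm.LocalOrbit

variable {α : Type*} [Fintype α] {p : ℕ} [hpp : Fact p.Prime] {P : Subgroup (Perm α)}

/-- An invariant `P`-transitive set of size `p`. -/
structure POrb (P : Subgroup (Perm α)) (p : ℕ) (O : Set α) : Prop where
  card : O.ncard = p
  inv : ∀ w ∈ P, ∀ b, b ∈ O ↔ w b ∈ O
  tr : ∀ b ∈ O, ∀ c ∈ O, ∃ w ∈ P, w b = c

namespace POrb

variable {O : Set α}

theorem zinv (h : POrb P p O) {w : Perm α} (hw : w ∈ P) (j : ℤ) {b : α} (hb : b ∈ O) :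
    (w ^ j) b ∈ O := (h.inv _ (P.zpow_mem hw j) b).1 hb

theorem pow_fix (hP : IsPGroup p P) (h : POrb P p O) {w : Perm α} (hw : w ∈ P) :
    ∀ b ∈ O, (w ^ p) b = b := by
  by_cases hc : ∃ c ∈ O, w c ≠ c
  · obtain ⟨c, hc, hwc⟩ := hc
    exact pow_p_fix hP hw O h.card (fun b hb => (h.inv w hw b).1 hb)
      (fun b hb => (h.inv _ (P.inv_mem hw) b).1 hb) hc hwc
  · push Not at hc
    intro b hb
    exact Perm.pow_apply_eq_self_of_apply_eq_self (hc b hb) p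

theorem zpow_fix (hP : IsPGroup p P) (h : POrb P p O) {w : Perm α} (hw : w ∈ P) {j : ℤ}
    (hj : (p : ℤ) ∣ j) : ∀ b ∈ O, (w ^ j) b = b := by
  obtain ⟨i, rfl⟩ := hj
  intro b hb
  rw [zpow_mul, zpow_natCast]
  exact Perm.zpow_apply_eq_self_of_apply_eq_self (h.pow_fix hP hw b hb) i

theorem zpow_moved (hP : IsPGroup p P) (h : POrb P p O) {w : Perm α} (hw : w ∈ P) {c : α}
    (hc : c ∈ O) (hwc : w c ≠ c) {j : ℤ} (hj : ¬ (p : ℤ) ∣ j) : (w ^ j) c ≠ c :=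
  zpow_ne hP hw O h.card (fun b hb => (h.inv w hw b).1 hb)
    (fun b hb => (h.inv _ (P.inv_mem hw) b).1 hb) hc hwc hj

theorem exists_moved (h : POrb P p O) : ∃ w ∈ P, ∃ c ∈ O, w c ≠ c := by
  have hp1 := hpp.out.one_lt
  obtain ⟨a, ha, a', ha', hne⟩ := (Set.one_lt_ncard (Set.toFinite O)).1 (by rw [h.card]; exact hp1)
  obtain ⟨w, hw, hwa⟩ := h.tr a ha a' ha'
  exact ⟨w, hw, a, ha, by rw [hwa]; exact hne.symm⟩

end POrb

variable {O O' O'' : Set α}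

/-- `x w x⁻¹ w^{-n}` acts on an orbit with multiplier `m` as `w^{m-n}`. -/
theorem act (h : POrb P p O) {x w : Perm α} {m : ℤ}
    (hm : ∀ w ∈ P, ∀ b ∈ O, (x * w * x⁻¹) b = (w ^ m) b) (hw : w ∈ P) (n : ℤ) :
    ∀ b ∈ O, (x * w * x⁻¹ * w ^ (-n)) b = (w ^ (m - n)) b := by
  intro b hb
  rw [Perm.mul_apply, hm w hw _ (h.zinv hw _ hb), ← Perm.mul_apply, ← zpow_add, sub_eq_add_neg]

/-- The key step: two multipliers agree modulo `p`. -/
theorem step (hP : IsPGroup p P) (hO : POrb P p O) (hO' : POrb P p O') (hO'' : POrb P p O'')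
    (L : ∀ v ∈ P, (∀ b ∈ O', v b = b) → (∀ b ∈ O'', v b = b) → v = 1)
    (L' : ∀ v ∈ P, (∀ b ∈ O, v b = b) → (∀ b ∈ O'', v b = b) → v = 1)
    (L'' : ∀ v ∈ P, (∀ b ∈ O, v b = b) → (∀ b ∈ O', v b = b) → v = 1)
    {x : Perm α} (hxn : x ∈ Subgroup.normalizer (P : Set (Perm α))) (hxO : ∀ b, b ∈ O ↔ x b ∈ O)
    {m m' m'' : ℤ}
    (hm : ∀ w ∈ P, ∀ b ∈ O, (x * w * x⁻¹) b = (w ^ m) b)
    (hm' : ∀ w ∈ P, ∀ b ∈ O', (x * w * x⁻¹) b = (w ^ m') b)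
    (hm'' : ∀ w ∈ P, ∀ b ∈ O'', (x * w * x⁻¹) b = (w ^ m'') b) :
    (p : ℤ) ∣ m - m' := by
  by_contra hne
  have hne' : ¬ (p : ℤ) ∣ m' - m := fun h => hne ((dvd_sub_comm).1 h)
  have hmem : ∀ w ∈ P, ∀ n : ℤ, x * w * x⁻¹ * w ^ (-n) ∈ P := fun w hw n =>
    P.mul_mem ((Subgroup.mem_normalizer_iff.1 hxn w).1 hw) (P.zpow_mem hw _)
  have hself : ∀ {Q : Set α} {k : ℤ}, (∀ w ∈ P, ∀ b ∈ Q, (x * w * x⁻¹) b = (w ^ k) b) → POrb P p Q →
      ∀ w ∈ P, ∀ b ∈ Q, (x * w * x⁻¹ * w ^ (-k)) b = b := by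
    intro Q k hk hQ w hw b hb
    rw [act hQ hk hw k b hb, sub_self, zpow_zero]
    rfl
  -- first the third multiplier
  have h3 : (p : ℤ) ∣ m'' - m' := by
    by_contra hne2
    obtain ⟨w, hw, c', hc', hwc'⟩ := hO'.exists_moved
    set v := x * w * x⁻¹ * w ^ (-m) with hv
    have hvP : v ∈ P := hmem w hw m
    have hvO : ∀ b ∈ O, v b = b := hself hm hO w hw
    have hvc' : v c' ≠ c' := by
      rw [hv, act hO' hm' hw m c' hc']
      exact hO'.zpow_moved hP hw hc' hwc' hne'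
    obtain ⟨c'', hc'', hvc''⟩ : ∃ c'' ∈ O'', v c'' ≠ c'' := by
      by_contra hcon
      push Not at hcon
      have := L' v hvP hvO hcon
      rw [this] at hvc'
      exact hvc' rfl
    set v'' := x * v * x⁻¹ * v ^ (-m') with hv''
    have hv''P : v'' ∈ P := hmem v hvP m'
    have hv''O' : ∀ b ∈ O', v'' b = b := hself hm' hO' v hvP
    have hv''O : ∀ b ∈ O, v'' b = b := by
      intro b hb
      have h1 : (v ^ (-m')) b = b := Perm.zpow_apply_eq_self_of_apply_eq_self (hvO b hb) _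
      have h2 : x⁻¹ b ∈ O := by
        rw [hxO]
        simpa using hb
      simp only [hv'', Perm.mul_apply]
      rw [h1, hvO _ h2]
      simp
    have h1 := L'' v'' hv''P hv''O hv''O'
    have h2 : v'' c'' ≠ c'' := by
      rw [hv'', act hO'' hm'' hvP m' c'' hc'']
      exact hO''.zpow_moved hP hvP hc'' hvc'' hne2
    rw [h1] at h2
    exact h2 rfl
  -- now the contradiction
  obtain ⟨w, hw, c, hc, hwc⟩ := hO.exists_moved
  set v := x * w * x⁻¹ * w ^ (-m') with hv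
  have hvP : v ∈ P := hmem w hw m'
  have hvO' : ∀ b ∈ O', v b = b := hself hm' hO' w hw
  have hvO'' : ∀ b ∈ O'', v b = b := by
    intro b hb
    rw [hv, act hO'' hm'' hw m' b hb]
    exact hO''.zpow_fix hP hw h3 b hb
  have h1 := L v hvP hvO' hvO''
  have h2 : v c ≠ c := by
    rw [hv, act hO hm hw m' c hc]
    exact hO.zpow_moved hP hw hc hwc hne
  rw [h1] at h2
  exact h2 rfl

/-- The scalar lemma. -/
theorem scalar {O₁ O₂ O₃ : Set α} (hP : IsPGroup p P) (h₁ : POrb P p O₁) (h₂ : POrb P p O₂)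
    (h₃ : POrb P p O₃)
    (L₁ : ∀ v ∈ P, (∀ b ∈ O₂, v b = b) → (∀ b ∈ O₃, v b = b) → v = 1)
    (L₂ : ∀ v ∈ P, (∀ b ∈ O₁, v b = b) → (∀ b ∈ O₃, v b = b) → v = 1)
    (L₃ : ∀ v ∈ P, (∀ b ∈ O₁, v b = b) → (∀ b ∈ O₂, v b = b) → v = 1)
    {x : Perm α} (hxn : x ∈ Subgroup.normalizer (P : Set (Perm α)))
    (hx₁ : ∀ b, b ∈ O₁ ↔ x b ∈ O₁) (hx₂ : ∀ b, b ∈ O₂ ↔ x b ∈ O₂) (hx₃ : ∀ b, b ∈ O₃ ↔ x b ∈ O₃) :
    ∃ m : ℤ, ∀ w ∈ P, x * w * x⁻¹ = w ^ m := by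
  obtain ⟨m₁, hm₁⟩ := exists_multiplier hP O₁ h₁.card h₁.inv h₁.tr hxn hx₁
  obtain ⟨m₂, hm₂⟩ := exists_multiplier hP O₂ h₂.card h₂.inv h₂.tr hxn hx₂
  obtain ⟨m₃, hm₃⟩ := exists_multiplier hP O₃ h₃.card h₃.inv h₃.tr hxn hx₃
  have d₂ : (p : ℤ) ∣ m₂ - m₁ := (dvd_sub_comm).1 (step hP h₁ h₂ h₃ L₁ L₂ L₃ hxn hx₁ hm₁ hm₂ hm₃)
  have d₃ : (p : ℤ) ∣ m₃ - m₁ := (dvd_sub_comm).1 (step hP h₁ h₃ h₂
    (fun v hv a b => L₁ v hv b a) L₃ L₂ hxn hx₁ hm₁ hm₃ hm₂)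
  refine ⟨m₁, fun w hw => ?_⟩
  have hmem : x * w * x⁻¹ * w ^ (-m₁) ∈ P :=
    P.mul_mem ((Subgroup.mem_normalizer_iff.1 hxn w).1 hw) (P.zpow_mem hw _)
  have := L₁ _ hmem
    (fun b hb => by
      rw [act h₂ hm₂ hw m₁ b hb]
      exact h₂.zpow_fix hP hw d₂ b hb)
    (fun b hb => by
      rw [act h₃ hm₃ hw m₁ b hb]
      exact h₃.zpow_fix hP hw d₃ b hb)
  rw [zpow_neg, mul_inv_eq_one] at this
  exact this

/-- A power automorphism is centralised modulo conjugation: the commutator of an element of the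
normaliser with one acting by a power map centralises `P`. -/
theorem commutator_commute {X : Type*} [Group X] {P : Subgroup X} {g x : X}
    (hg : g ∈ Subgroup.normalizer (P : Set X)) {m : ℤ} (hm : ∀ w ∈ P, x * w * x⁻¹ = w ^ m)
    (hx : x ∈ Subgroup.normalizer (P : Set X)) :
    ∀ w ∈ P, (g * x * g⁻¹ * x⁻¹) * w = w * (g * x * g⁻¹ * x⁻¹) := by
  intro w hw
  have hw' : x⁻¹ * w * x ∈ P := by
    have := (Subgroup.mem_normalizer_iff.1 (Subgroup.inv_mem _ hx) w).1 hw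
    simpa using this
  have hw'' : g⁻¹ * (x⁻¹ * w * x) * g ∈ P := by
    have := (Subgroup.mem_normalizer_iff.1 (Subgroup.inv_mem _ hg) _).1 hw'
    simpa using this
  have e1 : (x⁻¹ * w * x) ^ m = w := by
    rw [← hm _ hw']
    group
  have e2 := hm _ hw''
  have e3 : g * (x * (g⁻¹ * (x⁻¹ * w * x) * g) * x⁻¹) * g⁻¹ = w := by
    rw [e2]
    have : g * (g⁻¹ * (x⁻¹ * w * x) * g) ^ m * g⁻¹ = (g * (g⁻¹ * (x⁻¹ * w * x) * g) * g⁻¹) ^ m :=
      conj_zpow.symm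
    rw [this]
    have e4 : g * (g⁻¹ * (x⁻¹ * w * x) * g) * g⁻¹ = x⁻¹ * w * x := by group
    rw [e4, e1]
  calc (g * x * g⁻¹ * x⁻¹) * w
      = (g * (x * (g⁻¹ * (x⁻¹ * w * x) * g) * x⁻¹) * g⁻¹) * (g * x * g⁻¹ * x⁻¹) := by group
    _ = w * (g * x * g⁻¹ * x⁻¹) := by rw [e3]

end Cfsg.Agent.Lib.Perm.KpScalar
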