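import Cfsg.Agent.Lib.Perm.KpOrbit
import Cfsg.Agent.Lib.Perm.KpScalar
import Cfsg.Agent.Lib.Perm.KpNine

/-!
# Jordan's `n = kp + r` theorem

An `(r+1)`-transitive group of degree `kp + r` with `k < p`, `r > k`, `(k, r) ≠ (1, 2)` contains the
alternating group.
-/

set_option autoImplicit false
set_option linter.unusedSectionVars false

open MulAction Equiv

namespace Cfsg.Agent.Lib.Perm.KpMain

open Cfsg.Agent.Lib.Perm Cfsg.Agent.Lib.Perm.KpSetup Cfsg.Agent.Lib.Perm.KpAbstract
open Cfsg.Agent.Lib.Perm.KpScalar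

variable {α : Type*} [Fintype α] [DecidableEq α] {G P : Subgroup (Perm α)} {S : Finset α} {p : ℕ}

/-- The normaliser of `P` in `G`. -/
abbrev M (G P : Subgroup (Perm α)) : Subgroup (Perm α) :=
  G ⊓ Subgroup.normalizer (P : Set (Perm α))

theorem exists_phi (h : Setup G P S p) (hp : p.Prime) :
    ∃ φ : M G P →* Perm S, Function.Surjective φ ∧
      ∀ (x : M G P) (a : S), ((φ x a : S) : α) = (x : Perm α) a := by
  refine ⟨{ toFun := fun x => (x : Perm α).subtypePerm (fun a => h.norm_iff hp x.2.2 a),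
            map_one' := ?_, map_mul' := ?_ }, ?_, ?_⟩
  · ext a
    rfl
  · intro x y
    ext a
    rfl
  · intro τ
    let τ' : Perm α := Perm.ofSubtype τ
    have hτ' : ∀ a : S, τ' a = τ a := fun a => Perm.ofSubtype_apply_coe τ a
    obtain ⟨g, hgG, hgn, hg⟩ := h.hlift τ' (fun a ha => by
      have := hτ' ⟨a, ha⟩
      change τ' a = _ at this
      rw [this]
      exact (τ ⟨a, ha⟩).2)
    refine ⟨⟨g, hgG, hgn⟩, ?_⟩
    ext a
    change g a = τ a
    rw [hg a a.2, hτ']
  · intro x a
    rfl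

/-- An element of the normaliser maps orbits onto orbits. -/
theorem image_orbit {x : Perm α} (hx : x ∈ Subgroup.normalizer (P : Set (Perm α))) (a : α) :
    x '' orbit P a = orbit P (x a) := by
  ext c
  constructor
  · rintro ⟨b, hb, rfl⟩
    exact orb_map hx hb
  · intro hc
    refine ⟨x⁻¹ c, ?_, by simp⟩
    have := orb_map (Subgroup.inv_mem _ hx) hc
    simpa using this

/-- The set of orbits outside `S` has `k` elements. -/
theorem exists_orbits (h : Setup G P S p) (hp : p.Prime) {k : ℕ}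
    (hcard : (Sᶜ : Finset α).card = k * p) :
    ∃ t : Finset (Set α), t.card = k ∧ (∀ O ∈ t, ∃ a, a ∉ S ∧ O = orbit P a) ∧
      (∀ a, a ∉ S → orbit P a ∈ t) := by
  classical
  refine ⟨(Sᶜ : Finset α).image (fun a => orbit P a), ?_, ?_, ?_⟩
  · have h1 := Finset.card_eq_sum_card_image (fun a => orbit P a) (Sᶜ : Finset α)
    have h2 : ∀ O ∈ (Sᶜ : Finset α).image (fun a => orbit P a),
        ((Sᶜ : Finset α).filter (fun a => orbit P a = O)).card = p := by
      intro O hO
      obtain ⟨a, ha, rfl⟩ := Finset.mem_image.1 hO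
      have ha' : a ∉ S := by simpa using ha
      rw [← h.horb a ha', ← Set.ncard_coe_finset]
      congr 1
      ext b
      simp only [Finset.coe_filter, Finset.mem_compl, Set.mem_ofPred_eq]
      constructor
      · rintro ⟨_, hb⟩
        rw [← hb]
        exact mem_orbit_self b
      · intro hb
        exact ⟨h.compl ha' hb, orb_eq hb⟩
    rw [Finset.sum_congr rfl h2, Finset.sum_const, smul_eq_mul, hcard] at h1
    exact (Nat.eq_of_mul_eq_mul_right hp.pos h1).symm
  · intro O hO
    obtain ⟨a, ha, rfl⟩ := Finset.mem_image.1 hO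
    exact ⟨a, by simpa using ha, rfl⟩
  · intro a ha
    exact Finset.mem_image.2 ⟨a, by simpa using ha, rfl⟩

theorem exists_rho (h : Setup G P S p) (hp : p.Prime) (t : Finset (Set α))
    (ht1 : ∀ O ∈ t, ∃ a, a ∉ S ∧ O = orbit P a) (ht2 : ∀ a, a ∉ S → orbit P a ∈ t) :
    ∃ ρ : M G P →* Perm t, ∀ x : M G P, x ∈ ρ.ker → OrbFix P S (x : Perm α) := by
  classical
  have hmem : ∀ (x : Perm α), x ∈ Subgroup.normalizer (P : Set (Perm α)) → ∀ O ∈ t, x '' O ∈ t := by
    intro x hx O hO
    obtain ⟨a, ha, rfl⟩ := ht1 O hO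
    rw [image_orbit hx]
    exact ht2 _ (fun hc => ha ((h.norm_iff hp hx a).1 hc))
  have hiff : ∀ (x : M G P) (O : Set α), Equiv.Set.congr (x : Perm α) O ∈ t ↔ O ∈ t := by
    intro x O
    constructor
    · intro hO
      have h1 := hmem (x : Perm α)⁻¹ (Subgroup.inv_mem _ x.2.2) _ hO
      have h2 : ⇑((x : Perm α)⁻¹) '' (Equiv.Set.congr (x : Perm α) O) = O := by
        change ⇑((x : Perm α)⁻¹) '' ((x : Perm α) '' O) = O
        rw [Set.image_image]
        simp
      rwa [h2] at h1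
    · intro hO
      exact hmem (x : Perm α) x.2.2 O hO
  refine ⟨{ toFun := fun x => Perm.subtypePerm (Equiv.Set.congr (x : Perm α)) (hiff x),
            map_one' := ?_, map_mul' := ?_ }, ?_⟩
  · ext ⟨O, hO⟩ b
    change b ∈ (1 : Perm α) '' O ↔ b ∈ O
    simp
  · intro x y
    ext ⟨O, hO⟩ b
    change b ∈ ((x : Perm α) * (y : Perm α)) '' O ↔ b ∈ (x : Perm α) '' ((y : Perm α) '' O)
    rw [Set.image_image]
    rfl
  · intro x hx a ha
    have h1 : Perm.subtypePerm (Equiv.Set.congr (x : Perm α)) (hiff x) = 1 := hx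
    have h2 := congrArg Subtype.val (DFunLike.congr_fun h1 ⟨orbit P a, ht2 a ha⟩)
    change (x : Perm α) '' orbit P a = orbit P a at h2
    rw [← h2]
    exact ⟨a, mem_orbit_self a, rfl⟩

theorem final_small {r : ℕ} (hG : IsMultiplyPretransitive G α (r + 1)) (hr : 2 ≤ r)
    (hrn : r + 1 ≤ Fintype.card α) (hS : S.card = r) {u : Perm α} (hu : u ∈ G) (hu1 : u ≠ 1)
    (hfix : ∀ a, a ∉ S → u a = a) : alternatingGroup α ≤ G := by
  refine (MinDegree.small_support_alternating G (k := r + 1) (by omega) hrn hG u hu hu1 ?_).2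
  have hsub : u.support ⊆ S := by
    intro a ha
    by_contra hcon
    exact (Perm.mem_support.1 ha) (hfix a hcon)
  have := Finset.card_le_card hsub
  omega

/-- `p`-th powers of nonidentity elements of a symmetric group of degree `< p` are nontrivial. -/
theorem pow_ne_one_of_lt {X : Type*} [Fintype X] [DecidableEq X] {y : Perm X} (hy : y ≠ 1)
    (hp : p.Prime) (h : Fintype.card X < p) : y ^ p ≠ 1 := by
  intro hpow
  have h1 : orderOf y ∣ p := orderOf_dvd_of_pow_eq_one hpow
  rcases (Nat.dvd_prime hp).1 h1 with h2 | h2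
  · exact hy (orderOf_eq_one_iff.1 h2)
  · have h3 : orderOf y ∣ Fintype.card (Perm X) := orderOf_dvd_card
    rw [h2, Fintype.card_perm, hp.dvd_factorial] at h3
    omega

/-- From an element of `M` whose `p`-th power is trivial outside `S` but not on `S`. -/
theorem final_from_phi {r : ℕ} (hG : IsMultiplyPretransitive G α (r + 1)) (hr : 2 ≤ r)
    (hrn : r + 1 ≤ Fintype.card α) (hS : S.card = r) (φ : M G P →* Perm S) {u : M G P}
    (hfix : ∀ a, a ∉ S → (((u : Perm α)) ^ p) a = a) (hne : φ u ^ p ≠ 1) :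
    alternatingGroup α ≤ G := by
  refine final_small hG hr hrn hS (u := (u : Perm α) ^ p) (G.pow_mem u.2.1 p) ?_ hfix
  intro h1
  apply hne
  have h2 : u ^ p = 1 := Subtype.ext (by simpa using h1)
  rw [← map_pow, h2, map_one]

/-- Route (i): commutators of lifts of two three-cycles. -/
theorem route_i {r : ℕ} (h : Setup G P S p) (hp : p.Prime) (hp2 : p ≠ 2)
    (hG : IsMultiplyPretransitive G α (r + 1)) (hr : 4 ≤ r)
    (hrn : r + 1 ≤ Fintype.card α) (hS : S.card = r) (φ : M G P →* Perm S)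
    {W : Type*} [Fintype W] [DecidableEq W] (ρ : M G P →* Perm W)
    (hker : ∀ x : M G P, x ∈ ρ.ker → OrbFix P S (x : Perm α))
    (hlifts : ∀ σ : Perm S, σ.IsThreeCycle → ∃ x ∈ ρ.ker, φ x = σ) :
    alternatingGroup α ≤ G := by
  have hcX : Fintype.card (Fin 4) ≤ Fintype.card S := by simp [hS, hr]
  obtain ⟨e⟩ := Function.Embedding.nonempty_of_card_le hcX
  have ne : ∀ i j : Fin 4, i ≠ j → e i ≠ e j := fun i j h h' => h (e.injective h')
  have hab : e 0 ≠ e 1 := ne _ _ (by decide)
  have hac : e 0 ≠ e 2 := ne _ _ (by decide)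
  have had : e 0 ≠ e 3 := ne _ _ (by decide)
  have hbc : e 1 ≠ e 2 := ne _ _ (by decide)
  have hbd : e 1 ≠ e 3 := ne _ _ (by decide)
  have hcd : e 2 ≠ e 3 := ne _ _ (by decide)
  obtain ⟨x₁, hx₁, hφ₁⟩ := hlifts _ (Perm.isThreeCycle_swap_mul_swap_same hab hac hbc)
  obtain ⟨x₂, hx₂, hφ₂⟩ := hlifts _ (Perm.isThreeCycle_swap_mul_swap_same hab had hbd)
  let u : M G P := x₁⁻¹ * x₂⁻¹ * x₁ * x₂
  have hy : φ u = swap (e 0) (e 1) * swap (e 2) (e 3) := by
    simp only [u, map_mul, map_inv, hφ₁, hφ₂]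
    exact commutator_three_cycles _ _ _ _ hab hac had hbc hbd hcd
  refine final_from_phi (p := p) (u := u) hG (by omega) hrn hS φ (fun a ha => ?_) ?_
  · exact h.commutator_pow_fix hp x₁.2.2 (hker _ hx₁) x₂.2.2 (hker _ hx₂) ha
  · rw [hy]
    intro hpow
    have hodd : Odd p := hp.odd_of_ne_two hp2
    obtain ⟨m, hm⟩ := hodd
    have hinv : (swap (e 0) (e 1) * swap (e 2) (e 3)) ^ 2 = 1 := by
      have hc : Commute (swap (e 0) (e 1)) (swap (e 2) (e 3)) := by
        apply Perm.Disjoint.commute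
        intro z
        by_cases h0 : z = e 0
        · right
          rw [h0]
          exact swap_apply_of_ne_of_ne hac had
        · by_cases h1 : z = e 1
          · right
            rw [h1]
            exact swap_apply_of_ne_of_ne hbc hbd
          · left
            exact swap_apply_of_ne_of_ne h0 h1
      rw [hc.mul_pow]
      simp [sq]
    rw [hm, pow_succ, pow_mul, hinv, one_pow, one_mul] at hpow
    have h2 := DFunLike.congr_fun hpow (e 0)
    simp only [Perm.mul_apply, Perm.one_apply] at h2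
    rw [swap_apply_of_ne_of_ne hac had, swap_apply_left] at h2
    exact hab h2.symm

/-- Route (ii): a commutator with a power-acting element. -/
theorem route_ii {r : ℕ} (h : Setup G P S p) (hp : p.Prime)
    (hG : IsMultiplyPretransitive G α (r + 1)) (hr : 3 ≤ r)
    (hrn : r + 1 ≤ Fintype.card α) (hS : S.card = r) (hpr : r < p) (φ : M G P →* Perm S)
    (hφ : Function.Surjective φ)
    {W : Type*} [Fintype W] [DecidableEq W] (ρ : M G P →* Perm W)
    (hker : ∀ x : M G P, x ∈ ρ.ker → OrbFix P S (x : Perm α))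
    (hW : 1 ≤ Fintype.card W) (hcard : Fintype.card W < r)
    (hscalar : ∀ x : M G P, x ∈ ρ.ker → ∃ m : ℤ, ∀ w ∈ P, (x : Perm α) * w * (x : Perm α)⁻¹ = w ^ m) :
    alternatingGroup α ≤ G := by
  have hcS : Fintype.card S = r := by simp [hS]
  obtain ⟨x, hx, hx1⟩ := exists_ker_ne φ hφ ρ hW (by rw [hcS]; exact hcard)
  obtain ⟨σ, hσ⟩ := exists_ne_comm (by rw [hcS]; exact hr) hx1
  obtain ⟨g, rfl⟩ := hφ σ
  let u : M G P := g * x * g⁻¹ * x⁻¹
  obtain ⟨m, hm⟩ := hscalar x hx
  have hu : u ∈ ρ.ker := by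
    rw [MonoidHom.mem_ker] at hx ⊢
    simp [u, hx]
  have hcomm := KpScalar.commutator_commute g.2.2 hm x.2.2
  refine final_from_phi (p := p) (u := u) hG (by omega) hrn hS φ (fun a ha => ?_) ?_
  · exact h.commute_pow_fix hp u.2.2 (hker _ hu) (fun w hw => hcomm w hw) ha
  · apply pow_ne_one_of_lt _ hp (by rw [hcS]; exact hpr)
    have : φ u = φ g * φ x * (φ g)⁻¹ * (φ x)⁻¹ := by simp [u]
    rw [this]
    exact hσ

/-- The orbit as a `POrb`. -/
theorem pOrb (h : Setup G P S p) {a : α} (ha : a ∉ S) : POrb P p (orbit P a) :=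
  ⟨h.horb a ha, fun w hw b => orb_smul hw b, orb_tr⟩

/-- In the absence of `p`-cycles and at most three orbits, normaliser elements fixing orbits act
by power maps. -/
theorem scalar_of_cover (h : Setup G P S p) (hp : p.Prime)
    (hL : ∀ v ∈ P, ∀ a, a ∉ S → (∀ b, b ∉ orbit P a → v b = b) → v = 1)
    {a₁ a₂ a₃ : α} (h₁ : a₁ ∉ S) (h₂ : a₂ ∉ S) (h₃ : a₃ ∉ S)
    (hcov : ∀ b, b ∉ S → b ∈ orbit P a₁ ∨ b ∈ orbit P a₂ ∨ b ∈ orbit P a₃)
    {x : Perm α} (hxn : x ∈ Subgroup.normalizer (P : Set (Perm α))) (hx : OrbFix P S x) :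
    ∃ m : ℤ, ∀ w ∈ P, x * w * x⁻¹ = w ^ m := by
  have : Fact p.Prime := ⟨hp⟩
  refine scalar h.hP (pOrb h h₁) (pOrb h h₂) (pOrb h h₃) ?_ ?_ ?_ hxn
    (h.orbfix_iff hp hxn hx h₁) (h.orbfix_iff hp hxn hx h₂) (h.orbfix_iff hp hxn hx h₃)
  · intro v hv t1 t2
    refine hL v hv a₁ h₁ (fun b hb => ?_)
    by_cases hbS : b ∈ S
    · exact h.hfix v hv b hbS
    · rcases hcov b hbS with h' | h' | h'
      · exact absurd h' hb
      · exact t1 b h'
      · exact t2 b h'
  · intro v hv t1 t2
    refine hL v hv a₂ h₂ (fun b hb => ?_)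
    by_cases hbS : b ∈ S
    · exact h.hfix v hv b hbS
    · rcases hcov b hbS with h' | h' | h'
      · exact t1 b h'
      · exact absurd h' hb
      · exact t2 b h'
  · intro v hv t1 t2
    refine hL v hv a₃ h₃ (fun b hb => ?_)
    by_cases hbS : b ∈ S
    · exact h.hfix v hv b hbS
    · rcases hcov b hbS with h' | h' | h'
      · exact t1 b h'
      · exact t2 b h'
      · exact absurd h' hb

/-- **Jordan's `kp + r` theorem.** -/
theorem main (G : Subgroup (Perm α)) {k r : ℕ} (hp : p.Prime)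
    (hn : Fintype.card α = k * p + r) (hk : 1 ≤ k) (hpk : k < p) (hrk : k < r)
    (hex : ¬ (k = 1 ∧ r = 2)) (hG : IsMultiplyPretransitive G α (r + 1)) :
    alternatingGroup α ≤ G := by
  classical
  have hr3 : 3 ≤ r := by
    by_contra hcon
    have : r = 2 ∧ k = 1 := by omega
    exact hex ⟨this.2, this.1⟩
  by_cases h9 : r = 3 ∧ k = 2 ∧ p = 3
  · obtain ⟨rfl, rfl, rfl⟩ := h9
    exact KpNine.alternating_le G (by rw [hn]) hG
  have hpos : 1 * p ≤ k * p := Nat.mul_le_mul_right p hk
  have hrn : r + 1 ≤ Fintype.card α := by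
    have := hp.pos
    omega
  have hpn : p + 3 ≤ Fintype.card α := by omega
  obtain ⟨S, -, hS⟩ := Finset.exists_subset_card_eq (s := (Finset.univ : Finset α)) (n := r)
    (by rw [Finset.card_univ]; omega)
  obtain ⟨P, h⟩ := exists_setup G hp hn hk hpk hG S hS
  have hcompl : (Sᶜ : Finset α).card = k * p := by
    rw [Finset.card_compl, hn, hS]
    omega
  have hrENat : ((r + 1 : ℕ) : ENat) ≤ ENat.card α := by
    rw [ENat.card_eq_coe_fintype_card]
    exact_mod_cast hrn
  have hG2 : IsMultiplyPretransitive G α 2 :=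
    isMultiplyPretransitive_of_le' (by omega) hrENat
  have hprim : IsPreprimitive G α := isPreprimitive_of_is_two_pretransitive hG2
  obtain ⟨a₀, ha₀⟩ : ∃ a, a ∉ S := by
    by_contra hcon
    push Not at hcon
    have : (Sᶜ : Finset α) = ∅ := by
      ext a
      simp [hcon a]
    rw [this] at hcompl
    have := hp.pos
    simp at hcompl
    omega
  -- the case of a `p`-cycle
  by_cases hcyc : ∃ v ∈ P, v ≠ 1 ∧ ∃ a, a ∉ S ∧ ∀ b, b ∉ orbit P a → v b = b
  · obtain ⟨v, hv, hv1, a, ha, hs⟩ := hcyc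
    obtain ⟨c1, c2⟩ := h.cycle_of_support hp hv hv1 ha hs
    exact JordanPrime.jordan_prime_cycle G hprim hp hpn c1 c2 (h.hPG hv)
  have hL : ∀ v ∈ P, ∀ a, a ∉ S → (∀ b, b ∉ orbit P a → v b = b) → v = 1 := by
    intro v hv a ha hs
    by_contra hne
    exact hcyc ⟨v, hv, hne, a, ha, hs⟩
  -- `k ≠ 1`
  have hk2 : 2 ≤ k := by
    by_contra hcon
    have hk1 : k = 1 := by omega
    subst hk1
    obtain ⟨w, hw, hwa⟩ := h.exists_moved hp ha₀
    have horb : orbit P a₀ = ((Sᶜ : Finset α) : Set α) := by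
      apply Set.eq_of_subset_of_ncard_le
      · intro b hb
        simpa using h.compl ha₀ hb
      · rw [Set.ncard_coe_finset, hcompl, h.horb a₀ ha₀, one_mul]
      · exact Set.toFinite _
    have := hL w hw a₀ ha₀ (fun b hb => by
      rw [horb] at hb
      simp only [Finset.coe_compl, Set.mem_compl_iff, Finset.mem_coe, not_not] at hb
      exact h.hfix w hw b hb)
    rw [this] at hwa
    exact hwa rfl
  have hp2 : p ≠ 2 := by omega
  -- the two homomorphisms
  obtain ⟨φ, hφ, hφa⟩ := exists_phi h hp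
  obtain ⟨t, htc, ht1, ht2⟩ := exists_orbits h hp hcompl
  obtain ⟨ρ, hker⟩ := exists_rho h hp t ht1 ht2
  have hcW : Fintype.card t = k := by simp [htc]
  have hcS : Fintype.card S = r := by simp [hS]
  by_cases hcase : 5 ≤ r ∨ (r = 4 ∧ k ≤ 2)
  · refine route_i h hp hp2 hG (by omega) hrn hS φ ρ hker (fun σ hσ => ?_)
    rcases hcase with h5 | ⟨-, h2⟩
    · exact alternating_lifts φ hφ ρ (by omega) (by omega) (by omega) (by
        rw [Perm.mem_alternatingGroup]
        exact hσ.sign)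
    · refine fourth_lifts φ hφ ρ (by omega) ?_
      have : σ ^ 3 = 1 := by
        rw [← hσ.orderOf]
        exact pow_orderOf_eq_one σ
      rw [pow_succ, this, one_mul]
  · -- the scalar route
    have hpr : r < p := by
      have h34 : (r = 3 ∧ k = 2) ∨ (r = 4 ∧ k = 3) := by omega
      rcases h34 with ⟨rfl, rfl⟩ | ⟨rfl, rfl⟩
      · have hp3 : p ≠ 3 := fun h' => h9 ⟨rfl, rfl, h'⟩
        have hp4 : p ≠ 4 := by
          rintro rfl
          exact absurd hp (by decide)
        omega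
      · have hp4 : p ≠ 4 := by
          rintro rfl
          exact absurd hp (by decide)
        omega
    refine route_ii h hp hG (by omega) hrn hS hpr φ hφ ρ hker (by omega) (by omega) ?_
    intro x hx
    -- three orbits covering
    have hk23 : k = 2 ∨ k = 3 := by omega
    obtain ⟨a₁, a₂, a₃, h₁, h₂, h₃, hcov⟩ : ∃ a₁ a₂ a₃, a₁ ∉ S ∧ a₂ ∉ S ∧ a₃ ∉ S ∧
        ∀ b, b ∉ S → b ∈ orbit P a₁ ∨ b ∈ orbit P a₂ ∨ b ∈ orbit P a₃ := by
      rcases hk23 with hk' | hk'
      · rw [hk'] at htc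
        obtain ⟨O₁, O₂, -, ht⟩ := Finset.card_eq_two.1 htc
        obtain ⟨a₁, h₁, e₁⟩ := ht1 O₁ (by simp [ht])
        obtain ⟨a₂, h₂, e₂⟩ := ht1 O₂ (by simp [ht])
        refine ⟨a₁, a₂, a₂, h₁, h₂, h₂, fun b hb => ?_⟩
        have := ht2 b hb
        rw [ht] at this
        simp only [Finset.mem_insert, Finset.mem_singleton] at this
        rcases this with h' | h'
        · left
          rw [← e₁, ← h']
          exact mem_orbit_self b
        · right; left
          rw [← e₂, ← h']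
          exact mem_orbit_self b
      · rw [hk'] at htc
        obtain ⟨O₁, O₂, O₃, -, -, -, ht⟩ := Finset.card_eq_three.1 htc
        obtain ⟨a₁, h₁, e₁⟩ := ht1 O₁ (by simp [ht])
        obtain ⟨a₂, h₂, e₂⟩ := ht1 O₂ (by simp [ht])
        obtain ⟨a₃, h₃, e₃⟩ := ht1 O₃ (by simp [ht])
        refine ⟨a₁, a₂, a₃, h₁, h₂, h₃, fun b hb => ?_⟩
        have := ht2 b hb
        rw [ht] at this
        simp only [Finset.mem_insert, Finset.mem_singleton] at this
        rcases this with h' | h' | h'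
        · left
          rw [← e₁, ← h']
          exact mem_orbit_self b
        · right; left
          rw [← e₂, ← h']
          exact mem_orbit_self b
        · right; right
          rw [← e₃, ← h']
          exact mem_orbit_self b
    exact scalar_of_cover h hp hL h₁ h₂ h₃ hcov x.2.2 (hker _ hx)

end Cfsg.Agent.Lib.Perm.KpMain
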