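import Cfsg.Agent.Lib.Perm.KpSetup
import Cfsg.Agent.Lib.Perm.KpAbstract

/-!
# Orbits of `P` in the setting of Jordan's `n = kp + r` theorem
-/

set_option autoImplicit false

open MulAction Equiv
open scoped Pointwise

namespace Cfsg.Agent.Lib.Perm.KpSetup

open Cfsg.Agent.Lib.Perm Cfsg.Agent.Lib.Perm.LocalOrbit

variable {α : Type*} [Fintype α] [DecidableEq α]
  {G P : Subgroup (Perm α)} {S : Finset α} {p : ℕ}

omit [Fintype α] [DecidableEq α] in
theorem orb_smul {a : α} {w : Perm α} (hw : w ∈ P) (b : α) : b ∈ orbit P a ↔ w b ∈ orbit P a := by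
  constructor
  · rintro ⟨q, rfl⟩
    exact ⟨⟨w, hw⟩ * q, rfl⟩
  · rintro ⟨q, hq⟩
    refine ⟨⟨w, hw⟩⁻¹ * q, ?_⟩
    have hq' : (q : Perm α) a = w b := hq
    change w⁻¹ ((q : Perm α) a) = b
    rw [hq']
    simp

omit [Fintype α] [DecidableEq α] in
theorem orb_tr {a : α} : ∀ b ∈ orbit P a, ∀ c ∈ orbit P a, ∃ w ∈ P, w b = c := by
  rintro _ ⟨q, rfl⟩ _ ⟨q', rfl⟩
  refine ⟨(q' : Perm α) * (q : Perm α)⁻¹, P.mul_mem q'.2 (P.inv_mem q.2), ?_⟩
  change (q' : Perm α) ((q : Perm α)⁻¹ ((q : Perm α) a)) = (q' : Perm α) a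
  simp

omit [Fintype α] [DecidableEq α] in
theorem orb_self (a : α) : a ∈ orbit P a := mem_orbit_self a

omit [Fintype α] [DecidableEq α] in
theorem orb_eq {a b : α} (hb : b ∈ orbit P a) : orbit P b = orbit P a :=
  orbit_eq_iff.2 hb

omit [Fintype α] [DecidableEq α] in
/-- An element of the normaliser maps orbits to orbits. -/
theorem orb_map {x : Perm α} (hx : x ∈ Subgroup.normalizer (P : Set (Perm α))) {a b : α}
    (hb : b ∈ orbit P a) : x b ∈ orbit P (x a) := by
  obtain ⟨q, rfl⟩ := hb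
  refine ⟨⟨x * (q : Perm α) * x⁻¹, (Subgroup.mem_normalizer_iff.1 hx _).1 q.2⟩, ?_⟩
  change (x * (q : Perm α) * x⁻¹) (x a) = x ((q : Perm α) a)
  simp

namespace Setup

variable (h : Setup G P S p)
include h

theorem compl {a : α} (ha : a ∉ S) {b : α} (hb : b ∈ orbit P a) : b ∉ S := by
  obtain ⟨q, rfl⟩ := hb
  intro hS
  have h1 := h.hfix _ q.2 _ hS
  have h2 : (q : Perm α) ((q : Perm α) a) = (q : Perm α) a := h1
  have h3 : (q : Perm α) a = a := (q : Perm α).injective h2
  have h4 : (q : Perm α) a ∈ S := hS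
  rw [h3] at h4
  exact ha h4

theorem exists_moved (hp : p.Prime) {a : α} (ha : a ∉ S) : ∃ w ∈ P, w a ≠ a := by
  by_contra hcon
  push Not at hcon
  have hsing : orbit P a = {a} := by
    ext b
    constructor
    · rintro ⟨q, rfl⟩
      exact hcon _ q.2
    · rintro rfl
      exact mem_orbit_self _
  have := h.horb a ha
  rw [hsing, Set.ncard_singleton] at this
  exact hp.one_lt.ne this

/-- Elements of the normaliser preserve `S`. -/
theorem norm_mem (hp : p.Prime) {x : Perm α} (hx : x ∈ Subgroup.normalizer (P : Set (Perm α)))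
    {a : α} (ha : a ∈ S) : x a ∈ S := by
  by_contra hcon
  obtain ⟨w, hw, hwa⟩ := h.exists_moved hp hcon
  apply hwa
  have hc : x⁻¹ * w * x ∈ P := by
    have := (Subgroup.mem_normalizer_iff.1 (Subgroup.inv_mem _ hx) w).1 hw
    simpa using this
  have := h.hfix _ hc a ha
  have h1 : x⁻¹ (w (x a)) = a := this
  rw [Perm.inv_eq_iff_eq] at h1
  exact h1

theorem norm_iff (hp : p.Prime) {x : Perm α} (hx : x ∈ Subgroup.normalizer (P : Set (Perm α)))
    (a : α) : x a ∈ S ↔ a ∈ S := by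
  refine ⟨fun hxa => ?_, h.norm_mem hp hx⟩
  have := h.norm_mem hp (Subgroup.inv_mem _ hx) hxa
  simpa using this

end Setup

/-- `x` preserves every `P`-orbit outside `S`. -/
def OrbFix (P : Subgroup (Perm α)) (S : Finset α) (x : Perm α) : Prop :=
  ∀ a, a ∉ S → x a ∈ orbit P a

namespace Setup

variable (h : Setup G P S p)
include h

theorem orbfix_iff (hp : p.Prime) {x : Perm α} (hx : x ∈ Subgroup.normalizer (P : Set (Perm α)))
    (hf : OrbFix P S x) {a : α} (ha : a ∉ S) (b : α) : b ∈ orbit P a ↔ x b ∈ orbit P a := by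
  constructor
  · intro hb
    have hbS := h.compl ha hb
    have := hf b hbS
    rwa [orb_eq hb] at this
  · intro hb
    have hxb : x b ∉ S := h.compl ha hb
    have hbS : b ∉ S := fun hc => hxb (h.norm_mem hp hx hc)
    have h1 := hf b hbS
    have h2 : orbit P b = orbit P (x b) := (orb_eq h1).symm
    rw [orb_eq hb] at h2
    rw [← h2]
    exact mem_orbit_self b

/-- The data on an orbit needed from `LocalOrbit`. -/
theorem commutator_pow_fix (hp : p.Prime) {x y : Perm α}
    (hxn : x ∈ Subgroup.normalizer (P : Set (Perm α))) (hx : OrbFix P S x)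
    (hyn : y ∈ Subgroup.normalizer (P : Set (Perm α))) (hy : OrbFix P S y) {a : α} (ha : a ∉ S) :
    ((x⁻¹ * y⁻¹ * x * y) ^ p) a = a := by
  have : Fact p.Prime := ⟨hp⟩
  exact commutator_pow h.hP (orbit P a) (h.horb a ha) (fun w hw b => orb_smul hw b) orb_tr hxn
    (h.orbfix_iff hp hxn hx ha) hyn (h.orbfix_iff hp hyn hy ha) a (orb_self a)

/-- An orbit-preserving element commuting with `P` has `p`-th power fixing the complement. -/
theorem commute_pow_fix (hp : p.Prime) {u : Perm α}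
    (hun : u ∈ Subgroup.normalizer (P : Set (Perm α))) (hu : OrbFix P S u)
    (hcomm : ∀ w ∈ P, u * w = w * u) {a : α} (ha : a ∉ S) :
    (u ^ p) a = a := by
  have : Fact p.Prime := ⟨hp⟩
  exact pow_eq_of_commute h.hP (orbit P a) (h.horb a ha) (fun w hw b => orb_smul hw b) orb_tr
    (h.orbfix_iff hp hun hu ha) (fun w hw b _ => DFunLike.congr_fun (hcomm w hw) b) a (orb_self a)

/-- A nonidentity element of `P` with support in one orbit is a `p`-cycle. -/
theorem cycle_of_support (hp : p.Prime) {v : Perm α} (hv : v ∈ P) (hv1 : v ≠ 1) {a : α} (ha : a ∉ S)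
    (hsupp : ∀ b, b ∉ orbit P a → v b = b) : v.IsCycle ∧ v.support.card = p := by
  classical
  have : Fact p.Prime := ⟨hp⟩
  obtain ⟨c, hc⟩ : ∃ c, v c ≠ c := by
    by_contra hcon
    push Not at hcon
    exact hv1 (Equiv.ext hcon)
  have hcO : c ∈ orbit P a := by
    by_contra hcon
    exact hc (hsupp c hcon)
  have hO1 : ∀ b ∈ orbit P a, v b ∈ orbit P a := fun b hb => (orb_smul hv b).1 hb
  have hO2 : ∀ b ∈ orbit P a, v⁻¹ b ∈ orbit P a := fun b hb => (orb_smul (P.inv_mem hv) b).1 hb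
  have htr := zpow_transitive h.hP hv (orbit P a) (h.horb a ha) hO1 hO2 hcO hc
  have hcyc : v.IsCycle := by
    refine ⟨c, hc, fun y hy => ?_⟩
    have hyO : y ∈ orbit P a := by
      by_contra hcon
      exact hy (hsupp y hcon)
    obtain ⟨j, hj⟩ := htr y hyO
    exact ⟨j, hj⟩
  refine ⟨hcyc, ?_⟩
  have hsup : ((v.support : Finset α) : Set α) = orbit P a := by
    ext b
    simp only [Finset.mem_coe, Perm.mem_support]
    constructor
    · intro hb
      by_contra hcon
      exact hb (hsupp b hcon)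
    · intro hb
      obtain ⟨j, hj⟩ := htr b hb
      have hsc : v.SameCycle c b := ⟨j, hj⟩
      rw [Ne, ← hsc.apply_eq_self_iff]
      exact hc
  rw [← h.horb a ha, ← hsup, Set.ncard_coe_finset]

end Setup

end Cfsg.Agent.Lib.Perm.KpSetup
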