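import Cfsg.Agent.Lib.Perm.LocalOrbit

/-!
# The setting of Jordan's `n = kp + r` theorem

`S` is an `r`-set, `P` a Sylow `p`-subgroup of the pointwise stabiliser of `S` in an
`(r+1)`-transitive group of degree `kp + r`, `k < p`.
-/

set_option autoImplicit false

open MulAction Equiv
open scoped Pointwise

namespace Cfsg.Agent.Lib.Perm.KpSetup

open Cfsg.Agent.Lib.Perm Cfsg.Agent.Lib.Perm.Basic

variable {α : Type*} [Fintype α] [DecidableEq α]

/-- The data of Jordan's argument. -/
structure Setup (G P : Subgroup (Perm α)) (S : Finset α) (p : ℕ) : Prop where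
  hP : IsPGroup p P
  hPG : P ≤ G
  hfix : ∀ w ∈ P, ∀ a ∈ S, w a = a
  horb : ∀ a, a ∉ S → (orbit P a).ncard = p
  hlift : ∀ τ : Perm α, (∀ a ∈ S, τ a ∈ S) →
    ∃ g ∈ G, g ∈ Subgroup.normalizer (P : Set (Perm α)) ∧ ∀ a ∈ S, g a = τ a

theorem exists_setup (G : Subgroup (Perm α)) {k p r : ℕ} (hp : p.Prime)
    (hn : Fintype.card α = k * p + r) (hk : 1 ≤ k) (hpk : k < p)
    (hG : IsMultiplyPretransitive G α (r + 1)) (S : Finset α) (hS : S.card = r) :
    ∃ P : Subgroup (Perm α), Setup G P S p := by
  classical
  have : Fact p.Prime := ⟨hp⟩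
  let Fx : Subgroup (Perm α) :=
    { carrier := {g | ∀ a ∈ S, g a = a}
      mul_mem' := by
        intro x y hx hy a ha
        simp only [Perm.mul_apply]
        rw [hy a ha, hx a ha]
      one_mem' := by intro a _; rfl
      inv_mem' := by
        intro x hx a ha
        rw [Perm.inv_eq_iff_eq]
        exact (hx a ha).symm }
  let H : Subgroup (Perm α) := G ⊓ Fx
  have hHmem : ∀ g : Perm α, g ∈ H ↔ g ∈ G ∧ ∀ a ∈ S, g a = a := fun g => Iff.rfl
  obtain ⟨P₀⟩ : Nonempty (Sylow p H) := inferInstance
  let P : Subgroup (Perm α) := (P₀ : Subgroup H).map H.subtype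
  have hPH : P ≤ H := by
    rintro _ ⟨y, _, rfl⟩
    exact y.2
  have hPp : IsPGroup p P := P₀.isPGroup'.map _
  have hPsub : P.subgroupOf H = (P₀ : Subgroup H) := by
    change ((P₀ : Subgroup H).map H.subtype).subgroupOf H = _
    exact Subgroup.comap_map_eq_self_of_injective H.subtype_injective _
  have hind : ¬ p ∣ (P.subgroupOf H).index := by
    rw [hPsub]
    exact P₀.not_dvd_index
  have hfix : ∀ w ∈ P, ∀ a ∈ S, w a = a := fun w hw => ((hHmem w).1 (hPH hw)).2
  have hcard : (Sᶜ : Finset α).card = k * p := by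
    rw [Finset.card_compl, hn, hS]
    omega
  have hrn : ((r + 1 : ℕ) : ENat) ≤ ENat.card α := by
    rw [ENat.card_eq_coe_fintype_card]
    norm_cast
    rw [hn]
    have := Nat.mul_pos hk hp.pos
    omega
  -- transitivity on the complement
  have htrans : ∀ a b, a ∉ S → b ∉ S → ∃ g ∈ H, g a = b := by
    intro a b ha hb
    let f : α → α := Function.update id a b
    have hf : Set.InjOn f (insert a S : Finset α) := by
      intro x hx y hy hxy
      simp only [Finset.coe_insert, Set.mem_insert_iff, Finset.mem_coe] at hx hy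
      by_cases hxa : x = a
      · by_cases hya : y = a
        · rw [hxa, hya]
        · have hy' : y ∈ S := hy.resolve_left hya
          subst hxa
          simp only [f, Function.update_self, Function.update_of_ne hya, id] at hxy
          exact absurd (hxy ▸ hy') hb
      · by_cases hya : y = a
        · have hx' : x ∈ S := hx.resolve_left hxa
          subst hya
          simp only [f, Function.update_self, Function.update_of_ne hxa, id] at hxy
          exact absurd (hxy ▸ hx') hb
        · simpa [f, Function.update_of_ne hxa, Function.update_of_ne hya] using hxy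
    obtain ⟨g, hg⟩ := exists_agree_of_card_eq hG (insert a S)
      (by rw [Finset.card_insert_of_notMem ha, hS]) f hf
    refine ⟨(g : Perm α), ?_, ?_⟩
    · refine (hHmem _).2 ⟨g.2, fun c hc => ?_⟩
      have h1 : (g : Perm α) c = f c := hg c (Finset.mem_insert_of_mem hc)
      have hca : c ≠ a := fun h => ha (h ▸ hc)
      simpa [f, Function.update_of_ne hca] using h1
    · have h1 : (g : Perm α) a = f a := hg a (Finset.mem_insert_self a S)
      simpa [f] using h1
  have hsmul : ∀ (w : P) (a : α), w • a = (w : Perm α) a := fun _ _ => rfl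
  refine ⟨P, hPp, fun x hx => ((hHmem x).1 (hPH hx)).1, hfix, ?_, ?_⟩
  · -- orbits have size `p`
    intro a ha
    have hsub : orbit P a ⊆ ((Sᶜ : Finset α) : Set α) := by
      rintro _ ⟨w, rfl⟩
      simp only [Finset.coe_compl, Set.mem_compl_iff, Finset.mem_coe]
      intro h
      have h1 := hfix _ w.2 _ h
      have h2 : (w : Perm α) ((w : Perm α) a) = (w : Perm α) a := h1
      exact ha (by simpa [hsmul] using (w : Perm α).injective h2 ▸ h)
    have hle : (orbit P a).ncard ≤ k * p := by
      rw [← hcard, ← Set.ncard_coe_finset]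
      exact Set.ncard_le_ncard hsub (Set.toFinite _)
    obtain ⟨f, hf⟩ := hPp.card_orbit a
    rw [Nat.card_coe_set_eq] at hf
    have hf0 : f ≠ 0 := by
      rintro rfl
      rw [pow_zero] at hf
      -- `P` fixes `a`
      have hall : ∀ w ∈ P, w a = a := by
        intro w hw
        have hsing : Set.Subsingleton (orbit P a) := by
          rw [← Set.encard_le_one_iff_subsingleton, ← Set.Finite.cast_ncard_eq (Set.toFinite _), hf]
          simp
        exact hsing (⟨⟨w, hw⟩, rfl⟩ : w a ∈ orbit P a) (mem_orbit_self a)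
      have hle2 : (P₀ : Subgroup H) ≤ stabilizer H a := by
        intro y hy
        have : (y : Perm α) ∈ P := ⟨y, hy, rfl⟩
        exact hall _ this
      have hdvd := Subgroup.index_dvd_of_le hle2
      rw [index_stabilizer] at hdvd
      have horbH : orbit H a = ((Sᶜ : Finset α) : Set α) := by
        ext b
        simp only [Finset.coe_compl, Set.mem_compl_iff, Finset.mem_coe]
        constructor
        · rintro ⟨y, rfl⟩
          intro h
          have h1 := ((hHmem _).1 y.2).2 _ h
          have h2 : (y : Perm α) ((y : Perm α) a) = (y : Perm α) a := h1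
          exact ha (by simpa using (y : Perm α).injective h2 ▸ h)
        · intro hb
          obtain ⟨g, hg, hgb⟩ := htrans a b ha hb
          exact ⟨⟨g, hg⟩, hgb⟩
      rw [horbH, Set.ncard_coe_finset, hcard] at hdvd
      exact P₀.not_dvd_index ((Dvd.intro_left k rfl).trans hdvd)
    have hf1 : f = 1 := by
      by_contra hne
      have hf2 : 2 ≤ f := by omega
      have h1 : p ^ 2 ≤ p ^ f := Nat.pow_le_pow_right hp.pos hf2
      have h2 : k * p < p * p := Nat.mul_lt_mul_of_pos_right hpk hp.pos
      have h3 : p ^ 2 = p * p := sq p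
      omega
    rw [hf, hf1, pow_one]
  · -- lifts
    intro τ hτ
    have hGr : IsMultiplyPretransitive G α r :=
      isMultiplyPretransitive_of_le' (Nat.le_succ r) hrn
    obtain ⟨g, hg⟩ := exists_agree_of_card_eq hGr S hS τ τ.injective.injOn
    have hgS : ∀ a ∈ S, (g : Perm α) a = τ a := hg
    have hgS' : ∀ a ∈ S, (g : Perm α) a ∈ S := fun a ha => (hgS a ha).symm ▸ hτ a ha
    -- `g` permutes `S`
    have hsurj : ∀ b ∈ S, ∃ a ∈ S, (g : Perm α) a = b := by
      have hinj : Set.InjOn (g : Perm α) S := (g : Perm α).injective.injOn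
      have himg := Finset.surjOn_of_injOn_of_card_le (s := S) (t := S) (g : Perm α)
        (fun a ha => hgS' a ha) hinj le_rfl
      intro b hb
      obtain ⟨a, ha, hab⟩ := himg hb
      exact ⟨a, ha, hab⟩
    have hconj : ∀ y, y ∈ H ↔ (g : Perm α) * y * (g : Perm α)⁻¹ ∈ H := by
      intro y
      rw [hHmem, hHmem]
      constructor
      · rintro ⟨hy1, hy2⟩
        refine ⟨G.mul_mem (G.mul_mem g.2 hy1) (G.inv_mem g.2), fun b hb => ?_⟩
        obtain ⟨a, ha, rfl⟩ := hsurj b hb
        simp [Perm.mul_apply, hy2 a ha]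
      · rintro ⟨hy1, hy2⟩
        refine ⟨?_, fun a ha => ?_⟩
        · have := G.mul_mem (G.mul_mem (G.inv_mem g.2) hy1) g.2
          have e : (g : Perm α)⁻¹ * ((g : Perm α) * y * (g : Perm α)⁻¹) * (g : Perm α) = y := by
            group
          rwa [e] at this
        · have := hy2 _ (hgS' a ha)
          simpa [Perm.mul_apply] using this
    obtain ⟨h, hh, hhg⟩ := Witt.frattini_sylow hPp hPH hPH (g : Perm α) hconj hind
    refine ⟨h * g, G.mul_mem ((hHmem h).1 hh).1 g.2, hhg, fun a ha => ?_⟩
    simp only [Perm.mul_apply]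
    rw [((hHmem h).1 hh).2 _ (hgS' a ha), hgS a ha]

end Cfsg.Agent.Lib.Perm.KpSetup
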