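import Cfsg.Agent.Lib.Perm.LWFive
import Cfsg.Agent.Lib.Perm.Induced

/-!
# `t`-transitive groups inducing only the alternating group on `(t + 1)`-sets
-/

set_option autoImplicit false
set_option linter.unusedSectionVars false

open MulAction Equiv
open scoped Pointwise

namespace Cfsg.Agent.Lib.Perm.LWAlt

open Cfsg.Agent.Lib.Perm Cfsg.Agent.Lib.Perm.Basic Cfsg.Agent.Lib.Perm.LWCore
  Cfsg.Agent.Lib.Perm.NSClassify Cfsg.Agent.Lib.Perm.Induced Cfsg.Agent.Lib.Perm.Tits
  Cfsg.Agent.Lib.Perm.LWFive

variable {α : Type*} [Fintype α] [DecidableEq α] {G : Subgroup (Perm α)} {t : ℕ}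

theorem card_E {p q r s u : α} {Z : Finset α} (h1 : p ≠ q) (h2 : p ≠ r) (h3 : p ≠ s) (h4 : p ≠ u)
    (h5 : q ≠ r) (h6 : q ≠ s) (h7 : q ≠ u) (h8 : r ≠ s) (h9 : r ≠ u) (h10 : s ≠ u)
    (hp : p ∉ Z) (hq : q ∉ Z) (hr : r ∉ Z) (hs : s ∉ Z) (hu : u ∉ Z) :
    (insert p (insert q (insert r (insert s (insert u Z))))).card = Z.card + 5 := by
  rw [Finset.card_insert_of_notMem (by simp [h1, h2, h3, h4, hp]),
    Finset.card_insert_of_notMem (by simp [h5, h6, h7, hq]),
    Finset.card_insert_of_notMem (by simp [h8, h9, hr]),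
    Finset.card_insert_of_notMem (by simp [h10, hs]),
    Finset.card_insert_of_notMem hu]

theorem nz {Z : Finset α} (x : OZ G Z) : (x : α) ∉ Z := fun h => x.2 (by exact_mod_cast h)

theorem vne {Z : Finset α} {x y : OZ G Z} (h : x ≠ y) : (x : α) ≠ y :=
  fun h' => h (Subtype.ext h')

/-- The theorem `LW5` for stabilisers. -/
theorem lw5_of {Z : Finset α} (hZ : Z.card + 4 = t) (hG : IsMultiplyPretransitive G α t)
    (hh : IsPretransitive G (Set.powersetCard α (t + 1)))
    (hAlt : ∀ E : Finset α, E.card = t + 1 → alternatingGroup ↥E ≤ indGrp G E)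
    (hOdd : ∀ E : Finset α, E.card = t + 1 → ∀ σ ∈ indGrp G E, Perm.sign σ = 1) :
    LW5 (MZ G Z) (OZ G Z) := by
  have hh' := Homogeneous.homog_iff.1 hh
  have hval : ∀ (g : MZ G Z) {x y : OZ G Z}, g • x = y → ((g : G) : Perm α) x = y :=
    fun g x y h => congrArg Subtype.val h
  refine ⟨tr4_of (by rwa [hZ]), ?_, ?_, ?_, ?_⟩
  · intro g hg
    have h1 : ((g : G) : Perm α) = 1 := by
      ext x
      by_cases hx : x ∈ Z
      · exact fix_val g hx
      · have : x ∉ (Z : Set α) := fun h => hx (by exact_mod_cast h)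
        exact hval g (hg ⟨x, this⟩)
    exact Subtype.ext (Subtype.ext h1)
  · -- no transposition
    intro g p q r₁ r₂ r₃ hpq h12 h13 h23 h1 h2 h3 h4 h5
    have h1' := hval g h1
    have h2' := hval g h2
    have h3' := hval g h3
    have h4' := hval g h4
    have h5' := hval g h5
    have hne : ∀ {r : OZ G Z}, g • r = r → (p : α) ≠ r := by
      intro r hr h
      have h6 : p = r := Subtype.ext h
      rw [h6, hr] at h1
      exact hpq (h6.trans h1)
    have hne' : ∀ {r : OZ G Z}, g • r = r → (q : α) ≠ r := by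
      intro r hr h
      have h6 : q = r := Subtype.ext h
      rw [h6, hr] at h2
      exact hpq (h2.symm.trans h6.symm)
    set E : Finset α := insert (p : α) (insert (q : α) (insert (r₁ : α) (insert (r₂ : α)
      (insert (r₃ : α) Z)))) with hE
    have hEcard : E.card = t + 1 := by
      rw [hE, card_E (vne hpq) (hne h3) (hne h4) (hne h5) (hne' h3) (hne' h4) (hne' h5) (vne h12)
        (vne h13) (vne h23) (nz p) (nz q) (nz r₁) (nz r₂) (nz r₃)]
      omega
    let P : ↥E := ⟨p, by simp [hE]⟩
    let Q : ↥E := ⟨q, by simp [hE]⟩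
    have hPQ : P ≠ Q := fun h => vne hpq (congrArg (fun u : ↥E => (u : α)) h)
    have hσ : Equiv.swap P Q ∈ indGrp G E := by
      refine ⟨_, (g : G).2, fun x => ?_⟩
      by_cases hxP : x = P
      · rw [hxP, Equiv.swap_apply_left]
        exact h1'
      · by_cases hxQ : x = Q
        · rw [hxQ, Equiv.swap_apply_right]
          exact h2'
        · rw [Equiv.swap_apply_of_ne_of_ne hxP hxQ]
          have hx := x.2
          simp only [hE, Finset.mem_insert] at hx
          rcases hx with hx | hx | hx | hx | hx | hx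
          · exact absurd (Subtype.ext hx) hxP
          · exact absurd (Subtype.ext hx) hxQ
          · rw [hx]; exact h3'
          · rw [hx]; exact h4'
          · rw [hx]; exact h5'
          · exact fix_val g hx
    have := hOdd E hEcard _ hσ
    rw [Perm.sign_swap hPQ] at this
    exact absurd this (by decide)
  · -- no four-cycle
    intro g p₁ p₂ p₃ p₄ r h13 h1 h2 h3 h4 h5
    have h1' := hval g h1
    have h2' := hval g h2
    have h3' := hval g h3
    have h4' := hval g h4
    have h5' := hval g h5
    have h12 : p₁ ≠ p₂ := by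
      intro h
      apply h13
      rw [h] at h1
      rw [h, ← h2, h1]
    have h23 : p₂ ≠ p₃ := by
      intro h
      apply h12
      rw [← h] at h2
      exact MulAction.injective g (h1.trans h2.symm)
    have h24 : p₂ ≠ p₄ := by
      intro h
      apply h13
      rw [← h] at h3
      exact MulAction.injective g (h1.trans h3.symm)
    have h34 : p₃ ≠ p₄ := by
      intro h
      apply h23
      rw [← h] at h3
      exact MulAction.injective g (h2.trans h3.symm)
    have h14 : p₁ ≠ p₄ := by
      intro h
      apply h12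
      rw [← h, h1] at h4
      exact h4.symm
    have hr1 : r ≠ p₁ := by
      intro h
      rw [h] at h5
      exact h12 (h5.symm.trans h1)
    have hr2 : r ≠ p₂ := by
      intro h
      rw [h] at h5
      exact h23 (h5.symm.trans h2)
    have hr3 : r ≠ p₃ := by
      intro h
      rw [h] at h5
      exact h34 (h5.symm.trans h3)
    have hr4 : r ≠ p₄ := by
      intro h
      rw [h] at h5
      exact h14 (h4.symm.trans h5)
    set E : Finset α := insert (p₁ : α) (insert (p₂ : α) (insert (p₃ : α) (insert (p₄ : α)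
      (insert (r : α) Z)))) with hE
    have hEcard : E.card = t + 1 := by
      rw [hE, card_E (vne h12) (vne h13) (vne h14) (vne hr1.symm) (vne h23) (vne h24) (vne hr2.symm)
        (vne h34) (vne hr3.symm) (vne hr4.symm) (nz p₁) (nz p₂) (nz p₃) (nz p₄) (nz r)]
      omega
    let P₁ : ↥E := ⟨p₁, by simp [hE]⟩
    let P₂ : ↥E := ⟨p₂, by simp [hE]⟩
    let P₃ : ↥E := ⟨p₃, by simp [hE]⟩
    let P₄ : ↥E := ⟨p₄, by simp [hE]⟩
    have n12 : P₁ ≠ P₂ := fun h => vne h12 (congrArg (fun u : ↥E => (u : α)) h)
    have n13 : P₁ ≠ P₃ := fun h => vne h13 (congrArg (fun u : ↥E => (u : α)) h)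
    have n14 : P₁ ≠ P₄ := fun h => vne h14 (congrArg (fun u : ↥E => (u : α)) h)
    have n23 : P₂ ≠ P₃ := fun h => vne h23 (congrArg (fun u : ↥E => (u : α)) h)
    have n24 : P₂ ≠ P₄ := fun h => vne h24 (congrArg (fun u : ↥E => (u : α)) h)
    have n34 : P₃ ≠ P₄ := fun h => vne h34 (congrArg (fun u : ↥E => (u : α)) h)
    have hσ : Equiv.swap P₁ P₂ * Equiv.swap P₂ P₃ * Equiv.swap P₃ P₄ ∈ indGrp G E := by
      refine ⟨_, (g : G).2, fun x => ?_⟩
      simp only [Perm.mul_apply]
      by_cases hx1 : x = P₁
      · rw [hx1, Equiv.swap_apply_of_ne_of_ne n13 n14, Equiv.swap_apply_of_ne_of_ne n12 n13,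
          Equiv.swap_apply_left]
        exact h1'
      by_cases hx2 : x = P₂
      · rw [hx2, Equiv.swap_apply_of_ne_of_ne n23 n24, Equiv.swap_apply_left, 
          Equiv.swap_apply_of_ne_of_ne n13.symm n23.symm]
        exact h2'
      by_cases hx3 : x = P₃
      · rw [hx3, Equiv.swap_apply_left, Equiv.swap_apply_of_ne_of_ne n24.symm n34.symm,
          Equiv.swap_apply_of_ne_of_ne n14.symm n24.symm]
        exact h3'
      by_cases hx4 : x = P₄
      · rw [hx4, Equiv.swap_apply_right, Equiv.swap_apply_right, Equiv.swap_apply_right]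
        exact h4'
      rw [Equiv.swap_apply_of_ne_of_ne hx3 hx4, Equiv.swap_apply_of_ne_of_ne hx2 hx3,
        Equiv.swap_apply_of_ne_of_ne hx1 hx2]
      have hx := x.2
      simp only [hE, Finset.mem_insert] at hx
      rcases hx with hx | hx | hx | hx | hx | hx
      · exact absurd (Subtype.ext hx) hx1
      · exact absurd (Subtype.ext hx) hx2
      · exact absurd (Subtype.ext hx) hx3
      · exact absurd (Subtype.ext hx) hx4
      · rw [hx]; exact h5'
      · exact fix_val g hx
    have := hOdd E hEcard _ hσ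
    simp only [map_mul, Perm.sign_swap n12, Perm.sign_swap n23, Perm.sign_swap n34] at this
    exact absurd this (by decide)
  · -- homogeneity
    intro a b c d y y' hD hya hyb hyc hyd hya' hyb' hyc' hyd'
    obtain ⟨hab, hac, had, hbc, hbd, hcd⟩ := hD
    set E : Finset α := insert (y : α) (insert (a : α) (insert (b : α) (insert (c : α)
      (insert (d : α) Z)))) with hE
    set E' : Finset α := insert (y' : α) (insert (a : α) (insert (b : α) (insert (c : α)
      (insert (d : α) Z)))) with hE'
    have hEcard : E.card = t + 1 := by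
      rw [hE, card_E (vne hya) (vne hyb) (vne hyc) (vne hyd) (vne hab) (vne hac) (vne had)
        (vne hbc) (vne hbd) (vne hcd) (nz y) (nz a) (nz b) (nz c) (nz d)]
      omega
    have hE'card : E'.card = t + 1 := by
      rw [hE', card_E (vne hya') (vne hyb') (vne hyc') (vne hyd') (vne hab) (vne hac) (vne had)
        (vne hbc) (vne hbd) (vne hcd) (nz y') (nz a) (nz b) (nz c) (nz d)]
      omega
    obtain ⟨g₀, hg₀⟩ := hh' E E' hEcard hE'card
    let φ : α → α := fun x => if x = (y : α) then (y' : α) else x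
    have hφy : φ y = y' := by simp [φ]
    have hφo : ∀ x : α, x ≠ y → φ x = x := fun x hx => by simp [φ, hx]
    have hφ1 : ∀ x ∈ E, φ x ∈ E' := by
      intro x hx
      by_cases hxy : x = y
      · rw [hxy, hφy]
        simp [hE']
      · rw [hφo x hxy]
        simp only [hE, Finset.mem_insert] at hx
        rcases hx with hx | hx
        · exact absurd hx hxy
        · simp only [hE', Finset.mem_insert]
          exact Or.inr hx
    have hφ2 : Set.InjOn φ E := by
      intro u hu v hv huv
      have hu' : u ∈ E := hu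
      have hv' : v ∈ E := hv
      simp only [hE, Finset.mem_insert] at hu' hv'
      have hoff : ∀ {w : α}, w = a ∨ w = b ∨ w = c ∨ w = d ∨ w ∈ Z → w ≠ y' := by
        rintro w (rfl | rfl | rfl | rfl | hw) h
        · exact hya' (Subtype.ext h.symm)
        · exact hyb' (Subtype.ext h.symm)
        · exact hyc' (Subtype.ext h.symm)
        · exact hyd' (Subtype.ext h.symm)
        · exact nz y' (h ▸ hw)
      by_cases huy : u = y
      · by_cases hvy : v = y
        · rw [huy, hvy]
        · rw [huy, hφy, hφo v hvy] at huv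
          rcases hv' with hv' | hv'
          · exact absurd hv' hvy
          · exact absurd huv.symm (hoff hv')
      · by_cases hvy : v = y
        · rw [hvy, hφy, hφo u huy] at huv
          rcases hu' with hu' | hu'
          · exact absurd hu' huy
          · exact absurd huv (hoff hu')
        · rwa [hφo u huy, hφo v hvy] at huv
    have hin : ∀ {w : α}, w = a ∨ w = b ∨ w = c ∨ w = d ∨ w ∈ Z → w ∈ E := by
      intro w hw
      simp only [hE, Finset.mem_insert]
      exact Or.inr hw
    have hny : ∀ {w : OZ G Z}, y ≠ w → (w : α) ≠ y := fun {w} h h' => h (Subtype.ext h'.symm)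
    rcases exists_even_ext (hAlt E' hE'card) g₀ hg₀ φ hφ1 hφ2 (p := a) (q := b) (by simp [hE'])
      (by simp [hE']) (vne hab) with ⟨g, hgφ⟩ | ⟨g, hgφ⟩
    · have hgZ : g ∈ fixingSubgroup G (Z : Set α) := by
        rw [mem_MZ]
        intro z hz
        have h1 := hgφ z (hin (by simp [hz]))
        rw [hφo z (fun h => nz y (h ▸ hz))] at h1
        exact h1
      refine ⟨⟨g, hgZ⟩, Subtype.ext ?_, Subtype.ext ?_, Or.inl ⟨Subtype.ext ?_, Subtype.ext ?_⟩,
        Subtype.ext ?_⟩
      · have h1 := hgφ c (hin (by simp))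
        rwa [hφo c (hny hyc)] at h1
      · have h1 := hgφ d (hin (by simp))
        rwa [hφo d (hny hyd)] at h1
      · have h1 := hgφ a (hin (by simp))
        rwa [hφo a (hny hya)] at h1
      · have h1 := hgφ b (hin (by simp))
        rwa [hφo b (hny hyb)] at h1
      · have h1 := hgφ y (by simp [hE])
        rwa [hφy] at h1
    · have hsw : ∀ {w : α}, w ≠ a → w ≠ b → Equiv.swap (a : α) b w = w :=
        fun h1 h2 => Equiv.swap_apply_of_ne_of_ne h1 h2
      have hgZ : g ∈ fixingSubgroup G (Z : Set α) := by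
        rw [mem_MZ]
        intro z hz
        have h1 := hgφ z (hin (by simp [hz]))
        rw [hφo z (fun h => nz y (h ▸ hz)), hsw (fun h => nz a (h ▸ hz)) (fun h => nz b (h ▸ hz))]
          at h1
        exact h1
      refine ⟨⟨g, hgZ⟩, Subtype.ext ?_, Subtype.ext ?_, Or.inr ⟨Subtype.ext ?_, Subtype.ext ?_⟩,
        Subtype.ext ?_⟩
      · have h1 := hgφ c (hin (by simp))
        rwa [hφo c (hny hyc), hsw (vne hac.symm) (vne hbc.symm)] at h1
      · have h1 := hgφ d (hin (by simp))
        rwa [hφo d (hny hyd), hsw (vne had.symm) (vne hbd.symm)] at h1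
      · have h1 := hgφ a (hin (by simp))
        rwa [hφo a (hny hya), Equiv.swap_apply_left] at h1
      · have h1 := hgφ b (hin (by simp))
        rwa [hφo b (hny hyb), Equiv.swap_apply_right] at h1
      · have h1 := hgφ y (by simp [hE])
        rwa [hφy, hsw (vne hya') (vne hyb')] at h1

/-- **The theorem**: a `t`-transitive, `(t+1)`-homogeneous group inducing only the alternating
group on `(t + 1)`-sets (`t ≥ 4`) has degree at most `t + 2`. -/
theorem lw_alt (ht : 4 ≤ t) (hG : IsMultiplyPretransitive G α t)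
    (hh : IsPretransitive G (Set.powersetCard α (t + 1)))
    (hAlt : ∀ E : Finset α, E.card = t + 1 → alternatingGroup ↥E ≤ indGrp G E)
    (hOdd : ∀ E : Finset α, E.card = t + 1 → ∀ σ ∈ indGrp G E, Perm.sign σ = 1) :
    Fintype.card α ≤ t + 2 := by
  classical
  by_contra hcon
  push Not at hcon
  obtain ⟨Z, -, hZ⟩ := Finset.exists_subset_card_eq (s := (Finset.univ : Finset α)) (n := t - 4)
    (by rw [Finset.card_univ]; omega)
  have hL := lw5_of (Z := Z) (by omega) hG hh hAlt hOdd
  have := Fintype.ofFinite (OZ G Z)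
  have h6 := hL.card_le
  rw [← Nat.card_eq_fintype_card, card_OZ, hZ] at h6
  omega

end Cfsg.Agent.Lib.Perm.LWAlt
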