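import Cfsg.Agent.Lib.Perm.Tits
import Cfsg.Agent.Lib.Perm.KpNine

/-!
# Near-sharp multiply transitive groups

`G` is `t`-transitive and only the identity of `G` fixes `t + 1` points.
-/

set_option autoImplicit false
set_option linter.unusedSectionVars false

open MulAction Equiv

namespace Cfsg.Agent.Lib.Perm.LWCore

open Cfsg.Agent.Lib.Perm Cfsg.Agent.Lib.Perm.Basic Cfsg.Agent.Lib.Perm.Tits

/-- A free action: the order of the group divides the number of points. -/
theorem card_dvd_of_free {H X : Type*} [Group H] [Finite H] [MulAction H X] [Finite X]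
    (hfree : ∀ (g : H) (x : X), g • x = x → g = 1) : Nat.card H ∣ Nat.card X := by
  classical
  have := Fintype.ofFinite X
  have := Fintype.ofFinite H
  have hcard : ∀ x : X, Nat.card (orbit H x) = Nat.card H := by
    intro x
    have h1 := card_orbit_mul_card_stabilizer_eq_card_group H x
    have h2 : Nat.card (stabilizer H x) = 1 := by
      rw [Nat.card_eq_one_iff_unique]
      refine ⟨⟨fun u v => ?_⟩, ⟨1⟩⟩
      exact Subtype.ext ((hfree _ x u.2).trans (hfree _ x v.2).symm)
    simp only [Nat.card_eq_fintype_card] at h2 ⊢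
    rw [h2, mul_one] at h1
    exact h1
  have e := Nat.card_congr (MulAction.selfEquivSigmaOrbits H X)
  rw [Nat.card_sigma] at e
  rw [e]
  apply Finset.dvd_sum
  intro ω _
  rw [hcard]

variable {α : Type*} [Fintype α] [DecidableEq α] {G : Subgroup (Perm α)} {t : ℕ}

/-- Only the identity of `G` fixes `t + 1` points. -/
def Rigid (G : Subgroup (Perm α)) (t : ℕ) : Prop :=
  ∀ s : Finset α, s.card = t + 1 → ∀ g ∈ G, (∀ a ∈ s, g a = a) → g = 1

/-- Order of a pointwise stabiliser. -/
noncomputable abbrev hOrd (G : Subgroup (Perm α)) (s : Finset α) : ℕ :=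
  Nat.card (fixingSubgroup G (s : Set α))

/-- Pointwise stabilisers of sets in the same `G`-orbit have the same order. -/
theorem hOrd_conj (g : G) {s s' : Finset α} (h : (s : Set α).image (g : Perm α) = s') :
    hOrd G s = hOrd G s' := by
  classical
  have hs' : ∀ a ∈ s, (g : Perm α) a ∈ s' := by
    intro a ha
    have : (g : Perm α) a ∈ (s' : Set α) := by
      rw [← h]
      exact ⟨a, ha, rfl⟩
    exact this
  have hs : ∀ b ∈ s', ∃ a ∈ s, (g : Perm α) a = b := by
    intro b hb
    have : b ∈ (s : Set α).image (g : Perm α) := by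
      rw [h]
      exact hb
    obtain ⟨a, ha, hab⟩ := this
    exact ⟨a, ha, hab⟩
  have e : fixingSubgroup G (s' : Set α) =
      (fixingSubgroup G (s : Set α)).map (MulAut.conj g).toMonoidHom := by
    ext w
    simp only [mem_fixingSubgroup_iff, Subgroup.mem_map, Finset.mem_coe]
    constructor
    · intro hw
      refine ⟨g⁻¹ * w * g, fun a ha => ?_, by simp [MulAut.conj_apply, mul_assoc]⟩
      have h1 : w • ((g : Perm α) a) = (g : Perm α) a := hw _ (hs' a ha)
      simp only [mul_smul]
      have h2 : g • a = (g : Perm α) a := rfl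
      rw [h2, h1, ← h2, inv_smul_smul]
    · rintro ⟨u, hu, rfl⟩
      intro b hb
      obtain ⟨a, ha, rfl⟩ := hs b hb
      simp only [MulEquiv.coe_toMonoidHom, MulAut.conj_apply, mul_smul]
      have h2 : g • a = (g : Perm α) a := rfl
      rw [← h2, inv_smul_smul, hu a ha]
  unfold hOrd
  rw [e]
  exact (Subgroup.card_map_of_injective (MulAut.conj g).injective).symm

/-- All `t`-sets have the same stabiliser order. -/
theorem hOrd_const (hG : IsMultiplyPretransitive G α t) {s s' : Finset α} (hs : s.card = t)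
    (hs' : s'.card = t) : hOrd G s = hOrd G s' := by
  classical
  obtain ⟨f⟩ : Nonempty (s ≃ s') := by
    apply Fintype.card_eq.1
    simp [hs, hs']
  let F : α → α := fun x => if hx : x ∈ s then (f ⟨x, hx⟩ : α) else x
  have hF : Set.InjOn F s := by
    intro x hx y hy hxy
    have hx' : x ∈ s := hx
    have hy' : y ∈ s := hy
    simp only [F, dif_pos hx', dif_pos hy'] at hxy
    have := f.injective (Subtype.ext hxy)
    exact congrArg Subtype.val this
  obtain ⟨g, hg⟩ := exists_agree_of_card_eq hG s hs F hF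
  apply hOrd_conj g
  ext b
  simp only [Set.mem_image, Finset.mem_coe]
  constructor
  · rintro ⟨a, ha, rfl⟩
    have h1 : (g : Perm α) a = F a := hg a ha
    rw [h1]
    simp only [F, dif_pos ha]
    exact (f ⟨a, ha⟩).2
  · intro hb
    refine ⟨(f.symm ⟨b, hb⟩ : α), (f.symm ⟨b, hb⟩).2, ?_⟩
    have hm := (f.symm ⟨b, hb⟩).2
    have h1 : (g : Perm α) (f.symm ⟨b, hb⟩ : α) = F (f.symm ⟨b, hb⟩ : α) := hg _ hm
    rw [h1]
    simp [F]

/-- The action of the pointwise stabiliser of `Z` on the rest is `r`-transitive. -/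
theorem exists_agree_rel {r : ℕ} {Z : Finset α} (hG : IsMultiplyPretransitive G α (Z.card + r))
    (B : Finset α) (hB : B.card = r) (hZB : Disjoint Z B) (f : α → α)
    (hf : Set.InjOn f B) (hfZ : ∀ x ∈ B, f x ∉ Z) :
    ∃ g : G, (∀ a ∈ Z, (g : Perm α) a = a) ∧ ∀ x ∈ B, (g : Perm α) x = f x := by
  classical
  let F : α → α := fun x => if x ∈ Z then x else f x
  have hFinj : Set.InjOn F ((Z ∪ B : Finset α) : Set α) := by
    intro x hx y hy hxy
    simp only [Finset.coe_union, Set.mem_union, Finset.mem_coe] at hx hy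
    by_cases hxZ : x ∈ Z
    · by_cases hyZ : y ∈ Z
      · simpa [F, hxZ, hyZ] using hxy
      · have hyB : y ∈ B := hy.resolve_left hyZ
        simp only [F, hxZ, hyZ, if_true, if_false] at hxy
        exact absurd (hxy ▸ hxZ) (hfZ y hyB)
    · have hxB : x ∈ B := hx.resolve_left hxZ
      by_cases hyZ : y ∈ Z
      · simp only [F, hxZ, hyZ, if_true, if_false] at hxy
        exact absurd (hxy ▸ hyZ) (hfZ x hxB)
      · have hyB : y ∈ B := hy.resolve_left hyZ
        simp only [F, hxZ, hyZ, if_false] at hxy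
        exact hf hxB hyB hxy
  obtain ⟨g, hg⟩ := exists_agree_of_card_eq hG (Z ∪ B)
    (by rw [Finset.card_union_of_disjoint hZB, hB]) F hFinj
  refine ⟨g, fun a ha => ?_, fun x hx => ?_⟩
  · have : (g : Perm α) a = F a := hg a (Finset.mem_union_left _ ha)
    simpa [F, ha] using this
  · have h1 : (g : Perm α) x = F x := hg x (Finset.mem_union_right _ hx)
    have hxZ : x ∉ Z := Finset.disjoint_right.1 hZB hx
    simpa [F, hxZ] using h1

end Cfsg.Agent.Lib.Perm.LWCore
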