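import Cfsg.Agent.Lib.Perm.LWAlt
import Cfsg.Agent.Lib.Perm.SharplyTwo

/-!
# Exclusion of small parameters
-/

set_option autoImplicit false
set_option linter.unusedSectionVars false

open MulAction Equiv
open scoped Pointwise

namespace Cfsg.Agent.Lib.Perm.LWExcl

open Cfsg.Agent.Lib.Perm Cfsg.Agent.Lib.Perm.Basic Cfsg.Agent.Lib.Perm.LWCore
  Cfsg.Agent.Lib.Perm.NSClassify Cfsg.Agent.Lib.Perm.Induced Cfsg.Agent.Lib.Perm.Tits

/-- A transitive group of prime degree with a normal Sylow subgroup: a non-identity element with a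
fixed point of prime order `q` requires `q ∣ p - 1`. -/
theorem prime_contra {M Ω : Type*} [Group M] [Finite M] [MulAction M Ω] [Finite Ω] {p : ℕ}
    [hp : Fact p.Prime] (hΩ : Nat.card Ω = p) (htr : IsPretransitive M Ω)
    (hfaith : ∀ g : M, (∀ x : Ω, g • x = x) → g = 1) {u : ℕ} (hcard : Nat.card M = p * u)
    (hpu : ¬ p ∣ u) (huniq : ∀ d : ℕ, d ∣ u → d % p = 1 → d = 1) {x : M} {a : Ω}
    (hx : x • a = a) (hx1 : x ≠ 1) {q : ℕ} (hq : q.Prime) (hox : orderOf x = q)
    (hqp : ¬ q ∣ p - 1) : False := by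
  classical
  have hp' := hp.out
  have := Fintype.ofFinite M
  have := Fact.mk hq
  obtain ⟨P⟩ : Nonempty (Sylow p M) := inferInstance
  -- order of `P`
  have hupos : 0 < u := by
    rcases Nat.eq_zero_or_pos u with rfl | h
    · exact absurd (dvd_zero p) hpu
    · exact h
  have hPnd : ¬ p ∣ (P : Subgroup M).index := P.not_dvd_index
  have hPm := Subgroup.index_mul_card (P : Subgroup M)
  rw [hcard] at hPm
  obtain ⟨m, hm⟩ := (IsPGroup.iff_card.1 P.isPGroup')
  have hm1 : m = 1 := by
    have hcardP : Nat.card (P : Subgroup M) = p ^ m := hm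
    rw [hcardP] at hPm
    rcases m with _ | _ | m
    · exfalso
      apply hPnd
      rw [pow_zero, mul_one] at hPm
      rw [hPm]
      exact dvd_mul_right _ _
    · rfl
    · exfalso
      apply hpu
      have h1 : p * (p * ((P : Subgroup M).index * p ^ m)) = p * u := by
        rw [← hPm]
        ring
      have h2 := Nat.eq_of_mul_eq_mul_left hp'.pos h1
      rw [← h2]
      exact dvd_mul_right _ _
  have hcardP : Nat.card (P : Subgroup M) = p := by
    have h1 : Nat.card (P : Subgroup M) = p ^ m := hm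
    rw [h1, hm1, pow_one]
  have hidx : (P : Subgroup M).index = u := by
    rw [hcardP, mul_comm] at hPm
    exact Nat.eq_of_mul_eq_mul_left hp'.pos hPm
  -- uniqueness
  have hone : Nat.card (Sylow p M) = 1 := by
    apply huniq
    · rw [← hidx]
      exact P.card_dvd_index
    · have h1 := card_sylow_modEq_one p M
      unfold Nat.ModEq at h1
      rw [h1, Nat.mod_eq_of_lt hp'.one_lt]
  have hsub : Subsingleton (Sylow p M) := (Nat.card_eq_one_iff_unique.1 hone).1
  have hnorm : (P : Subgroup M).Normal := Sylow.normal_of_subsingleton P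
  -- a non-identity element of `P` commuting with `x`
  let P' : Finset M := (Finset.univ.filter (· ∈ (P : Subgroup M))).erase 1
  have hP'card : P'.card = p - 1 := by
    rw [Finset.card_erase_of_mem (by simp [(P : Subgroup M).one_mem])]
    congr 1
    have h1 := hcardP
    rw [Nat.card_eq_fintype_card, Fintype.card_subtype] at h1
    exact h1
  have hP'mem : ∀ τ, τ ∈ P' ↔ τ ≠ 1 ∧ τ ∈ (P : Subgroup M) := by
    intro τ
    simp [P']
  let f : ↥P' → ↥P' := fun τ => ⟨x * τ * x⁻¹, by
    obtain ⟨h1, h2⟩ := (hP'mem τ).1 τ.2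
    refine (hP'mem _).2 ⟨?_, hnorm.conj_mem _ h2 x⟩
    intro h3
    apply h1
    have : (τ : M) = x⁻¹ * (x * τ * x⁻¹) * x := by group
    rw [this, h3]
    group⟩
  let f' : ↥P' → ↥P' := fun τ => ⟨x⁻¹ * τ * x⁻¹⁻¹, by
    obtain ⟨h1, h2⟩ := (hP'mem τ).1 τ.2
    refine (hP'mem _).2 ⟨?_, hnorm.conj_mem _ h2 x⁻¹⟩
    intro h3
    apply h1
    have : (τ : M) = x * (x⁻¹ * τ * x⁻¹⁻¹) * x⁻¹ := by group
    rw [this, h3]
    group⟩
  let π : Perm ↥P' := ⟨f, f', fun τ => by
    apply Subtype.ext
    change x⁻¹ * (x * τ * x⁻¹) * x⁻¹⁻¹ = τ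
    group, fun τ => by
    apply Subtype.ext
    change x * (x⁻¹ * τ * x⁻¹⁻¹) * x⁻¹ = τ
    group⟩
  have hπ : ∀ (n : ℕ) (τ : ↥P'), (((π ^ n) τ : ↥P') : M) = x ^ n * τ * (x ^ n)⁻¹ := by
    intro n
    induction n with
    | zero => intro τ; simp
    | succ n ih =>
      intro τ
      rw [pow_succ', Perm.mul_apply]
      change x * (((π ^ n) τ : ↥P') : M) * x⁻¹ = _
      rw [ih, pow_succ']
      group
  have hπq : π ^ q ^ 1 = 1 := by
    ext τ
    rw [pow_one, hπ q τ]
    have : x ^ q = 1 := by rw [← hox]; exact pow_orderOf_eq_one x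
    rw [this]
    simp
  have hmod := Perm.card_compl_support_modEq hπq
  rw [Fintype.card_coe, hP'card] at hmod
  obtain ⟨τ, hτ⟩ : π.supportᶜ.Nonempty := by
    rw [Finset.nonempty_iff_ne_empty]
    intro hempty
    rw [hempty, Finset.card_empty] at hmod
    exact hqp ((Nat.modEq_zero_iff_dvd).1 hmod.symm)
  have hτfix : x * τ * x⁻¹ = τ := by
    have h1 : π τ = τ := by simpa [Perm.mem_support] using hτ
    exact congrArg Subtype.val h1
  have hτcomm : x * τ = τ * x := by
    rw [mul_inv_eq_iff_eq_mul] at hτfix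
    exact hτfix
  obtain ⟨hτ1, hτP⟩ := (hP'mem τ).1 τ.2
  -- `τ` generates `P`
  have hτord : orderOf (⟨τ, hτP⟩ : (P : Subgroup M)) = p := by
    have h1 : orderOf (⟨τ, hτP⟩ : (P : Subgroup M)) ∣ Nat.card (P : Subgroup M) :=
      orderOf_dvd_natCard _
    rw [hcardP] at h1
    rcases (Nat.dvd_prime hp').1 h1 with h2 | h2
    · exfalso
      rw [orderOf_eq_one_iff] at h2
      exact hτ1 (congrArg Subtype.val h2)
    · exact h2
  have hτord' : orderOf (τ : M) = p := by
    rw [← Subgroup.orderOf_mk (τ : M) hτP]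
    exact hτord
  -- the orbit of `a` under `τ`
  have hmove : (τ : M) • a ≠ a := by
    intro hfix
    -- then `p` divides the order of the stabiliser
    have hfix' : (τ : M) ∈ stabilizer M a := hfix
    have h2 : orderOf (⟨τ, hfix'⟩ : stabilizer M a) ∣ Nat.card (stabilizer M a) := orderOf_dvd_natCard _
    rw [Subgroup.orderOf_mk, hτord'] at h2
    have h3 := Subgroup.index_mul_card (stabilizer M a)
    rw [index_stabilizer_of_transitive, hΩ, hcard] at h3
    have h4 := Nat.eq_of_mul_eq_mul_left hp'.pos h3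
    rw [h4] at h2
    exact hpu h2
  let Z := Subgroup.zpowers (τ : M)
  have cZ : Nat.card Z = p := by rw [Nat.card_zpowers, hτord']
  have hi : (stabilizer Z a).index ∣ p := by
    have := Subgroup.index_dvd_card (stabilizer Z a)
    rwa [cZ] at this
  have hoall : orbit Z a = Set.univ := by
    rcases (Nat.dvd_prime hp').1 hi with h1 | h1
    · exfalso
      rw [Subgroup.index_eq_one] at h1
      have h2 : (⟨τ, Subgroup.mem_zpowers _⟩ : Z) ∈ stabilizer Z a := by
        rw [h1]
        exact Subgroup.mem_top _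
      exact hmove h2
    · rw [index_stabilizer] at h1
      apply Set.eq_of_subset_of_ncard_le (Set.subset_univ _)
      rw [Set.ncard_univ, hΩ, h1]
  apply hx1
  apply hfaith
  intro y
  have hy : y ∈ orbit Z a := by rw [hoall]; exact Set.mem_univ y
  obtain ⟨⟨w, n, hn⟩, rfl⟩ := hy
  have hc : Commute x w := by
    rw [← hn]
    exact Commute.zpow_right hτcomm n
  change x • w • a = w • a
  rw [← mul_smul, hc.eq, mul_smul, hx]

variable {α : Type*} [Fintype α] [DecidableEq α] {G : Subgroup (Perm α)} {t : ℕ}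

/-- The stabiliser of `Z` is `2`-transitive. -/
theorem tr2_of {Z : Finset α} (hG : IsMultiplyPretransitive G α (Z.card + 2)) {a b a' b' : OZ G Z}
    (hab : a ≠ b) (hab' : a' ≠ b') : ∃ g : MZ G Z, g • a = a' ∧ g • b = b' := by
  have v : a.1 ≠ b.1 := fun h => hab (Subtype.ext h)
  have w : a'.1 ≠ b'.1 := fun h => hab' (Subtype.ext h)
  let B : Finset α := {a.1, b.1}
  let f : α → α := fun x => if x = a.1 then a'.1 else b'.1
  have fa : f a.1 = a'.1 := by simp [f]
  have fb : f b.1 = b'.1 := by simp [f, v.symm]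
  have hf : Set.InjOn f B := by
    intro x hx y hy hxy
    simp only [B, Finset.coe_insert, Finset.coe_singleton, Set.mem_insert_iff,
      Set.mem_singleton_iff] at hx hy
    rcases hx with rfl | rfl <;> rcases hy with rfl | rfl <;>
      first
        | rfl
        | (exfalso; simp only [fa, fb] at hxy;
           first
            | exact w hxy | exact w hxy.symm)
  have hZB : Disjoint Z B := by
    rw [Finset.disjoint_right]
    intro x hx
    simp only [B, Finset.mem_insert, Finset.mem_singleton] at hx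
    rcases hx with rfl | rfl
    · exact fun h => a.2 (by exact_mod_cast h)
    · exact fun h => b.2 (by exact_mod_cast h)
  have hfZ : ∀ x ∈ B, f x ∉ Z := by
    intro x hx
    simp only [B, Finset.mem_insert, Finset.mem_singleton] at hx
    rcases hx with rfl | rfl
    · rw [fa]; exact fun h => a'.2 (by exact_mod_cast h)
    · rw [fb]; exact fun h => b'.2 (by exact_mod_cast h)
  obtain ⟨g, hg1, hg2⟩ := exists_agree_rel hG B (Finset.card_pair v) hZB f hf hfZ
  refine ⟨⟨g, mem_MZ.2 hg1⟩, Subtype.ext ?_, Subtype.ext ?_⟩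
  · rw [smul_val]; simpa [fa] using hg2 a.1 (by simp [B])
  · rw [smul_val]; simpa [fb] using hg2 b.1 (by simp [B])

theorem trans_le {m : ℕ} (hG : IsMultiplyPretransitive G α t) (hmt : m ≤ t)
    (htn : t ≤ Fintype.card α) : IsMultiplyPretransitive G α m := by
  have := hG
  exact isMultiplyPretransitive_of_le (n := t) hmt (by rwa [Nat.card_eq_fintype_card])

/-- The order of the stabiliser of a smaller set. -/
theorem card_MZ_of {Z s : Finset α} (hG : IsMultiplyPretransitive G α t) (hs : s.card = t)
    (hZ : Z.card + 2 = t) :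
    hOrd G Z = (Fintype.card α - Z.card) * ((Fintype.card α - Z.card - 1) * hOrd G s) := by
  have htn : t ≤ Fintype.card α := by rw [← hs]; exact Finset.card_le_univ s
  have hz := trans_le hG (m := Z.card) (by omega) htn
  have h1 := card_G hz Z rfl
  have h2 := card_G hG s hs
  rw [h1, ← hZ, Nat.descFactorial_succ, Nat.descFactorial_succ] at h2
  have hpos : 0 < (Fintype.card α).descFactorial Z.card :=
    Nat.descFactorial_pos.2 (by omega)
  apply Nat.eq_of_mul_eq_mul_left hpos
  rw [h2]
  have : Fintype.card α - (Z.card + 1) = Fintype.card α - Z.card - 1 := by omega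
  rw [this]
  ring

theorem faithful_MZ {Z : Finset α} (g : MZ G Z) (hg : ∀ x : OZ G Z, g • x = x) : g = 1 := by
  have h1 : ((g : G) : Perm α) = 1 := by
    ext x
    by_cases hx : x ∈ Z
    · exact fix_val g hx
    · have : x ∉ (Z : Set α) := fun h => hx (by exact_mod_cast h)
      exact congrArg Subtype.val (hg ⟨x, this⟩)
  exact Subtype.ext (Subtype.ext h1)

/-- Exclusion by Sylow's theorem in prime degree. -/
theorem excl_sylow {Z s : Finset α} (hG : IsMultiplyPretransitive G α t) (hs : s.card = t)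
    (hZ : Z.card + 2 = t) (hZs : Z ⊆ s) {p : ℕ} (hp : p.Prime) (hn : Fintype.card α - Z.card = p)
    {q : ℕ} (hq : q.Prime) (hqd : hOrd G s = q) (hqp : ¬ q ∣ p - 1) (hpu : ¬ p ∣ (p - 1) * q)
    (huniq : ∀ d : ℕ, d ∣ (p - 1) * q → d % p = 1 → d = 1) : False := by
  classical
  have := Fact.mk hp
  have := Fact.mk hq
  have hΩ : Nat.card (OZ G Z) = p := by rw [card_OZ, hn]
  have hG2 : IsMultiplyPretransitive G α (Z.card + 2) := by rwa [hZ]
  have hne : Nontrivial (OZ G Z) := by
    rw [← Finite.one_lt_card_iff_nontrivial, hΩ]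
    exact hp.one_lt
  have htr : IsPretransitive (MZ G Z) (OZ G Z) := by
    refine ⟨fun a c => ?_⟩
    obtain ⟨b, hb⟩ := exists_ne a
    obtain ⟨d, hd⟩ := exists_ne c
    obtain ⟨g, h1, -⟩ := tr2_of hG2 hb.symm hd.symm
    exact ⟨g, h1⟩
  have hcard : Nat.card (MZ G Z) = p * ((p - 1) * q) := by
    have := card_MZ_of (Z := Z) hG hs hZ
    rw [hqd, hn] at this
    exact this
  -- an element of order `q`
  obtain ⟨x, hx⟩ := exists_prime_orderOf_dvd_card' (G := fixingSubgroup G (s : Set α)) q
    (by rw [show Nat.card (fixingSubgroup G (s : Set α)) = hOrd G s from rfl, hqd])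
  obtain ⟨a, ha, haZ⟩ : ∃ a ∈ s, a ∉ Z := by
    by_contra hcon
    push Not at hcon
    have := Finset.card_le_card (show s ⊆ Z from hcon)
    omega
  have hxZ : (x : G) ∈ fixingSubgroup G (Z : Set α) := by
    rw [mem_MZ]
    intro z hz
    exact mem_MZ.1 x.2 z (hZs hz)
  have hxa : ((x : G) : Perm α) a = a := mem_MZ.1 x.2 a ha
  let a' : OZ G Z := ⟨a, fun h => haZ (by exact_mod_cast h)⟩
  have hord : orderOf (⟨(x : G), hxZ⟩ : MZ G Z) = q := by
    rw [Subgroup.orderOf_mk, Subgroup.orderOf_coe, hx]
  refine prime_contra hΩ htr faithful_MZ hcard hpu huniq (x := ⟨(x : G), hxZ⟩) (a := a')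
    (Subtype.ext hxa) ?_ hq hord hqp
  intro h
  rw [h, orderOf_one] at hord
  exact hq.one_lt.ne hord

/-- There is no sharply `2`-transitive action of degree six. -/
theorem excl_sharp6 {Z : Finset α} (hG : IsMultiplyPretransitive G α t)
    (hZ : Z.card + 2 = t) (hn : Fintype.card α - Z.card = 6)
    (hh : ∀ s' : Finset α, s'.card = t → hOrd G s' = 1) : False := by
  classical
  have hΩ : Nat.card (OZ G Z) = 6 := by rw [card_OZ, hn]
  have hG2 : IsMultiplyPretransitive G α (Z.card + 2) := by rwa [hZ]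
  have hne : Nontrivial (OZ G Z) := by
    rw [← Finite.one_lt_card_iff_nontrivial, hΩ]
    omega
  have := Fintype.ofFinite (OZ G Z)
  have S : SharplyTwo.Sharp2 (MZ G Z) (OZ G Z) := by
    refine ⟨fun a b c d hab hcd => tr2_of hG2 hab hcd, ?_⟩
    intro x a b hab ha hb
    have hmem : ((x : G)) ∈ fixingSubgroup G ((insert a.1 (insert b.1 Z) : Finset α) : Set α) := by
      rw [mem_MZ]
      intro z hz
      simp only [Finset.mem_insert] at hz
      rcases hz with rfl | rfl | hz
      · exact congrArg Subtype.val ha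
      · exact congrArg Subtype.val hb
      · exact fix_val x hz
    have hc : (insert a.1 (insert b.1 Z) : Finset α).card = t := by
      rw [Finset.card_insert_of_notMem, Finset.card_insert_of_notMem]
      · omega
      · exact fun h => b.2 (by exact_mod_cast h)
      · simp only [Finset.mem_insert, not_or]
        exact ⟨fun h => hab (Subtype.ext h), fun h => a.2 (by exact_mod_cast h)⟩
    have h1 := hh _ hc
    rw [show hOrd G (insert a.1 (insert b.1 Z)) = Nat.card _ from rfl, Nat.card_eq_one_iff_unique] at h1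
    have h2 : (⟨(x : G), hmem⟩ : fixingSubgroup G ((insert a.1 (insert b.1 Z) : Finset α) : Set α)) = 1 :=
      h1.1.elim _ _
    have h3 : (x : G) = 1 := congrArg Subtype.val h2
    exact Subtype.ext h3
  obtain ⟨p, j, hp, hj, hcard, -⟩ := S.structure
  rw [← Nat.card_eq_fintype_card, hΩ] at hcard
  have hp2 := hp.two_le
  have hj2 : j ≤ 2 := by
    by_contra hcon
    have h1 : 2 ^ 3 ≤ p ^ j := by
      calc 2 ^ 3 ≤ p ^ 3 := Nat.pow_le_pow_left hp2 3
        _ ≤ p ^ j := Nat.pow_le_pow_right (by omega) (by omega)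
    omega
  interval_cases j
  · rw [pow_one] at hcard
    rw [← hcard] at hp
    exact absurd hp (by decide)
  · have hple : p ≤ 2 := by
      by_contra hcon
      have : 3 ^ 2 ≤ p ^ 2 := Nat.pow_le_pow_left (by omega) 2
      omega
    have : p = 2 := by omega
    subst this
    omega

/-- The even bound in general. -/
theorem even_bound_G (ht : 2 ≤ t) (hG : IsMultiplyPretransitive G α t) (hR : Rigid G t)
    (s : Finset α) (hs : s.card = t) (he : Even (hOrd G s)) :
    Fintype.card α - t ≤ 2 * hOrd G s := by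
  obtain ⟨u, rfl⟩ : ∃ u, t = u + 2 := ⟨t - 2, by omega⟩
  obtain ⟨c, s₁, hc, rfl, h₁⟩ := Finset.card_eq_succ.1 (show s.card = (u + 1) + 1 from hs)
  obtain ⟨d, Z, hd, rfl, hZ⟩ := Finset.card_eq_succ.1 h₁
  simp only [Finset.mem_insert, not_or] at hc
  have h1 := even_of (Z := Z) (G := G) (by rw [hZ]; exact hG) (by rw [hZ]; exact hR)
    ⟨c, fun h => hc.2 (by exact_mod_cast h)⟩ ⟨d, fun h => hd (by exact_mod_cast h)⟩
    (fun h => hc.1 (congrArg Subtype.val h)) (s := insert c (insert d Z))
    (by intro x; simp only [Finset.mem_insert]; tauto) he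
  rw [hZ] at h1
  exact h1

/-- Without odd action, the stabiliser of a `t`-set has odd order. -/
theorem odd_of_noOdd (ht : 1 ≤ t)
    (hO : ∀ E : Finset α, E.card = t + 1 → ∀ σ ∈ indGrp G E, Perm.sign σ = 1)
    (s : Finset α) (hs : s.card = t) : Odd (hOrd G s) := by
  classical
  rw [← Nat.not_even_iff_odd]
  intro he
  have := Fact.mk Nat.prime_two
  obtain ⟨z, hz⟩ := exists_prime_orderOf_dvd_card' (G := fixingSubgroup G (s : Set α)) 2 he.two_dvd
  set π : Perm α := ((z : G) : Perm α) with hπ
  have hz1 : z ≠ 1 := by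
    intro h
    rw [h, orderOf_one] at hz
    omega
  have hπ1 : π ≠ 1 := fun h => hz1 (Subtype.ext (Subtype.ext h))
  have hπ2 : ∀ x, π (π x) = x := by
    intro x
    have h2 : z ^ 2 = 1 := by rw [← hz]; exact pow_orderOf_eq_one z
    have h3 : π ^ 2 = 1 := by
      have := congrArg (fun w : fixingSubgroup G (s : Set α) => ((w : G) : Perm α)) h2
      simpa using this
    have h4 := DFunLike.congr_fun h3 x
    simpa [sq] using h4
  have hπs : ∀ a ∈ s, π a = a := fun a ha => mem_MZ.1 z.2 a ha
  obtain ⟨x, hx⟩ : ∃ x, π x ≠ x := by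
    by_contra hcon
    push Not at hcon
    exact hπ1 (Equiv.ext hcon)
  have hxs : x ∉ s := fun h => hx (hπs x h)
  have hys : π x ∉ s := fun h => hx (by
    have := hπs _ h
    rw [hπ2] at this
    exact this.symm)
  obtain ⟨e, he⟩ : s.Nonempty := Finset.card_pos.1 (by omega)
  set E : Finset α := insert x (insert (π x) (s.erase e)) with hE
  have hEcard : E.card = t + 1 := by
    rw [hE, Finset.card_insert_of_notMem, Finset.card_insert_of_notMem, Finset.card_erase_of_mem he, hs]
    · omega
    · exact fun h => hys (Finset.mem_of_mem_erase h)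
    · simp only [Finset.mem_insert, not_or]
      exact ⟨fun h => hx h.symm, fun h => hxs (Finset.mem_of_mem_erase h)⟩
  let X : ↥E := ⟨x, by simp [hE]⟩
  let Y : ↥E := ⟨π x, by simp [hE]⟩
  have hXY : X ≠ Y := fun h => hx (congrArg (fun u : ↥E => (u : α)) h).symm
  have hσ : Equiv.swap X Y ∈ indGrp G E := by
    refine ⟨π, (z : G).2, fun w => ?_⟩
    by_cases h1 : w = X
    · rw [h1, Equiv.swap_apply_left]
    · by_cases h2 : w = Y
      · rw [h2, Equiv.swap_apply_right]
        exact hπ2 x
      · rw [Equiv.swap_apply_of_ne_of_ne h1 h2]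
        have hw := w.2
        simp only [hE, Finset.mem_insert] at hw
        rcases hw with hw | hw | hw
        · exact absurd (Subtype.ext hw) h1
        · exact absurd (Subtype.ext hw) h2
        · exact hπs _ (Finset.mem_of_mem_erase hw)
  have := hO E hEcard _ hσ
  rw [Perm.sign_swap hXY] at this
  exact absurd this (by decide)

/-- Subgroups of index two of a symmetric group. -/
theorem index_two {X : Type*} [Fintype X] [DecidableEq X] {L : Subgroup (Perm X)}
    (hL : L.index = 2) : alternatingGroup X ≤ L ∧ ∀ σ ∈ L, Perm.sign σ = 1 := by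
  have hle : alternatingGroup X ≤ L := Perm.alternatingGroup_le_of_index_le_two (by omega)
  refine ⟨hle, ?_⟩
  have hnt : Nontrivial X := by
    by_contra hcon
    rw [not_nontrivial_iff_subsingleton] at hcon
    have : Subsingleton (Perm X) := inferInstance
    have h1 : L = ⊤ := Subsingleton.elim _ _
    rw [h1, Subgroup.index_top] at hL
    omega
  have h2 := alternatingGroup.index_eq_two (α := X)
  have hc1 := Subgroup.index_mul_card L
  have hc2 := Subgroup.index_mul_card (alternatingGroup X)
  rw [hL] at hc1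
  rw [h2] at hc2
  have hc3 : Nat.card L ≤ Nat.card (alternatingGroup X) := by omega
  have hEq := Subgroup.eq_of_le_of_card_ge hle hc3
  intro σ hσ
  rw [← hEq] at hσ
  exact Perm.mem_alternatingGroup.1 hσ

/-- The case of degree `t + 2`. -/
theorem final_alt (hn : t + 2 = Fintype.card α) (hG : IsMultiplyPretransitive G α t)
    (hnt : ¬ IsMultiplyPretransitive G α (t + 1)) : G = alternatingGroup α := by
  have hG' : IsMultiplyPretransitive G α (Nat.card α - 2) := by
    rw [Nat.card_eq_fintype_card, ← hn]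
    simpa using hG
  have hle := _root_.IsMultiplyPretransitive.alternatingGroup_le α G hG'
  have hne : G ≠ ⊤ := by
    rintro rfl
    apply hnt
    apply of_exists_agree
    intro s hs f hf
    obtain ⟨g, hg⟩ := exists_agree_of_card_eq (Perm.isMultiplyPretransitive α (t + 1)) s hs f hf
    exact ⟨⟨g, Subgroup.mem_top g⟩, hg⟩
  have hnt' : Nontrivial α := by
    rw [← Finite.one_lt_card_iff_nontrivial, Nat.card_eq_fintype_card]
    omega
  have hdvd := Subgroup.index_dvd_of_le hle
  rw [alternatingGroup.index_eq_two] at hdvd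
  rcases (Nat.dvd_prime Nat.prime_two).1 hdvd with h1 | h1
  · exact absurd (Subgroup.index_eq_one.1 h1) hne
  · have hc1 := Subgroup.index_mul_card G
    have hc2 := Subgroup.index_mul_card (alternatingGroup α)
    rw [h1] at hc1
    rw [alternatingGroup.index_eq_two] at hc2
    have hc3 : Nat.card G ≤ Nat.card (alternatingGroup α) := by omega
    exact (Subgroup.eq_of_le_of_card_ge hle hc3).symm

end Cfsg.Agent.Lib.Perm.LWExcl
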