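import Mathlib.GroupTheory.Sylow
import Mathlib.GroupTheory.GroupAction.Quotient
import Mathlib.GroupTheory.Perm.Cycle.Type
import Mathlib.GroupTheory.SpecificGroups.Alternating
import Mathlib.GroupTheory.Index
import Mathlib.GroupTheory.IndexNormal

/-!
# Group-theoretic lemmas for the Livingstone–Wagner theorem
-/

set_option autoImplicit false

open MulAction Equiv

namespace Cfsg.Agent.Lib.Perm.LWGroup

/-- An element of odd order has sign one. -/
theorem sign_eq_one_of_odd {X : Type*} [Fintype X] [DecidableEq X] {W : Type*} [Group W]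
    (ρ : W →* Perm X) (h : W) (hh : Odd (orderOf h)) : Perm.sign (ρ h) = 1 := by
  have h1 : Perm.sign (ρ h) ^ orderOf h = 1 := by
    rw [← map_pow, ← map_pow, pow_orderOf_eq_one, map_one, map_one]
  rcases Int.units_eq_one_or (Perm.sign (ρ h)) with h2 | h2
  · exact h2
  · rw [h2, hh.neg_one_pow] at h1
    exact absurd h1 (by decide)

/-- In a group with central involution `z` and with `8` not dividing the order, an involution
outside `⟨z⟩` is not a product of two elements of odd order. -/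
theorem no_odd_factor {W : Type*} [Group W] [Finite W] (z : W) (hzc : ∀ x : W, z * x = x * z)
    (hz : z * z = 1) (hz1 : z ≠ 1) (h8 : ¬ 8 ∣ Nat.card W) {s h c : W} (hs : s * s = 1) (hs1 : s ≠ 1)
    (hsz : s ≠ z) (heq : s = h * c) (hh : Odd (orderOf h)) (hc : Odd (orderOf c)) : False := by
  classical
  let Z : Subgroup W := Subgroup.zpowers z
  have memZ : ∀ x, x ∈ Z ↔ x = 1 ∨ x = z := by
    intro x
    constructor
    · rintro ⟨n, rfl⟩
      have hzinv : z⁻¹ = z := inv_eq_of_mul_eq_one_left hz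
      rcases Int.even_or_odd' n with ⟨k, rfl | rfl⟩
      · left
        simp only [zpow_mul, zpow_two, hz, one_zpow]
      · right
        simp only [zpow_add, zpow_mul, zpow_two, hz, one_zpow, one_mul, zpow_one]
    · rintro (hx | hx)
      · rw [hx]; exact Z.one_mem
      · rw [hx]; exact Subgroup.mem_zpowers z
  have hoz : orderOf z = 2 := orderOf_eq_prime (by rw [sq, hz]) hz1
  have cZ : Nat.card Z = 2 := by
    rw [Nat.card_zpowers, hoz]
  have := Fintype.ofFinite (W ⧸ Z)
  let ρ : W →* Perm (W ⧸ Z) := toPermHom W (W ⧸ Z)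
  have hcard : 2 * Nat.card (W ⧸ Z) = Nat.card W := by
    have := Subgroup.card_eq_card_quotient_mul_card_subgroup Z
    rw [cZ] at this
    rw [this, mul_comm]
  -- `s` acts without fixed points
  have hfpf : ∀ q : W ⧸ Z, ρ s q ≠ q := by
    intro q
    induction q using QuotientGroup.induction_on with
    | H g =>
      intro hq
      have h1 : (QuotientGroup.mk (s * g) : W ⧸ Z) = QuotientGroup.mk g := hq
      rw [QuotientGroup.eq] at h1
      have h2 := (memZ _).1 h1
      rcases h2 with h2 | h2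
      · apply hs1
        have : g⁻¹ * s⁻¹ * (s * g) = 1 := by group
        have h3 : (s * g)⁻¹ * g = 1 := h2
        have h4 : s * g = g := by
          rw [inv_mul_eq_one] at h3
          exact h3
        exact mul_eq_right.1 h4
      · apply hsz
        have h3 : (s * g)⁻¹ * g = z := h2
        have hsinv : s⁻¹ = s := inv_eq_of_mul_eq_one_left hs
        have h4 : g⁻¹ * s * g = z := by
          rw [mul_inv_rev, hsinv] at h3
          exact h3
        calc s = g * (g⁻¹ * s * g) * g⁻¹ := by group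
          _ = g * z * g⁻¹ := by rw [h4]
          _ = z * (g * g⁻¹) := by rw [← hzc g]; group
          _ = z := by group
  have hsq : (ρ s) ^ 2 = 1 := by
    rw [← map_pow, sq, hs, map_one]
  have hsupp : (ρ s).support = Finset.univ := by
    ext q
    simp [Perm.mem_support, hfpf q]
  have hsign := Perm.sign_of_pow_two_eq_one hsq
  have hfix : Fintype.card ↑(Function.fixedPoints ⇑(ρ s)) = 0 := by
    rw [Fintype.card_eq_zero_iff]
    exact ⟨fun x => hfpf x.1 x.2⟩
  rw [hfix, Nat.sub_zero] at hsign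
  set Q := Fintype.card (W ⧸ Z) with hQ
  have hQn : Nat.card (W ⧸ Z) = Q := Nat.card_eq_fintype_card
  rw [hQn] at hcard
  -- parity of `Q`
  have hQeven : Q % 2 = 0 := by
    have := Fact.mk Nat.prime_two
    have hmod := Perm.card_compl_support_modEq (p := 2) (n := 1) (σ := ρ s) (by rwa [pow_one])
    rw [hsupp, Finset.compl_univ, Finset.card_empty] at hmod
    have h2 := hmod.symm
    unfold Nat.ModEq at h2
    simpa using h2
  obtain ⟨r, hr⟩ : ∃ r, Q = 2 * r := ⟨Q / 2, by omega⟩
  have hrodd : Odd r := by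
    rw [← Nat.not_even_iff_odd]
    rintro ⟨u, hu⟩
    apply h8
    rw [← hcard, hr, hu]
    exact ⟨u, by ring⟩
  have hdiv : Q / 2 = r := by omega
  rw [hdiv, hrodd.neg_one_pow] at hsign
  have h1 : Perm.sign (ρ s) = 1 := by
    rw [heq, map_mul, map_mul, sign_eq_one_of_odd ρ h hh, sign_eq_one_of_odd ρ c hc, one_mul]
  rw [h1] at hsign
  exact absurd hsign (by decide)

/-- An involutory automorphism of an elementary abelian group. -/
theorem card_sq_bound {H : Type*} [Group H] [Finite H] (S : Subgroup H) (τ : H)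
    (hτS : ∀ x ∈ S, τ * x * τ⁻¹ ∈ S) (hτ : τ * τ = 1) (hS : ∀ x ∈ S, x * x = 1)
    (hC : Nat.card ((Subgroup.centralizer {τ}).subgroupOf S) ≤ 2) : Nat.card S ≤ 4 := by
  have hcomm : ∀ x ∈ S, ∀ y ∈ S, x * y = y * x := by
    intro x hx y hy
    have h1 := hS _ (S.mul_mem hx hy)
    have h2 := hS x hx
    have h3 := hS y hy
    calc x * y = x * (x * y * (x * y)) * y := by rw [h1]; group
      _ = (x * x) * (y * x) * (y * y) := by group
      _ = y * x := by rw [h2, h3]; group
  let f : S →* S := MonoidHom.mk' (fun x => ⟨x * (τ * x * τ⁻¹), S.mul_mem x.2 (hτS x x.2)⟩) (by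
    intro x y
    apply Subtype.ext
    change (x : H) * y * (τ * (x * y) * τ⁻¹) = (x * (τ * x * τ⁻¹)) * (y * (τ * y * τ⁻¹))
    have h1 := hcomm _ y.2 _ (hτS x x.2)
    calc (x : H) * y * (τ * (x * y) * τ⁻¹) = x * (y * (τ * x * τ⁻¹)) * (τ * y * τ⁻¹) := by group
      _ = x * ((τ * x * τ⁻¹) * y) * (τ * y * τ⁻¹) := by rw [h1]
      _ = _ := by group)
  let A : Subgroup S := (Subgroup.centralizer {τ}).subgroupOf S
  have hinv : τ⁻¹ = τ := inv_eq_of_mul_eq_one_left hτ
  have memA : ∀ x : S, τ * x = x * τ → x ∈ A := by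
    intro x hx
    rw [Subgroup.mem_subgroupOf, Subgroup.mem_centralizer_iff]
    intro u hu
    rw [Set.mem_singleton_iff] at hu
    subst hu
    exact hx
  have hker : f.ker ≤ A := by
    intro x hx
    have h1 : (x : H) * (τ * x * τ⁻¹) = 1 := congrArg Subtype.val (MonoidHom.mem_ker.1 hx)
    have h2 := hS x x.2
    apply memA
    have h3 : τ * x * τ⁻¹ = x := by
      calc τ * x * τ⁻¹ = ((x : H) * x) * (τ * x * τ⁻¹) := by rw [h2]; group
        _ = x * ((x : H) * (τ * x * τ⁻¹)) := by group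
        _ = x := by rw [h1]; group
    rw [mul_inv_eq_iff_eq_mul] at h3
    exact h3
  have hrange : f.range ≤ A := by
    rintro _ ⟨x, rfl⟩
    apply memA
    change τ * ((x : H) * (τ * x * τ⁻¹)) = ((x : H) * (τ * x * τ⁻¹)) * τ
    have h1 := hcomm _ x.2 _ (hτS x x.2)
    calc τ * ((x : H) * (τ * x * τ⁻¹)) = (τ * x * τ⁻¹) * (τ * (τ * x * τ⁻¹) * τ⁻¹) * τ := by group
      _ = (τ * x * τ⁻¹) * x * τ := by
        congr 2
        rw [hinv]
        calc τ * (τ * x * τ) * τ = (τ * τ) * x * (τ * τ) := by group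
          _ = x := by rw [hτ]; group
      _ = _ := by rw [h1]
  have h1 := Subgroup.index_mul_card f.ker
  rw [Subgroup.index_ker] at h1
  have h2 : Nat.card f.range ≤ Nat.card A := Subgroup.card_le_of_le hrange
  have h3 : Nat.card f.ker ≤ Nat.card A := Subgroup.card_le_of_le hker
  have h4 : Nat.card A ≤ 2 := hC
  rw [← h1]
  calc Nat.card f.range * Nat.card f.ker ≤ 2 * 2 := Nat.mul_le_mul (h2.trans h4) (h3.trans h4)
    _ = 4 := rfl

/-- The bound on the order of a subgroup of index two. -/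
theorem not_eight_dvd {H : Type*} [Group H] [Finite H] (Y : Subgroup H) (hY : Y.index = 2) (τ : H)
    (hτ : τ * τ = 1)
    (h2 : ∀ g ∈ Y, (∃ m : ℕ, g ^ 2 ^ m = 1) → g * g = 1)
    (hC : ∀ S : Subgroup H, S ≤ Y → IsPGroup 2 S →
      Nat.card ((Subgroup.centralizer {τ}).subgroupOf S) ≤ 2) : ¬ 8 ∣ Nat.card Y := by
  intro h8
  have := Fact.mk Nat.prime_two
  have hNormal := Subgroup.normal_of_index_eq_two hY
  have hcardH : Nat.card H = 2 * Nat.card Y := by
    rw [← Subgroup.index_mul_card Y, hY]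
  have h16 : 2 ^ 4 ∣ Nat.card H := by
    rw [hcardH]
    obtain ⟨u, hu⟩ := h8
    exact ⟨u, by rw [hu]; ring⟩
  have hPτ : IsPGroup 2 (Subgroup.zpowers τ) := by
    rintro ⟨x, n, rfl⟩
    refine ⟨1, Subtype.ext ?_⟩
    change (τ ^ n) ^ 2 ^ 1 = 1
    rw [pow_one, ← zpow_natCast, ← zpow_mul, mul_comm, zpow_mul]
    simp [sq, hτ]
  obtain ⟨T, hT⟩ := hPτ.exists_le_sylow
  have hτT : τ ∈ (T : Subgroup H) := hT (Subgroup.mem_zpowers τ)
  have hT16 : 2 ^ 4 ∣ Nat.card T := T.pow_dvd_card_of_pow_dvd_card h16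
  let S : Subgroup H := (T : Subgroup H) ⊓ Y
  have hSp : IsPGroup 2 S := T.isPGroup'.to_le inf_le_left
  have hbound := card_sq_bound S τ (by
      intro x hx
      refine Subgroup.mem_inf.2 ⟨?_, hNormal.conj_mem x (Subgroup.mem_inf.1 hx).2 τ⟩
      exact (T : Subgroup H).mul_mem ((T : Subgroup H).mul_mem hτT (Subgroup.mem_inf.1 hx).1)
        ((T : Subgroup H).inv_mem hτT))
    hτ (by
      intro x hx
      refine h2 x (Subgroup.mem_inf.1 hx).2 ?_
      obtain ⟨m, hm⟩ := hSp ⟨x, hx⟩
      exact ⟨m, congrArg Subtype.val hm⟩)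
    (hC S inf_le_right hSp)
  -- index
  have hrel : Y.relIndex (T : Subgroup H) ∣ Y.index := Subgroup.relIndex_dvd_index_of_normal _ _
  rw [hY] at hrel
  have hmul : Nat.card (Y.subgroupOf (T : Subgroup H)) = Nat.card S :=
    Nat.card_congr ⟨fun x => ⟨x.1, x.1.2, x.2⟩, fun x => ⟨⟨x.1, x.2.1⟩, x.2.2⟩, fun _ => rfl,
      fun _ => rfl⟩
  have hi := Subgroup.index_mul_card (Y.subgroupOf (T : Subgroup H))
  rw [hmul] at hi
  have hle : Y.relIndex (T : Subgroup H) ≤ 2 := Nat.le_of_dvd (by norm_num) hrel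
  have h16' : 16 ≤ Nat.card T := Nat.le_of_dvd Nat.card_pos hT16
  have h3 : (Y.subgroupOf (T : Subgroup H)).index * Nat.card S ≤ 2 * 4 :=
    Nat.mul_le_mul hle hbound
  omega

end Cfsg.Agent.Lib.Perm.LWGroup
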