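import Cfsg.Agent.Lib.Perm.NSClassify
import Cfsg.Agent.Lib.Perm.LWGroup

/-!
# Four-transitive groups acting evenly on five-sets

`M` acts `4`-transitively and faithfully on `Ω`, no element acts oddly on a five-subset, and `M`
is homogeneous on five-sets in a strong form. Then `|Ω| ≤ 6`.
-/

set_option autoImplicit false
set_option linter.unusedSectionVars false

open MulAction Equiv

namespace Cfsg.Agent.Lib.Perm.LWFive

open Cfsg.Agent.Lib.Perm Cfsg.Agent.Lib.Perm.Tits Cfsg.Agent.Lib.Perm.LWGroup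

variable {M Ω : Type*} [Group M] [MulAction M Ω]

/-- The hypotheses of the theorem. -/
structure LW5 (M Ω : Type*) [Group M] [MulAction M Ω] : Prop extends Tr4 M Ω where
  faithful : ∀ g : M, (∀ x : Ω, g • x = x) → g = 1
  noTrans : ∀ (g : M) {p q r₁ r₂ r₃ : Ω}, p ≠ q → r₁ ≠ r₂ → r₁ ≠ r₃ → r₂ ≠ r₃ →
    g • p = q → g • q = p → g • r₁ = r₁ → g • r₂ = r₂ → g • r₃ = r₃ → False
  no4 : ∀ (g : M) {p₁ p₂ p₃ p₄ r : Ω}, p₁ ≠ p₃ →
    g • p₁ = p₂ → g • p₂ = p₃ → g • p₃ = p₄ → g • p₄ = p₁ → g • r = r → False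
  homog : ∀ {a b c d y y' : Ω}, Dist4 a b c d → y ≠ a → y ≠ b → y ≠ c → y ≠ d →
    y' ≠ a → y' ≠ b → y' ≠ c → y' ≠ d →
    ∃ g : M, g • c = c ∧ g • d = d ∧ ((g • a = a ∧ g • b = b) ∨ (g • a = b ∧ g • b = a)) ∧ g • y = y'

namespace LW5

variable (hL : LW5 M Ω) [Finite M] [Fintype Ω] [DecidableEq Ω]
include hL

theorem kodd {a b c d : Ω} (h : Dist4 a b c d) : Odd (Nat.card (K4 M a b c d)) := by
  rw [← Nat.not_even_iff_odd]
  intro he
  have := Fact.mk Nat.prime_two
  obtain ⟨x, hx⟩ := exists_prime_orderOf_dvd_card' (G := K4 M a b c d) 2 he.two_dvd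
  have hx1 : (x : M) ≠ 1 := by
    intro h1
    have : x = 1 := Subtype.ext h1
    rw [this, orderOf_one] at hx
    omega
  have hxx : (x : M) * x = 1 := by
    have h2 : x ^ 2 = 1 := by rw [← hx]; exact pow_orderOf_eq_one x
    have := congrArg Subtype.val h2
    simpa [sq] using this
  obtain ⟨ha, hb, hc, hd⟩ := mem_K4.1 x.2
  have : ∃ y : Ω, (x : M) • y ≠ y := by
    by_contra hcon
    push Not at hcon
    exact hx1 (hL.faithful _ hcon)
  obtain ⟨y, hy⟩ := this
  exact hL.noTrans (x : M) (p := y) (q := (x : M) • y) (r₁ := a) (r₂ := b) (r₃ := c) hy.symm h.1 h.2.1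
    h.2.2.2.1 rfl (by rw [← mul_smul, hxx, one_smul]) ha hb hc

theorem fix_exact {a b c d : Ω} (h : Dist4 a b c d) {t : M} (h1 : t • a = a) (h2 : t • b = b)
    (h3 : t • c = d) (h4 : t • d = c) {x : Ω} (hx : t • x = x) : x = a ∨ x = b := by
  by_contra hcon
  push Not at hcon
  exact hL.noTrans t h.2.2.2.2.2 h.1 hcon.1.symm hcon.2.symm h3 h4 h1 h2 hx

/-- Elements of `K4` of `2`-power order are trivial. -/
theorem two_element_K4 {a b c d : Ω} (h : Dist4 a b c d) {g : M} (hg : g ∈ K4 M a b c d) {m : ℕ}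
    (hm : g ^ 2 ^ m = 1) : g = 1 := by
  have h1 : orderOf (⟨g, hg⟩ : K4 M a b c d) ∣ Nat.card (K4 M a b c d) := orderOf_dvd_natCard _
  rw [Subgroup.orderOf_mk] at h1
  have h2 : orderOf g ∣ 2 ^ m := orderOf_dvd_of_pow_eq_one hm
  have hodd := hL.kodd h
  have hco : Nat.Coprime (orderOf g) (2 ^ m) :=
    Nat.Coprime.coprime_dvd_left h1 (Nat.Coprime.pow_right m (Nat.coprime_two_right.2 hodd))
  have h3 : orderOf g = 1 := Nat.Coprime.eq_one_of_dvd hco h2
  exact orderOf_eq_one_iff.1 h3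

/-- Elements of `2`-power order fixing two points act freely off them. -/
theorem two_element_fixed (hΩ : Even (Fintype.card Ω)) {c d x : Ω} (hcd : c ≠ d) (hxc : x ≠ c)
    (hxd : x ≠ d) {g : M} (hc : g • c = c) (hd : g • d = d) {m : ℕ} (hm : g ^ 2 ^ m = 1)
    (hx : g • x = x) : g = 1 := by
  have := Fact.mk Nat.prime_two
  let ρ := toPermHom M Ω
  have hσ : (ρ g) ^ 2 ^ m = 1 := by rw [← map_pow, hm, map_one]
  have hmod := Perm.card_compl_support_modEq hσ
  have hmem : ∀ z, g • z = z → z ∈ (ρ g).supportᶜ := by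
    intro z hz
    simp [Perm.mem_support, ρ, hz]
  have hcm := hmem c hc
  have hdm := hmem d hd
  have hxm := hmem x hx
  have h3 : 3 ≤ (ρ g).supportᶜ.card := by
    have hsub : ({c, d, x} : Finset Ω) ⊆ (ρ g).supportᶜ := by
      intro z hz
      simp only [Finset.mem_insert, Finset.mem_singleton] at hz
      rcases hz with rfl | rfl | rfl
      · exact hcm
      · exact hdm
      · exact hxm
    have h1 := Finset.card_le_card hsub
    rw [Finset.card_insert_of_notMem (by simp [hcd, hxc.symm]),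
      Finset.card_insert_of_notMem (by simp [hxd.symm]), Finset.card_singleton] at h1
    exact h1
  have h4 : 4 ≤ (ρ g).supportᶜ.card := by
    have h5 : (ρ g).supportᶜ.card % 2 = 0 := by
      have h6 : Fintype.card Ω % 2 = 0 := Nat.even_iff.1 hΩ
      unfold Nat.ModEq at hmod
      omega
    omega
  obtain ⟨x', hx'⟩ : ∃ x', x' ∈ (ρ g).supportᶜ ∧ x' ≠ c ∧ x' ≠ d ∧ x' ≠ x := by
    by_contra hcon
    push Not at hcon
    have hsub : (ρ g).supportᶜ ⊆ {c, d, x} := by
      intro z hz
      simp only [Finset.mem_insert, Finset.mem_singleton]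
      by_contra hz'
      push Not at hz'
      exact hz'.2.2 (hcon z hz hz'.1 hz'.2.1)
    have h1 := Finset.card_le_card hsub
    have h2 : ({c, d, x} : Finset Ω).card ≤ 3 := Finset.card_le_three
    omega
  obtain ⟨hx'm, hx'c, hx'd, hx'x⟩ := hx'
  have hfix' : g • x' = x' := by
    simpa [Perm.mem_support, ρ] using hx'm
  have hD : Dist4 c d x x' := ⟨hcd, hxc.symm, hx'c.symm, hxd.symm, hx'd.symm, hx'x.symm⟩
  exact hL.two_element_K4 hD (mem_K4.2 ⟨hc, hd, hx, hfix'⟩) hm

/-- Elements of `2`-power order fixing two points are involutions. -/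
theorem square_one (hΩ : Even (Fintype.card Ω)) {c d x : Ω} (hcd : c ≠ d) (hxc : x ≠ c)
    (hxd : x ≠ d) {g : M} (hc : g • c = c) (hd : g • d = d) {m : ℕ} (hm : g ^ 2 ^ m = 1) :
    g * g = 1 := by
  by_contra hne
  obtain ⟨j, hj, hord⟩ := (Nat.dvd_prime_pow Nat.prime_two).1 (orderOf_dvd_of_pow_eq_one hm)
  have hj2 : 2 ≤ j := by
    by_contra hlt
    apply hne
    have : orderOf g ∣ 2 := by
      rw [hord]
      exact pow_dvd_pow 2 (by omega : j ≤ 1)
    have h2 := orderOf_dvd_iff_pow_eq_one.1 this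
    rwa [sq] at h2
  obtain ⟨i, rfl⟩ : ∃ i, j = i + 2 := ⟨j - 2, by omega⟩
  set f := g ^ 2 ^ i with hf
  have hf4 : f ^ 4 = 1 := by
    rw [hf, ← pow_mul]
    have : 2 ^ i * 4 = orderOf g := by rw [hord]; ring
    rw [this]
    exact pow_orderOf_eq_one g
  have hf2 : f ^ 2 ≠ 1 := by
    intro h
    rw [hf, ← pow_mul] at h
    have h1 := orderOf_dvd_of_pow_eq_one h
    rw [hord] at h1
    have h2 := Nat.le_of_dvd (by positivity) h1
    have : 2 ^ i * 4 ≤ 2 ^ i * 2 := by
      calc 2 ^ i * 4 = 2 ^ (i + 2) := by ring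
        _ ≤ _ := h2
    have hp : 0 < 2 ^ i := by positivity
    omega
  have hfc : f • c = c := mem_stabilizer_iff.1 ((stabilizer M c).pow_mem (mem_stabilizer_iff.2 hc) _)
  have hfd : f • d = d := mem_stabilizer_iff.1 ((stabilizer M d).pow_mem (mem_stabilizer_iff.2 hd) _)
  have hff : ∀ z : Ω, f ^ 2 • z = f • f • z := fun z => by rw [sq, mul_smul]
  have hne2 : f • f • x ≠ x := by
    intro h
    apply hf2
    refine hL.two_element_fixed hΩ hcd hxc hxd (g := f ^ 2) (m := 1) ?_ ?_ ?_ ?_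
    · rw [hff, hfc, hfc]
    · rw [hff, hfd, hfd]
    · rw [← pow_mul]
      exact hf4
    · rw [hff, h]
  refine hL.no4 f (p₁ := x) (p₃ := f • f • x) hne2.symm rfl rfl rfl ?_ hfc
  have : f ^ 4 • x = f • f • f • f • x := by
    simp only [pow_succ, pow_zero, one_mul, mul_smul]
  rw [← this, hf4, one_smul]

/-- Parity: two orbits of the same size. -/
theorem orbit_count {a b c d y₀ : Ω} (hD : Dist4 a b c d) (hy₀a : y₀ ≠ a) (hy₀b : y₀ ≠ b)
    (hy₀c : y₀ ≠ c) (hy₀d : y₀ ≠ d) {s : M} (hsa : s • a = b) (hsb : s • b = a) (hsc : s • c = c)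
    (hsd : s • d = d) (hss : s * s = 1) :
    ∃ l : ℕ, Odd l ∧ Fintype.card Ω = 4 + 2 * l := by
  classical
  obtain ⟨hab, hac, had, hbc, hbd, hcd⟩ := id hD
  have hsinv : ∀ z : Ω, s • s • z = z := fun z => by rw [← mul_smul, hss, one_smul]
  let K := K4 M a b c d
  let O : Finset Ω := Finset.univ.filter (fun x => x ∈ orbit K y₀)
  have hOmem : ∀ x, x ∈ O ↔ ∃ k : M, k ∈ K ∧ k • y₀ = x := by
    intro x
    simp only [O, Finset.mem_filter, Finset.mem_univ, true_and]
    constructor
    · rintro ⟨k, rfl⟩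
      exact ⟨k, k.2, rfl⟩
    · rintro ⟨k, hk, rfl⟩
      exact ⟨⟨k, hk⟩, rfl⟩
  have hKne : ∀ (k : M) (z : Ω), k ∈ K → z ≠ a → z ≠ b → z ≠ c → z ≠ d →
      k • z ≠ a ∧ k • z ≠ b ∧ k • z ≠ c ∧ k • z ≠ d := by
    intro k z hk h1 h2 h3 h4
    obtain ⟨ka, kb, kc, kd⟩ := mem_K4.1 hk
    refine ⟨fun h => h1 ?_, fun h => h2 ?_, fun h => h3 ?_, fun h => h4 ?_⟩
    · rw [← ka] at h; exact MulAction.injective k h
    · rw [← kb] at h; exact MulAction.injective k h
    · rw [← kc] at h; exact MulAction.injective k h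
    · rw [← kd] at h; exact MulAction.injective k h
  let S : Finset Ω := O.image (fun z => s • z)
  have hScard : S.card = O.card := Finset.card_image_of_injective _ (MulAction.injective s)
  have hdisj : Disjoint O S := by
    rw [Finset.disjoint_left]
    intro x hx hx'
    obtain ⟨x', hx'O, hxx'⟩ := Finset.mem_image.1 hx'
    obtain ⟨k, hk, hkx⟩ := (hOmem x).1 hx
    obtain ⟨k', hk', hkx'⟩ := (hOmem x').1 hx'O
    obtain ⟨ka, kb, kc, kd⟩ := mem_K4.1 hk
    obtain ⟨ka', kb', kc', kd'⟩ := mem_K4.1 hk'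
    have hinv : ∀ {u : M} {z : Ω}, u • z = z → u⁻¹ • z = z := fun {u z} h => by
      rw [inv_smul_eq_iff, h]
    refine hL.noTrans (s * k' * k⁻¹) (p := a) (q := b) (r₁ := c) (r₂ := d) (r₃ := x) hab hcd
      ?_ ?_ ?_ ?_ ?_ ?_ ?_
    · intro h
      have := hKne k y₀ hk hy₀a hy₀b hy₀c hy₀d
      rw [hkx] at this
      exact this.2.2.1 h.symm
    · intro h
      have := hKne k y₀ hk hy₀a hy₀b hy₀c hy₀d
      rw [hkx] at this
      exact this.2.2.2 h.symm
    · simp only [mul_smul]
      rw [hinv ka, ka', hsa]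
    · simp only [mul_smul]
      rw [hinv kb, kb', hsb]
    · simp only [mul_smul]
      rw [hinv kc, kc', hsc]
    · simp only [mul_smul]
      rw [hinv kd, kd', hsd]
    · simp only [mul_smul]
      rw [← hkx, inv_smul_smul, hkx', hxx', hkx]
  have hunion : O ∪ S = Finset.univ.filter (fun x => x ≠ a ∧ x ≠ b ∧ x ≠ c ∧ x ≠ d) := by
    ext x
    simp only [Finset.mem_union, Finset.mem_filter, Finset.mem_univ, true_and]
    constructor
    · rintro (hx | hx)
      · obtain ⟨k, hk, rfl⟩ := (hOmem x).1 hx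
        exact hKne k y₀ hk hy₀a hy₀b hy₀c hy₀d
      · obtain ⟨x', hx'O, rfl⟩ := Finset.mem_image.1 hx
        obtain ⟨k, hk, rfl⟩ := (hOmem x').1 hx'O
        obtain ⟨h1, h2, h3, h4⟩ := hKne k y₀ hk hy₀a hy₀b hy₀c hy₀d
        refine ⟨fun h => h2 ?_, fun h => h1 ?_, fun h => h3 ?_, fun h => h4 ?_⟩
        · have := congrArg (fun z => s • z) h
          simpa only [hsinv, hsa] using this
        · have := congrArg (fun z => s • z) h
          simpa only [hsinv, hsb] using this
        · have := congrArg (fun z => s • z) h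
          simpa only [hsinv, hsc] using this
        · have := congrArg (fun z => s • z) h
          simpa only [hsinv, hsd] using this
    · rintro ⟨h1, h2, h3, h4⟩
      obtain ⟨g, gc, gd, hg, gy⟩ := hL.homog hD hy₀a hy₀b hy₀c hy₀d h1 h2 h3 h4
      rcases hg with ⟨ga, gb⟩ | ⟨ga, gb⟩
      · exact Or.inl ((hOmem x).2 ⟨g, mem_K4.2 ⟨ga, gb, gc, gd⟩, gy⟩)
      · right
        refine Finset.mem_image.2 ⟨s • x, (hOmem _).2 ⟨s * g, mem_K4.2 ⟨?_, ?_, ?_, ?_⟩, ?_⟩, hsinv x⟩
        · rw [mul_smul, ga, hsb]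
        · rw [mul_smul, gb, hsa]
        · rw [mul_smul, gc, hsc]
        · rw [mul_smul, gd, hsd]
        · rw [mul_smul, gy]
  have hcard4 : (Finset.univ.filter (fun x => x ≠ a ∧ x ≠ b ∧ x ≠ c ∧ x ≠ d)).card + 4 =
      Fintype.card Ω := by
    have hc : (Finset.univ.filter (fun x : Ω => x ≠ a ∧ x ≠ b ∧ x ≠ c ∧ x ≠ d)) =
        (({a, b, c, d} : Finset Ω))ᶜ := by
      ext x
      simp
    rw [hc, Finset.card_compl]
    have h4 : ({a, b, c, d} : Finset Ω).card = 4 := by
      rw [Finset.card_insert_of_notMem (by simp [hab, hac, had]),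
        Finset.card_insert_of_notMem (by simp [hbc, hbd]), Finset.card_insert_of_notMem (by simp [hcd]),
        Finset.card_singleton]
    have h5 : ({a, b, c, d} : Finset Ω).card ≤ Fintype.card Ω := Finset.card_le_univ _
    omega
  refine ⟨O.card, ?_, ?_⟩
  · -- `|O|` divides `|K|`
    have h1 : O.card = (orbit K y₀).ncard := by
      rw [← Set.ncard_coe_finset]
      congr 1
      ext x
      simp [O]
    have h2 : O.card ∣ Nat.card K := by
      rw [h1, ← index_stabilizer]
      exact Subgroup.index_dvd_card _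
    exact Odd.of_dvd_nat (hL.kodd hD) h2
  · rw [← hcard4, ← hunion, Finset.card_union_of_disjoint hdisj, hScard]
    omega

/-- `4` divides the order of a two-point stabiliser. -/
theorem four_dvd {a b c d : Ω} (hD : Dist4 a b c d) {l : ℕ} (hl : Odd l)
    (hcard : Fintype.card Ω = 4 + 2 * l) :
    4 ∣ Nat.card (stabilizer M c ⊓ stabilizer M d : Subgroup M) := by
  classical
  obtain ⟨hab, hac, had, hbc, hbd, hcd⟩ := id hD
  set Y : Subgroup M := stabilizer M c ⊓ stabilizer M d with hY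
  have hmemY : ∀ g, g ∈ Y ↔ g • c = c ∧ g • d = d := by
    intro g
    simp [hY, Subgroup.mem_inf, mem_stabilizer_iff]
  have horb : orbit Y a = (((({c, d} : Finset Ω))ᶜ : Finset Ω) : Set Ω) := by
    ext x
    simp only [Finset.coe_compl, Finset.coe_insert, Finset.coe_singleton, Set.mem_compl_iff,
      Set.mem_insert_iff, Set.mem_singleton_iff, not_or]
    constructor
    · rintro ⟨g, rfl⟩
      obtain ⟨gc, gd⟩ := (hmemY _).1 g.2
      refine ⟨fun h => hac ?_, fun h => had ?_⟩
      · have h1 : (g : M) • a = c := h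
        rw [← gc] at h1
        exact MulAction.injective _ h1
      · have h1 : (g : M) • a = d := h
        rw [← gd] at h1
        exact MulAction.injective _ h1
    · rintro ⟨hxc, hxd⟩
      obtain ⟨x', hx'⟩ : ∃ x', x' ∉ ({x, c, d} : Finset Ω) := by
        by_contra hcon
        push Not at hcon
        have : ({x, c, d} : Finset Ω) = Finset.univ := Finset.eq_univ_of_forall hcon
        have h3 : ({x, c, d} : Finset Ω).card ≤ 3 := Finset.card_le_three
        rw [this, Finset.card_univ, hcard] at h3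
        obtain ⟨u, rfl⟩ := hl
        omega
      simp only [Finset.mem_insert, Finset.mem_singleton, not_or] at hx'
      obtain ⟨g, h1, h2, h3, h4⟩ := hL.toTr4.trans (a' := x) (b' := x') (c' := c) (d' := d) hD
        ⟨Ne.symm hx'.1, hxc, hxd, hx'.2.1, hx'.2.2, hcd⟩
      exact ⟨⟨g, (hmemY g).2 ⟨h3, h4⟩⟩, h1⟩
  have hn : (orbit Y a).ncard = 2 * l + 2 := by
    rw [horb, Set.ncard_coe_finset, Finset.card_compl, Finset.card_pair hcd, hcard]
    omega
  have hdvd : (2 * l + 2) ∣ Nat.card Y := by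
    rw [← hn, ← index_stabilizer]
    exact Subgroup.index_dvd_card _
  obtain ⟨u, rfl⟩ := hl
  exact (show 4 ∣ 2 * (2 * u + 1) + 2 from ⟨u + 1, by ring⟩).trans hdvd

end LW5

/-- The setwise stabiliser of a pair. -/
def X2 (M : Type*) {Ω : Type*} [Group M] [MulAction M Ω] (c d : Ω) : Subgroup M where
  carrier := {g | (g • c = c ∧ g • d = d) ∨ (g • c = d ∧ g • d = c)}
  mul_mem' := by
    rintro g h (⟨h1, h2⟩ | ⟨h1, h2⟩) (⟨h3, h4⟩ | ⟨h3, h4⟩)
    · exact Or.inl ⟨by rw [mul_smul, h3, h1], by rw [mul_smul, h4, h2]⟩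
    · exact Or.inr ⟨by rw [mul_smul, h3, h2], by rw [mul_smul, h4, h1]⟩
    · exact Or.inr ⟨by rw [mul_smul, h3, h1], by rw [mul_smul, h4, h2]⟩
    · exact Or.inl ⟨by rw [mul_smul, h3, h2], by rw [mul_smul, h4, h1]⟩
  one_mem' := Or.inl ⟨one_smul _ _, one_smul _ _⟩
  inv_mem' := by
    rintro g (⟨h1, h2⟩ | ⟨h1, h2⟩)
    · exact Or.inl ⟨by rw [inv_smul_eq_iff, h1], by rw [inv_smul_eq_iff, h2]⟩
    · exact Or.inr ⟨by rw [inv_smul_eq_iff, h2], by rw [inv_smul_eq_iff, h1]⟩

namespace LW5

variable (hL : LW5 M Ω) [Finite M] [Fintype Ω] [DecidableEq Ω]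
include hL

/-- The `2`-part of a two-point stabiliser is at most `4`. -/
theorem not_eight {a b c d : Ω} (hD : Dist4 a b c d) (hΩ : Even (Fintype.card Ω)) {t : M}
    (hta : t • a = a) (htb : t • b = b) (htc : t • c = d) (htd : t • d = c) (ht : t * t = 1) :
    ¬ 8 ∣ Nat.card (stabilizer M c ⊓ stabilizer M d : Subgroup M) := by
  classical
  obtain ⟨hab, hac, had, hbc, hbd, hcd⟩ := id hD
  set Y : Subgroup M := stabilizer M c ⊓ stabilizer M d with hY
  have hmemY : ∀ g, g ∈ Y ↔ g • c = c ∧ g • d = d := by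
    intro g
    simp [hY, Subgroup.mem_inf, mem_stabilizer_iff]
  have hYX : Y ≤ X2 M c d := fun g hg => Or.inl ((hmemY g).1 hg)
  let τ : X2 M c d := ⟨t, Or.inr ⟨htc, htd⟩⟩
  have hcard : Nat.card (Y.subgroupOf (X2 M c d)) = Nat.card Y :=
    Nat.card_congr (Subgroup.subgroupOfEquivOfLe hYX).toEquiv
  rw [← hcard]
  have hmemY' : ∀ g : X2 M c d, g ∈ Y.subgroupOf (X2 M c d) ↔ (g : M) • c = c ∧ (g : M) • d = d := by
    intro g
    rw [Subgroup.mem_subgroupOf, hmemY]
  refine not_eight_dvd (Y.subgroupOf (X2 M c d)) ?_ τ (Subtype.ext ht) ?_ ?_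
  · rw [Subgroup.index_eq_two_iff]
    refine ⟨τ, fun g => ?_⟩
    rw [hmemY', hmemY']
    have hval : ∀ z : Ω, ((g * τ : X2 M c d) : M) • z = (g : M) • t • z := fun z => by
      change ((g : M) * t) • z = _
      rw [mul_smul]
    rw [hval, hval]
    rcases g.2 with ⟨h1, h2⟩ | ⟨h1, h2⟩
    · refine Or.inr ⟨⟨h1, h2⟩, fun h => ?_⟩
      have h3 := h.1
      rw [htc, h2] at h3
      exact hcd h3.symm
    · refine Or.inl ⟨⟨?_, ?_⟩, fun h => ?_⟩
      · rw [htc, h2]
      · rw [htd, h1]
      · exact hcd (h.1.symm.trans h1)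
  · intro g hg hm
    obtain ⟨m, hm⟩ := hm
    obtain ⟨h1, h2⟩ := (hmemY' g).1 hg
    apply Subtype.ext
    have hm' : (g : M) ^ 2 ^ m = 1 := by
      have := congrArg Subtype.val hm
      simpa using this
    exact hL.square_one hΩ hcd hac had h1 h2 hm'
  · intro S hS hSp
    let C := (Subgroup.centralizer {τ}).subgroupOf S
    have hval : ∀ x : C, (τ : M) * ((x : S) : X2 M c d) = ((x : S) : X2 M c d) * (τ : M) := by
      intro x
      have h1 := Subgroup.mem_centralizer_iff.1 (Subgroup.mem_subgroupOf.1 x.2) τ (by simp)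
      exact congrArg Subtype.val h1
    have hmem : ∀ x : C, (((x : S) : X2 M c d) : M) • a = a ∨ (((x : S) : X2 M c d) : M) • a = b := by
      intro x
      apply hL.fix_exact hD hta htb htc htd
      have := congrArg (fun u : M => u • a) (hval x)
      simp only [mul_smul] at this
      change t • (((x : S) : X2 M c d) : M) • a = (((x : S) : X2 M c d) : M) • t • a at this
      rw [this, hta]
    have hinj : Function.Injective (fun x : C => (⟨(((x : S) : X2 M c d) : M) • a, by
        simp only [Finset.mem_insert, Finset.mem_singleton]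
        exact hmem x⟩ : ↥({a, b} : Finset Ω))) := by
      intro x y hxy
      have h1 : (((x : S) : X2 M c d) : M) • a = (((y : S) : X2 M c d) : M) • a :=
        congrArg Subtype.val hxy
      let u : S := (x : S)⁻¹ * (y : S)
      have hu : ((u : X2 M c d) : M) • a = a := by
        change ((((x : S) : X2 M c d) : M)⁻¹ * (((y : S) : X2 M c d) : M)) • a = a
        rw [mul_smul, ← h1, inv_smul_smul]
      obtain ⟨m, hm⟩ := hSp u
      have hm' : ((u : X2 M c d) : M) ^ 2 ^ m = 1 := by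
        have := congrArg (fun z : S => ((z : X2 M c d) : M)) hm
        simpa using this
      obtain ⟨h2, h3⟩ := (hmemY' _).1 (hS u.2)
      have h4 := hL.two_element_fixed hΩ hcd hac had h2 h3 hm' hu
      have h5 : u = 1 := Subtype.ext (Subtype.ext h4)
      have h6 : (x : S) = (y : S) := by
        have : (x : S)⁻¹ * (y : S) = 1 := h5
        rw [inv_mul_eq_one] at this
        exact this
      exact Subtype.ext h6
    have h1 := Nat.card_le_card_of_injective _ hinj
    rw [Nat.card_eq_fintype_card (α := ↥({a, b} : Finset Ω)), Fintype.card_coe,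
      Finset.card_pair hab] at h1
    exact h1

/-- A second involution. -/
theorem exists_second {c d x : Ω} (hcd : c ≠ d) (hxc : x ≠ c) (hxd : x ≠ d)
    (hΩ : Even (Fintype.card Ω))
    (h4 : 4 ∣ Nat.card (stabilizer M c ⊓ stabilizer M d : Subgroup M)) {s : M} (hsc : s • c = c)
    (hsd : s • d = d) (hs : s * s = 1) :
    ∃ r : M, r • c = c ∧ r • d = d ∧ r * r = 1 ∧ r * s = s * r ∧ r ≠ 1 ∧ r ≠ s := by
  classical
  have := Fact.mk Nat.prime_two
  set Y : Subgroup M := stabilizer M c ⊓ stabilizer M d with hY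
  have hmemY : ∀ g, g ∈ Y ↔ g • c = c ∧ g • d = d := by
    intro g
    simp [hY, Subgroup.mem_inf, mem_stabilizer_iff]
  let ŝ : Y := ⟨s, (hmemY s).2 ⟨hsc, hsd⟩⟩
  have hPτ : IsPGroup 2 (Subgroup.zpowers ŝ) := by
    rintro ⟨u, n, rfl⟩
    refine ⟨1, Subtype.ext ?_⟩
    change (ŝ ^ n) ^ 2 ^ 1 = 1
    rw [pow_one, ← zpow_natCast, ← zpow_mul, mul_comm, zpow_mul]
    have : ŝ * ŝ = 1 := Subtype.ext hs
    simp [sq, this]
  obtain ⟨T, hT⟩ := hPτ.exists_le_sylow
  have hsT : ŝ ∈ (T : Subgroup Y) := hT (Subgroup.mem_zpowers ŝ)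
  have hT4 : 2 ^ 2 ∣ Nat.card T := T.pow_dvd_card_of_pow_dvd_card (by simpa using h4)
  have hsqT : ∀ u : Y, u ∈ (T : Subgroup Y) → (u : M) * u = 1 := by
    intro u hu
    obtain ⟨m, hm⟩ := T.isPGroup' ⟨u, hu⟩
    have hm' : (u : M) ^ 2 ^ m = 1 := by
      have := congrArg (fun z : ↥(T : Subgroup Y) => ((z : Y) : M)) hm
      simpa using this
    obtain ⟨h2, h3⟩ := (hmemY _).1 u.2
    exact hL.square_one hΩ hcd hxc hxd h2 h3 hm'
  obtain ⟨r, hrT, hr1, hrs⟩ : ∃ r : Y, r ∈ (T : Subgroup Y) ∧ r ≠ 1 ∧ r ≠ ŝ := by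
    by_contra hcon
    push Not at hcon
    let f : ↥(T : Subgroup Y) → ↥({1, ŝ} : Finset Y) := fun u => ⟨u, by
      simp only [Finset.mem_insert, Finset.mem_singleton]
      by_cases h : (u : Y) = 1
      · exact Or.inl h
      · exact Or.inr (hcon u u.2 h)⟩
    have hf : Function.Injective f := fun u v h =>
      Subtype.ext (congrArg (fun q : ↥({1, ŝ} : Finset Y) => (q : Y)) h)
    have h1 := Nat.card_le_card_of_injective f hf
    rw [Nat.card_eq_fintype_card (α := ↥({1, ŝ} : Finset Y)), Fintype.card_coe] at h1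
    have h2 : ({1, ŝ} : Finset Y).card ≤ 2 := Finset.card_le_two
    have h3 : 4 ≤ Nat.card T := Nat.le_of_dvd Nat.card_pos hT4
    have h4 : Nat.card T = Nat.card ↥(T : Subgroup Y) := rfl
    omega
  obtain ⟨h2, h3⟩ := (hmemY _).1 r.2
  have hrr := hsqT r hrT
  refine ⟨r, h2, h3, hrr, ?_, fun h => hr1 (Subtype.ext h), fun h => hrs (Subtype.ext h)⟩
  have hmul := hsqT (r * ŝ) ((T : Subgroup Y).mul_mem hrT hsT)
  have hmul' : ((r : M) * s) * ((r : M) * s) = 1 := hmul
  calc (r : M) * s = r * (((r : M) * s) * ((r : M) * s)) * s := by rw [hmul']; group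
    _ = ((r : M) * r) * (s * r) * (s * s) := by group
    _ = s * r := by rw [hrr, hs]; group

/-- **Main theorem.** -/
theorem card_le : Fintype.card Ω ≤ 6 := by
  classical
  by_contra hcard7
  push Not at hcard7
  -- the points
  obtain ⟨a, b, c, d, -, -, -, -, hD⟩ := NSClassify.exists_four (Finset.univ : Finset Ω)
    (by rw [Finset.card_univ]; omega)
  obtain ⟨hab, hac, had, hbc, hbd, hcd⟩ := id hD
  obtain ⟨y₀, hy₀⟩ : ∃ y, y ∉ ({a, b, c, d} : Finset Ω) := by
    by_contra hcon
    push Not at hcon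
    have h1 : ({a, b, c, d} : Finset Ω) = Finset.univ := Finset.eq_univ_of_forall hcon
    have h3 : ({a, b, c, d} : Finset Ω).card ≤ 4 := Finset.card_le_four
    rw [h1, Finset.card_univ] at h3
    omega
  simp only [Finset.mem_insert, Finset.mem_singleton, not_or] at hy₀
  obtain ⟨hy₀a, hy₀b, hy₀c, hy₀d⟩ := hy₀
  have hD' : Dist4 c d a b := ⟨hcd, hac.symm, hbc.symm, had.symm, hbd.symm, hab⟩
  -- two involutions
  obtain ⟨s, hsc, hsd, hsa, hsb, hss⟩ := hL.toTr4.exists_inv hD' (hL.kodd hD')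
  obtain ⟨t, hta, htb, htc, htd, htt⟩ := hL.toTr4.exists_inv hD (hL.kodd hD)
  have hsinv : ∀ z : Ω, s • s • z = z := fun z => by rw [← mul_smul, hss, one_smul]
  have hsfix : ∀ {x : Ω}, s • x = x → x = c ∨ x = d := fun {x} hx =>
    hL.fix_exact hD' hsc hsd hsa hsb hx
  obtain ⟨l, hl, hcard⟩ := hL.orbit_count hD hy₀a hy₀b hy₀c hy₀d hsa hsb hsc hsd hss
  have hΩ : Even (Fintype.card Ω) := ⟨2 + l, by rw [hcard]; ring⟩
  have h4 := hL.four_dvd hD hl hcard
  have h8 := hL.not_eight hD hΩ hta htb htc htd htt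
  obtain ⟨r, hrc, hrd, hrr, hrs, hr1, hrs'⟩ := hL.exists_second hcd hac had hΩ h4 hsc hsd hss
  have hrinv : ∀ z : Ω, r • r • z = z := fun z => by rw [← mul_smul, hrr, one_smul]
  have hcomm : ∀ z : Ω, r • s • z = s • r • z := fun z => by
    rw [← mul_smul, hrs, mul_smul]
  -- `r` moves `a` off `c, d`
  have hra_c : r • a ≠ c := fun h => hac (by
    have := congrArg (fun z => r • z) h
    simpa only [hrinv, hrc] using this)
  have hra_d : r • a ≠ d := fun h => had (by
    have := congrArg (fun z => r • z) h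
    simpa only [hrinv, hrd] using this)
  -- a third pair
  obtain ⟨y, hy⟩ : ∃ y, y ∉ ({a, b, r • a, r • b, c, d} : Finset Ω) := by
    by_contra hcon
    push Not at hcon
    have h1 : ({a, b, r • a, r • b, c, d} : Finset Ω) = Finset.univ := Finset.eq_univ_of_forall hcon
    have h3 : ({a, b, r • a, r • b, c, d} : Finset Ω).card ≤ 6 := Finset.card_le_six
    rw [h1, Finset.card_univ] at h3
    omega
  simp only [Finset.mem_insert, Finset.mem_singleton, not_or] at hy
  obtain ⟨hya, hyb, hyra, hyrb, hyc, hyd⟩ := hy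
  replace hya : y ≠ a := hya
  replace hyb : y ≠ b := hyb
  replace hyra : y ≠ r • a := hyra
  replace hyrb : y ≠ r • b := hyrb
  replace hyc : y ≠ c := hyc
  replace hyd : y ≠ d := hyd
  set y' := s • y with hy'
  have hsy' : s • y' = y := hsinv y
  have hy'a : y' ≠ a := fun h => hyb (by
    have := congrArg (fun z => s • z) h
    simpa only [hsy', hsa] using this)
  have hy'b : y' ≠ b := fun h => hya (by
    have := congrArg (fun z => s • z) h
    simpa only [hsy', hsb] using this)
  have hy'c : y' ≠ c := fun h => hyc (by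
    have := congrArg (fun z => s • z) h
    simpa only [hsy', hsc] using this)
  have hy'd : y' ≠ d := fun h => hyd (by
    have := congrArg (fun z => s • z) h
    simpa only [hsy', hsd] using this)
  have hsra : s • r • a = r • b := by rw [← hcomm, hsa]
  have hsrb : s • r • b = r • a := by rw [← hcomm, hsb]
  have hy'ra : y' ≠ r • a := fun h => hyrb (by
    have := congrArg (fun z => s • z) h
    simpa only [hsy', hsra] using this)
  have hy'rb : y' ≠ r • b := fun h => hyra (by
    have := congrArg (fun z => s • z) h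
    simpa only [hsy', hsrb] using this)
  have hyy' : y ≠ y' := by
    intro h
    have : s • y = y := h.symm
    rcases hsfix this with h1 | h1
    · exact hyc h1
    · exact hyd h1
  have hD₂ : Dist4 y y' c d := ⟨hyy', hyc, hyd, hy'c, hy'd, hcd⟩
  -- the choice of the involution
  obtain ⟨w, k, hwc, hwd, hww, hws, hw1, hws', hkc, hkd, hky, hky', hka, hwy, hwy', hwmc, hwmd⟩ :
      ∃ w k : M, w • c = c ∧ w • d = d ∧ w * w = 1 ∧ w * s = s * w ∧ w ≠ 1 ∧ w ≠ s ∧
        k • c = c ∧ k • d = d ∧ k • y = y ∧ k • y' = y' ∧ k • a = w • a ∧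
        w • a ≠ y ∧ w • a ≠ y' ∧ w • a ≠ c ∧ w • a ≠ d := by
    obtain ⟨g, gc, gd, hg, ga⟩ := hL.homog hD₂ hya.symm hy'a.symm hac had
      (y' := r • a) hyra.symm hy'ra.symm hra_c hra_d
    rcases hg with ⟨g1, g2⟩ | ⟨g1, g2⟩
    · exact ⟨r, g, hrc, hrd, hrr, hrs, hr1, hrs', gc, gd, g1, g2, ga, hyra.symm, hy'ra.symm,
        hra_c, hra_d⟩
    · refine ⟨s * r, s * g, ?_, ?_, ?_, ?_, ?_, ?_, ?_, ?_, ?_, ?_, ?_, ?_, ?_, ?_, ?_⟩
      · rw [mul_smul, hrc, hsc]
      · rw [mul_smul, hrd, hsd]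
      · calc s * r * (s * r) = s * (r * s) * r := by group
          _ = s * (s * r) * r := by rw [hrs]
          _ = (s * s) * (r * r) := by group
          _ = 1 := by rw [hss, hrr, one_mul]
      · calc s * r * s = s * (r * s) := by group
          _ = s * (s * r) := by rw [hrs]
      · intro h
        apply hrs'
        calc r = s * (s * r) := by rw [← mul_assoc, hss, one_mul]
          _ = s := by rw [h, mul_one]
      · intro h
        apply hr1
        calc r = s⁻¹ * (s * r) := by group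
          _ = 1 := by rw [h]; group
      · rw [mul_smul, gc, hsc]
      · rw [mul_smul, gd, hsd]
      · rw [mul_smul, g1, hsy']
      · rw [mul_smul, g2, ← hy']
      · rw [mul_smul, mul_smul, ga]
      · rw [mul_smul]
        intro h
        apply hy'ra
        have := congrArg (fun z => s • z) h
        simp only [hsinv] at this
        exact this.symm
      · rw [mul_smul]
        intro h
        apply hyra
        have := congrArg (fun z => s • z) h
        simp only [hsinv, hsy'] at this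
        exact this.symm
      · rw [mul_smul]
        intro h
        apply hra_c
        have := congrArg (fun z => s • z) h
        simpa only [hsinv, hsc] using this
      · rw [mul_smul]
        intro h
        apply hra_d
        have := congrArg (fun z => s • z) h
        simpa only [hsinv, hsd] using this
  have hsw : s • w • a ≠ w • a := by
    intro h
    rcases hsfix h with h1 | h1
    · exact hwmc h1
    · exact hwmd h1
  have hD₃ : Dist4 y y' (w • a) (s • w • a) := by
    refine ⟨hyy', hwy.symm, ?_, hwy'.symm, ?_, hsw.symm⟩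
    · intro h
      apply hwy'
      have := congrArg (fun z => s • z) h
      simp only [hsinv] at this
      exact this.symm
    · intro h
      apply hwy
      have := congrArg (fun z => s • z) h
      simp only [hsinv, hsy'] at this
      exact this.symm
  obtain ⟨g, gy, gy', ga, gs⟩ := hL.toTr4.exists_centralizing hss hyy' rfl hsy'
    (y₀ := a) (y := w • a) (by rw [hsa]; exact hab.symm) hya.symm hy'a.symm hsw hwy hwy'
    (hL.kodd hD₃)
  have hgcomm : ∀ z : Ω, g • s • z = s • g • z := fun z => by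
    rw [← mul_smul, gs, mul_smul]
  -- `g` fixes `c, d`
  have hgc' : s • g • c = g • c := by rw [← hgcomm, hsc]
  have hgd' : s • g • d = g • d := by rw [← hgcomm, hsd]
  have hkinv : ∀ {u : Ω}, k • u = u → k⁻¹ • u = u := fun {u} h => by rw [inv_smul_eq_iff, h]
  have hkinv' : k⁻¹ • (w • a) = a := by rw [inv_smul_eq_iff, hka]
  have gcc : g • c = c := by
    rcases hsfix hgc' with h1 | h1
    · exact h1
    · exfalso
      have h2 : g • d = c := by
        rcases hsfix hgd' with h3 | h3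
        · exact h3
        · exact absurd (MulAction.injective g (h1.trans h3.symm)) hcd
      refine hL.noTrans (k⁻¹ * g) (p := c) (q := d) (r₁ := y) (r₂ := y') (r₃ := a) hcd hyy' hya hy'a
        ?_ ?_ ?_ ?_ ?_
      · rw [mul_smul, h1, hkinv hkd]
      · rw [mul_smul, h2, hkinv hkc]
      · rw [mul_smul, gy, hkinv hky]
      · rw [mul_smul, gy', hkinv hky']
      · rw [mul_smul, ga, hkinv']
  have gdd : g • d = d := by
    rcases hsfix hgd' with h1 | h1
    · exact absurd (MulAction.injective g (gcc.trans h1.symm)) hcd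
    · exact h1
  -- the two factors
  have hgK : g ∈ K4 M y y' c d := mem_K4.2 ⟨gy, gy', gcc, gdd⟩
  have hgodd : Odd (orderOf g) := by
    have h1 : orderOf (⟨g, hgK⟩ : K4 M y y' c d) ∣ Nat.card (K4 M y y' c d) := orderOf_dvd_natCard _
    rw [Subgroup.orderOf_mk] at h1
    exact Odd.of_dvd_nat (hL.kodd hD₂) h1
  let e : M := g⁻¹ * w
  have ea : e • a = a := by
    simp only [e]
    rw [mul_smul, inv_smul_eq_iff, ga]
  have ec : e • c = c := by
    simp only [e]
    rw [mul_smul, hwc, inv_smul_eq_iff, gcc]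
  have ed : e • d = d := by
    simp only [e]
    rw [mul_smul, hwd, inv_smul_eq_iff, gdd]
  have hes : e * s = s * e := by
    simp only [e]
    have h1 : g⁻¹ * s = s * g⁻¹ := by
      rw [inv_mul_eq_iff_eq_mul, ← mul_assoc, gs]
      group
    calc g⁻¹ * w * s = g⁻¹ * (w * s) := by group
      _ = g⁻¹ * (s * w) := by rw [hws]
      _ = (g⁻¹ * s) * w := by group
      _ = (s * g⁻¹) * w := by rw [h1]
      _ = s * (g⁻¹ * w) := by group
  have eb : e • b = b := by
    have h1 : e • s • a = s • e • a := by rw [← mul_smul, hes, mul_smul]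
    rw [hsa, ea, hsa] at h1
    exact h1
  have heK : e ∈ K4 M a b c d := mem_K4.2 ⟨ea, eb, ec, ed⟩
  have heodd : Odd (orderOf e) := by
    have h1 : orderOf (⟨e, heK⟩ : K4 M a b c d) ∣ Nat.card (K4 M a b c d) := orderOf_dvd_natCard _
    rw [Subgroup.orderOf_mk] at h1
    exact Odd.of_dvd_nat (hL.kodd hD) h1
  -- the group `W`
  let W : Subgroup M := (stabilizer M c ⊓ stabilizer M d) ⊓ Subgroup.centralizer {s}
  have hmemW : ∀ u, u • c = c → u • d = d → u * s = s * u → u ∈ W := by
    intro u h1 h2 h3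
    refine Subgroup.mem_inf.2 ⟨Subgroup.mem_inf.2 ⟨h1, h2⟩, Subgroup.mem_centralizer_iff.2 ?_⟩
    intro v hv
    rw [Set.mem_singleton_iff] at hv
    subst hv
    exact h3.symm
  have hW8 : ¬ 8 ∣ Nat.card W := fun h =>
    h8 (h.trans (Subgroup.card_dvd_of_le inf_le_left))
  let z : W := ⟨s, hmemW s hsc hsd rfl⟩
  let ĝ : W := ⟨g, hmemW g gcc gdd gs⟩
  let ê : W := ⟨e, hmemW e ec ed hes⟩
  let ŵ : W := ⟨w, hmemW w hwc hwd hws⟩
  have hs1 : s ≠ 1 := by
    rintro rfl
    have : a = b := by simpa using hsa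
    exact hab this
  refine no_odd_factor z ?_ (Subtype.ext hss) (fun h => hs1 (congrArg Subtype.val h)) hW8
    (s := ŵ) (h := ĝ) (c := ê) (Subtype.ext hww) (fun h => hw1 (congrArg Subtype.val h))
    (fun h => hws' (congrArg Subtype.val h)) (Subtype.ext ?_) ?_ ?_
  · intro x
    apply Subtype.ext
    have := Subgroup.mem_centralizer_iff.1 (Subgroup.mem_inf.1 x.2).2 s (by simp)
    exact this
  · change w = g * (g⁻¹ * w)
    group
  · rw [Subgroup.orderOf_mk]; exact hgodd
  · rw [Subgroup.orderOf_mk]; exact heodd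

end LW5

end Cfsg.Agent.Lib.Perm.LWFive
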