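import Cfsg.Agent.Lib.Perm.LWExcl
import Cfsg.Agent.S0744
import Cfsg.Agent.S0710

/-!
# Homogeneous groups which are not transitive enough
-/

set_option autoImplicit false
set_option linter.unusedSectionVars false

open MulAction Equiv
open scoped Pointwise

namespace Cfsg.Agent.Lib.Perm.LWHomog

open Cfsg.Agent.Lib.Perm Cfsg.Agent.Lib.Perm.Basic Cfsg.Agent.Lib.Perm.LWCore
  Cfsg.Agent.Lib.Perm.NSClassify Cfsg.Agent.Lib.Perm.Induced Cfsg.Agent.Lib.Perm.LWExcl

variable {α : Type*} [Fintype α] [DecidableEq α] {G : Subgroup (Perm α)} {t : ℕ}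

theorem hOrd_smul (g : G) (A : Finset α) : hOrd G A = hOrd G (g • A) := by
  apply hOrd_conj g
  ext x
  simp only [Set.mem_image, Finset.mem_coe, Finset.mem_smul_finset]
  constructor
  · rintro ⟨a, ha, rfl⟩
    exact ⟨a, ha, rfl⟩
  · rintro ⟨a, ha, rfl⟩
    exact ⟨a, ha, rfl⟩

theorem hOrd_of_homog {m : ℕ} (hh : IsPretransitive G (Set.powersetCard α m)) {A B : Finset α}
    (hA : A.card = m) (hB : B.card = m) : hOrd G A = hOrd G B := by
  obtain ⟨g, rfl⟩ := Homogeneous.homog_iff.1 hh A B hA hB
  exact hOrd_smul g A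

/-- Step A: the group is near-sharp. -/
theorem rigid_of (hkn : t + 2 ≤ Fintype.card α)
    (hnt : ¬ IsMultiplyPretransitive G α (t + 1))
    (hh1 : IsPretransitive G (Set.powersetCard α (t + 1)))
    (hh : IsPretransitive G (Set.powersetCard α (t + 2))) : Rigid G t := by
  by_contra hcon
  unfold Rigid at hcon
  push Not at hcon
  obtain ⟨s, hs, g, hg, hfix, hg1⟩ := hcon
  have hl : 1 < hOrd G s := by
    have hmem : (⟨g, hg⟩ : G) ∈ fixingSubgroup G (s : Set α) := mem_MZ.2 hfix
    have : Nontrivial (fixingSubgroup G (s : Set α)) :=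
      ⟨⟨⟨⟨g, hg⟩, hmem⟩, 1, fun h => hg1 (congrArg (fun u : fixingSubgroup G (s : Set α) => ((u : G) : Perm α)) h)⟩⟩
    exact Finite.one_lt_card_iff_nontrivial.2 this
  obtain ⟨E, -, hE⟩ := Finset.exists_subset_card_eq (s := (Finset.univ : Finset α)) (n := t + 2)
    (by rwa [Finset.card_univ])
  exact hnt (Cfsg.Agent.S0744.result G (k := t + 2) (by omega) hkn (hOrd G s) (hOrd G E) hl
    (fun s' hs' => hOrd_of_homog hh1 hs' hs) (fun s' hs' => hOrd_of_homog hh hs' hE))

theorem num3 : ∀ i ∈ Finset.range 25, ∀ h ∈ Finset.range 122, 2 ≤ i * h → i ≠ 1 → i ∣ 24 →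
    i * (i * h - 1) ∣ 120 →
    (i, h) ∈ ([(2,1),(2,2),(2,3),(2,8),(3,1),(3,2),(3,3),(3,7),(4,1),(4,4),(6,1),(8,2)] :
      List (ℕ × ℕ)) := by
  decide +kernel

theorem num2 : ∀ i ∈ Finset.range 7, ∀ h ∈ Finset.range 26, 2 ≤ i * h → i ≠ 1 → i ∣ 6 →
    i * (i * h - 1) ∣ 24 →
    (i, h) ∈ ([(2,1),(2,2),(3,1),(3,3)] : List (ℕ × ℕ)) := by
  decide +kernel

theorem num1 : ∀ i ∈ Finset.range 3, ∀ h ∈ Finset.range 8, 2 ≤ i * h → i ≠ 1 → i ∣ 2 →
    i * (i * h - 1) ∣ 6 →
    (i, h) ∈ ([(2,1),(2,2)] : List (ℕ × ℕ)) := by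
  decide +kernel

/-- The order formula for `(t + 2)`-sets. -/
theorem second_formula (hG : IsMultiplyPretransitive G α t) (hR : Rigid G t)
    (hh : IsPretransitive G (Set.powersetCard α (t + 2))) {E : Finset α} (hE : E.card = t + 2)
    {s : Finset α} (hs : s.card = t) :
    ((Fintype.card α - t) - 1) * ((Fintype.card α - t) * Nat.card (indGrp G E)) =
      (t + 2).factorial * hOrd G s := by
  have htn : t + 2 ≤ Fintype.card α := by rw [← hE]; exact Finset.card_le_univ E
  have h1 := orbit_card_mul (G := G) E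
  have hR' : Rigid G (t + 1) := rigid_mono (by omega) hR
  rw [hOrd_eq_one_of_rigid hR' hE, mul_one, orbit_eq_of_homog hh hE, card_G hG s hs] at h1
  have h3 := Nat.descFactorial_eq_factorial_mul_choose (Fintype.card α) (t + 2)
  rw [Nat.descFactorial_succ, Nat.descFactorial_succ] at h3
  have hpos : 0 < (Fintype.card α).descFactorial t := Nat.descFactorial_pos.2 (by omega)
  have hsub : Fintype.card α - (t + 1) = Fintype.card α - t - 1 := by omega
  rw [hsub] at h3
  set N := Fintype.card α - t
  set D := (Fintype.card α).descFactorial t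
  set C := (Fintype.card α).choose (t + 2)
  set F := (t + 2).factorial
  set V := Nat.card (indGrp G E)
  set h := hOrd G s
  apply Nat.eq_of_mul_eq_mul_left hpos
  calc D * ((N - 1) * (N * V)) = ((N - 1) * (N * D)) * V := by ring
    _ = F * (C * V) := by rw [h3]; ring
    _ = F * (D * h) := by rw [h1]
    _ = D * (F * h) := by ring

/-- The case of a small induced index is excluded by `lw_alt`, large `t`. -/
theorem large_case (ht : 4 ≤ t) (hkn : t + 2 ≤ Fintype.card α)
    (hG : IsMultiplyPretransitive G α t) (hnt : ¬ IsMultiplyPretransitive G α (t + 1))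
    (hR : Rigid G t) (hh1 : IsPretransitive G (Set.powersetCard α (t + 1)))
    {Γ s : Finset α} (hΓ : Γ.card = t + 1) (hs : s.card = t) (hi1 : (indGrp G Γ).index ≠ 1) :
    t + 2 = Fintype.card α := by
  have hpos := hOrd_pos (G := G) s
  have hhall : ∀ E : Finset α, E.card = t + 1 →
      (indGrp G E).index = (indGrp G Γ).index := by
    intro E hE
    have h1 := index_mul_eq hG hR hh1 hE hs
    have h2 := index_mul_eq hG hR hh1 hΓ hs
    exact Nat.eq_of_mul_eq_mul_right hpos (h1.trans h2.symm)
  have hi0 : (indGrp G Γ).index ≠ 0 := Subgroup.index_ne_zero_of_finite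
  set i := (indGrp G Γ).index with hi
  have hiN := index_mul_eq hG hR hh1 hΓ hs
  rw [← hi] at hiN
  by_cases hi2 : i = 2
  · -- the alternating case
    have hle := LWAlt.lw_alt ht hG hh1
      (fun E hE => (index_two (by rw [hhall E hE, hi2])).1)
      (fun E hE => (index_two (by rw [hhall E hE, hi2])).2)
    omega
  · exfalso
    have hi3 : 3 ≤ i := by omega
    have hge : t + 1 ≤ i := by
      by_contra hlt
      have hcard : Fintype.card ↥Γ = t + 1 := by rw [Fintype.card_coe, hΓ]
      have hle := alternating_le_of_index_lt (X := ↥Γ) (by rw [hcard]; omega) (indGrp G Γ)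
        (by rw [hcard]; omega)
      have hnt' : Nontrivial ↥Γ := by
        rw [← Finite.one_lt_card_iff_nontrivial, Nat.card_eq_fintype_card, hcard]
        omega
      have hdvd := Subgroup.index_dvd_of_le hle
      rw [alternatingGroup.index_eq_two] at hdvd
      have := Nat.le_of_dvd (by norm_num) hdvd
      omega
    rcases ns_classify ht hG hR s hs with hb | ⟨hh1', hN⟩
    · have : 5 * hOrd G s ≤ i * hOrd G s := Nat.mul_le_mul_right _ (by omega)
      omega
    · rw [hh1', mul_one] at hiN
      rcases hN with hN | hN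
      · omega
      · have hi7 : i = 7 := by omega
        have htle : t ≤ 6 := by omega
        -- `7` divides the order of the symmetric group
        have hdvd : i ∣ (t + 1).factorial := by
          have h2 := Subgroup.index_mul_card (indGrp G Γ)
          rw [card_perm_coe hΓ] at h2
          exact ⟨_, h2.symm⟩
        rw [hi7] at hdvd
        have h7 : 7 ≤ t + 1 := (Nat.Prime.dvd_factorial (by norm_num)).1 hdvd
        have ht6 : t = 6 := by omega
        subst ht6
        have hn : Fintype.card α = 13 := by omega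
        have hc := card_G hG s hs
        rw [hh1', mul_one, hn] at hc
        have htr : IsPretransitive G α := by
          rw [← is_one_pretransitive_iff]
          exact trans_le hG (by norm_num) (by omega)
        exact Cfsg.Agent.S0710.result hn G (by rw [hc]; decide)

/-- **The classification** of groups `t`-transitive, not `(t + 1)`-transitive, `(t + 1)`- and
`(t + 2)`-homogeneous. -/
theorem main (ht1 : 1 ≤ t) (hkn : t + 2 ≤ Fintype.card α) (hG : IsMultiplyPretransitive G α t)
    (hnt : ¬ IsMultiplyPretransitive G α (t + 1))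
    (hh1 : IsPretransitive G (Set.powersetCard α (t + 1)))
    (hh : IsPretransitive G (Set.powersetCard α (t + 2))) :
    (t + 2 = Fintype.card α ∧ G = alternatingGroup α) ∨
      (Fintype.card α = 5 ∧ t + 2 = 4 ∧ Nat.card G = 20) ∨
      (Fintype.card α = 6 ∧ t + 2 = 5 ∧ Nat.card G = 120) ∨
      (Fintype.card α = 9 ∧ t + 2 = 5 ∧ (Nat.card G = 504 ∨ Nat.card G = 1512)) := by
  classical
  have hR := rigid_of hkn hnt hh1 hh
  obtain ⟨E, -, hE⟩ := Finset.exists_subset_card_eq (s := (Finset.univ : Finset α)) (n := t + 2)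
    (by rwa [Finset.card_univ])
  obtain ⟨Γ, hΓE, hΓ⟩ := Finset.exists_subset_card_eq (s := E) (n := t + 1) (by omega)
  obtain ⟨s, hsΓ, hs⟩ := Finset.exists_subset_card_eq (s := Γ) (n := t) (by omega)
  have hleft : t + 2 = Fintype.card α → (t + 2 = Fintype.card α ∧ G = alternatingGroup α) ∨
      (Fintype.card α = 5 ∧ t + 2 = 4 ∧ Nat.card G = 20) ∨
      (Fintype.card α = 6 ∧ t + 2 = 5 ∧ Nat.card G = 120) ∨
      (Fintype.card α = 9 ∧ t + 2 = 5 ∧ (Nat.card G = 504 ∨ Nat.card G = 1512)) :=
    fun hn => Or.inl ⟨hn, final_alt hn hG hnt⟩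
  have hi1 : (indGrp G Γ).index ≠ 1 := by
    intro h
    exact hnt (trans_of_full hh1 hΓ (Subgroup.index_eq_one.1 h))
  by_cases ht4 : 4 ≤ t
  · exact hleft (large_case ht4 hkn hG hnt hR hh1 hΓ hs hi1)
  -- small `t`
  have hpos := hOrd_pos (G := G) s
  have hhall : ∀ F : Finset α, F.card = t + 1 →
      (indGrp G F).index = (indGrp G Γ).index := by
    intro F hF
    have h1 := index_mul_eq hG hR hh1 hF hs
    have h2 := index_mul_eq hG hR hh1 hΓ hs
    exact Nat.eq_of_mul_eq_mul_right hpos (h1.trans h2.symm)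
  have hiN := index_mul_eq hG hR hh1 hΓ hs
  have hdvd1 : (indGrp G Γ).index ∣ (t + 1).factorial := by
    have h2 := Subgroup.index_mul_card (indGrp G Γ)
    rw [card_perm_coe hΓ] at h2
    exact ⟨_, h2.symm⟩
  set i := (indGrp G Γ).index with hi
  set h := hOrd G s with hh0
  have hN2 : 2 ≤ i * h := by omega
  have hdvd2 : i * (i * h - 1) ∣ (t + 2).factorial := by
    have h1 := second_formula hG hR hh hE hs
    rw [← hiN] at h1
    have hV : 0 < Nat.card (indGrp G E) := Nat.card_pos
    refine ⟨Nat.card (indGrp G E), ?_⟩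
    apply Nat.eq_of_mul_eq_mul_right hpos
    rw [← hh0] at h1
    rw [← h1]
    ring
  have hodd : i = 2 → Odd h := by
    intro hi2
    exact odd_of_noOdd ht1 (fun F hF => (index_two (by rw [hhall F hF, hi2])).2) s hs
  have hc := card_G hG s hs
  rw [← hh0] at hc
  have hNn : Fintype.card α = t + i * h := by omega
  have hile : ∀ {m : ℕ}, 0 < m → i ∣ m → i ≤ m := fun hm hd => Nat.le_of_dvd hm hd
  have hi0 : 0 < i := by
    rcases Nat.eq_zero_or_pos i with h0 | h0
    · rw [h0] at hN2
      omega
    · exact h0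
  have hh_le : ∀ {m : ℕ}, 0 < m → i * (i * h - 1) ∣ m → h ≤ m + 1 := by
    intro m hm hd
    have h1 := Nat.le_of_dvd hm hd
    have h2 : i * h - 1 ≤ i * (i * h - 1) := Nat.le_mul_of_pos_left _ hi0
    have h3 : h ≤ i * h := Nat.le_mul_of_pos_left _ hi0
    omega
  have hsplit : t = 1 ∨ t = 2 ∨ t = 3 := by omega
  rcases hsplit with rfl | rfl | rfl
  · -- `t = 1`
    have hd1 : i ∣ 2 := by simpa [Nat.factorial] using hdvd1
    have hd2 : i * (i * h - 1) ∣ 6 := by simpa [Nat.factorial] using hdvd2
    have hb1 : i ∈ Finset.range 3 := Finset.mem_range.2 (by have := hile (by norm_num) hd1; omega)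
    have hb2 : h ∈ Finset.range 8 := Finset.mem_range.2 (by have := hh_le (by norm_num) hd2; omega)
    have hl := num1 i hb1 h hb2 hN2 hi1 hd1 hd2
    simp only [List.mem_cons, List.not_mem_nil, or_false, Prod.mk.injEq] at hl
    rcases hl with ⟨h1, h2⟩ | ⟨h1, h2⟩
    · apply hleft
      rw [hNn, h1, h2]
    · exfalso
      have := hodd h1
      rw [h2] at this
      exact absurd this (by decide)
  · -- `t = 2`
    have hd1 : i ∣ 6 := by simpa [Nat.factorial] using hdvd1
    have hd2 : i * (i * h - 1) ∣ 24 := by simpa [Nat.factorial] using hdvd2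
    have hb1 : i ∈ Finset.range 7 := Finset.mem_range.2 (by have := hile (by norm_num) hd1; omega)
    have hb2 : h ∈ Finset.range 26 := Finset.mem_range.2 (by have := hh_le (by norm_num) hd2; omega)
    have hl := num2 i hb1 h hb2 hN2 hi1 hd1 hd2
    simp only [List.mem_cons, List.not_mem_nil, or_false, Prod.mk.injEq] at hl
    rcases hl with ⟨h1, h2⟩ | ⟨h1, h2⟩ | ⟨h1, h2⟩ | ⟨h1, h2⟩
    · apply hleft
      rw [hNn, h1, h2]
    · exfalso
      have := hodd h1
      rw [h2] at this
      exact absurd this (by decide)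
    · rw [h1, h2] at hNn
      refine Or.inr (Or.inl ⟨hNn, rfl, ?_⟩)
      rw [hc, hNn, h2]
      decide
    · exfalso
      rw [h1, h2] at hNn
      refine excl_sylow (Z := ∅) hG hs (by simp) (Finset.empty_subset _) (p := 11) (by norm_num)
        (by rw [hNn]; rfl) (q := 3) (by norm_num) h2 (by norm_num) (by norm_num) ?_
      intro d hd hd2
      have : d ≤ 30 := Nat.le_of_dvd (by norm_num) hd
      interval_cases d <;> omega
  · -- `t = 3`
    have hd1 : i ∣ 24 := by simpa [Nat.factorial] using hdvd1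
    have hd2 : i * (i * h - 1) ∣ 120 := by simpa [Nat.factorial] using hdvd2
    have hb1 : i ∈ Finset.range 25 := Finset.mem_range.2 (by have := hile (by norm_num) hd1; omega)
    have hb2 : h ∈ Finset.range 122 :=
      Finset.mem_range.2 (by have := hh_le (by norm_num) hd2; omega)
    have hl := num3 i hb1 h hb2 hN2 hi1 hd1 hd2
    simp only [List.mem_cons, List.not_mem_nil, or_false, Prod.mk.injEq] at hl
    obtain ⟨a, ha⟩ : s.Nonempty := Finset.card_pos.1 (by omega)
    have hZs : ({a} : Finset α) ⊆ s := Finset.singleton_subset_iff.2 ha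
    have hZc : ({a} : Finset α).card + 2 = 3 := by simp
    have heven : Even h → 3 + i * h - 3 ≤ 2 * h := by
      intro he
      have h1 := even_bound_G (by norm_num) hG hR s hs he
      rw [hNn] at h1
      exact h1
    rcases hl with ⟨h1, h2⟩ | ⟨h1, h2⟩ | ⟨h1, h2⟩ | ⟨h1, h2⟩ | ⟨h1, h2⟩ | ⟨h1, h2⟩ | ⟨h1, h2⟩ |
      ⟨h1, h2⟩ | ⟨h1, h2⟩ | ⟨h1, h2⟩ | ⟨h1, h2⟩ | ⟨h1, h2⟩
    · -- (2, 1)
      apply hleft
      rw [hNn, h1, h2]
    · -- (2, 2)
      exfalso
      have := hodd h1
      rw [h2] at this
      exact absurd this (by decide)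
    · -- (2, 3)
      rw [h1, h2] at hNn
      refine Or.inr (Or.inr (Or.inr ⟨hNn, rfl, Or.inr ?_⟩))
      rw [hc, hNn, h2]
      decide
    · -- (2, 8)
      exfalso
      have := hodd h1
      rw [h2] at this
      exact absurd this (by decide)
    · -- (3, 1)
      rw [h1, h2] at hNn
      refine Or.inr (Or.inr (Or.inl ⟨hNn, rfl, ?_⟩))
      rw [hc, hNn, h2]
      decide
    · -- (3, 2)
      exfalso
      have := heven (by rw [h2]; decide)
      rw [h1, h2] at this
      omega
    · -- (3, 3)
      exfalso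
      rw [h1, h2] at hNn
      refine excl_sylow (Z := {a}) hG hs hZc hZs (p := 11) (by norm_num)
        (by rw [hNn]; rfl) (q := 3) (by norm_num) h2 (by norm_num) (by norm_num) ?_
      intro d hd hd2
      have : d ≤ 30 := Nat.le_of_dvd (by norm_num) hd
      interval_cases d <;> omega
    · -- (3, 7)
      exfalso
      rw [h1, h2] at hNn
      refine excl_sylow (Z := {a}) hG hs hZc hZs (p := 23) (by norm_num)
        (by rw [hNn]; rfl) (q := 7) (by norm_num) h2 (by norm_num) (by norm_num) ?_
      intro d hd hd2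
      have : d ≤ 154 := Nat.le_of_dvd (by norm_num) hd
      interval_cases d <;> omega
    · -- (4, 1)
      exfalso
      rw [h1, h2] at hNn
      refine excl_sharp6 (Z := {a}) hG hZc (by rw [hNn]; rfl) ?_
      intro s' hs'
      rw [hOrd_const hG hs' hs]
      exact h2
    · -- (4, 4)
      exfalso
      have := heven (by rw [h2]; decide)
      rw [h1, h2] at this
      omega
    · -- (6, 1)
      rw [h1, h2] at hNn
      refine Or.inr (Or.inr (Or.inr ⟨hNn, rfl, Or.inl ?_⟩))
      rw [hc, hNn, h2]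
      decide
    · -- (8, 2)
      exfalso
      have := heven (by rw [h2]; decide)
      rw [h1, h2] at this
      omega

end Cfsg.Agent.Lib.Perm.LWHomog
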