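import Cfsg.Agent.Lib.Perm.LWExcl
import Cfsg.Agent.Lib.Perm.Witt
import Cfsg.Agent.S0743

/-!
# Reduction to near-sharp groups: normalisers of `p`-subgroups on their fixed points
-/

set_option autoImplicit false
set_option linter.unusedSectionVars false

open MulAction Equiv
open scoped Pointwise

namespace Cfsg.Agent.Lib.Perm.LWReduce

open Cfsg.Agent.Lib.Perm Cfsg.Agent.Lib.Perm.Basic Cfsg.Agent.Lib.Perm.LWCore
  Cfsg.Agent.Lib.Perm.NSClassify Cfsg.Agent.Lib.Perm.Induced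

/-- A `p`-subgroup not of maximal `p`-power order in `K` is normal of index `p` in a larger
`p`-subgroup of `K`. -/
theorem over_in_K {A : Type*} [Group A] [Finite A] {p : ℕ} [hp : Fact p.Prime] {K R : Subgroup A}
    (hRK : R ≤ K) {m : ℕ} (hRc : Nat.card R = p ^ m) (hdvd : p ^ (m + 1) ∣ Nat.card K) :
    ∃ P : Subgroup A, R ≤ P ∧ P ≤ K ∧ (∀ u ∈ P, ∀ r ∈ R, u * r * u⁻¹ ∈ R) ∧
      Nat.card P = p ^ (m + 1) := by
  have hH : Nat.card (R.subgroupOf K) = p ^ m := by
    rw [← hRc]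
    exact Nat.card_congr (Subgroup.subgroupOfEquivOfLe hRK).toEquiv
  obtain ⟨Q, hQc, hHQ⟩ := Sylow.exists_subgroup_card_pow_succ hdvd hH
  refine ⟨Q.map K.subtype, ?_, Subgroup.map_subtype_le Q, ?_, ?_⟩
  · intro r hr
    exact ⟨⟨r, hRK hr⟩, hHQ hr, rfl⟩
  · -- normality
    let H' : Subgroup Q := (R.subgroupOf K).subgroupOf Q
    have hH' : Nat.card H' = p ^ m := by
      rw [← hH]
      exact Nat.card_congr (Subgroup.subgroupOfEquivOfLe hHQ).toEquiv
    have hidx : H'.index = (Nat.card Q).minFac := by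
      rw [hQc, Nat.Prime.pow_minFac hp.out (by omega)]
      have h1 := Subgroup.index_mul_card H'
      rw [hH', hQc, pow_succ, mul_comm] at h1
      have hpos : 0 < p ^ m := pow_pos hp.out.pos m
      apply Nat.eq_of_mul_eq_mul_left hpos
      rw [← h1]
    have hn := Subgroup.normal_of_index_eq_minFac_card hidx
    rintro _ ⟨û, hû, rfl⟩ r hr
    have hr' : (⟨⟨r, hRK hr⟩, hHQ hr⟩ : Q) ∈ H' := hr
    have := hn.conj_mem _ hr' ⟨û, hû⟩
    exact this
  · rw [← hQc]
    exact Subgroup.card_map_of_injective K.subtype_injective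

variable {α : Type*} [Fintype α] [DecidableEq α] {G : Subgroup (Perm α)} {k : ℕ}

open Classical in
/-- The fixed points of a subgroup. -/
noncomputable def FixF (R : Subgroup G) : Finset α :=
  Finset.univ.filter (fun x => ∀ r ∈ R, ((r : G) : Perm α) x = x)

theorem mem_FixF {R : Subgroup G} {x : α} : x ∈ FixF R ↔ ∀ r ∈ R, ((r : G) : Perm α) x = x := by
  simp [FixF]

/-- The normaliser as a group of permutations. -/
noncomputable def NR (R : Subgroup G) : Subgroup (Perm α) :=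
  (Subgroup.normalizer (R : Set G)).map G.subtype

theorem NR_le (R : Subgroup G) : NR R ≤ G := by
  rintro _ ⟨u, -, rfl⟩
  exact u.2

theorem norm_pres {R : Subgroup G} {u : G} (hu : u ∈ Subgroup.normalizer (R : Set G)) {x : α}
    (hx : x ∈ FixF R) : (u : Perm α) x ∈ FixF R := by
  rw [mem_FixF] at hx ⊢
  intro r hr
  have h1 : u⁻¹ * r * u ∈ R := by
    have h2 := (Subgroup.mem_normalizer_iff.1 hu (u⁻¹ * r * u)).1
    apply (Subgroup.mem_normalizer_iff.1 hu (u⁻¹ * r * u)).2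
    have h3 : u * (u⁻¹ * r * u) * u⁻¹ = r := by group
    change u * (u⁻¹ * r * u) * u⁻¹ ∈ R
    rw [h3]
    exact hr
  have h4 := hx _ h1
  have h5 : ((u⁻¹ * r * u : G) : Perm α) x = (u : Perm α)⁻¹ ((r : Perm α) ((u : Perm α) x)) := rfl
  rw [h5] at h4
  rw [Perm.inv_eq_iff_eq] at h4
  exact h4

/-- Restriction of an element of the normaliser. -/
theorem exists_res {R : Subgroup G} {u : G} (hu : u ∈ Subgroup.normalizer (R : Set G)) :
    ∃ σ ∈ indGrp (NR R) (FixF R), ∀ x : ↥(FixF R), ((σ x : ↥(FixF R)) : α) = (u : Perm α) x := by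
  have hiff : ∀ x, (u : Perm α) x ∈ FixF R ↔ x ∈ FixF R := by
    intro x
    refine ⟨fun h => ?_, fun h => norm_pres hu h⟩
    have huinv : u⁻¹ ∈ Subgroup.normalizer (R : Set G) := Subgroup.inv_mem _ hu
    have := norm_pres huinv h
    have h2 : ((u⁻¹ : G) : Perm α) ((u : Perm α) x) = x := by
      change (u : Perm α)⁻¹ ((u : Perm α) x) = x
      simp
    rwa [h2] at this
  refine ⟨(u : Perm α).subtypePerm hiff, ⟨u, ⟨u, hu, rfl⟩, fun x => rfl⟩, fun x => rfl⟩

/-- Witt's lemma on the fixed points. -/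
theorem case_A {p : ℕ} [Fact p.Prime] {R : Subgroup G} (hRp : IsPGroup p R)
    (hG : IsMultiplyPretransitive G α k)
    (hind : ∀ Γ : Finset α, Γ.card = k → Γ ⊆ FixF R →
      ¬ p ∣ (R.subgroupOf (fixingSubgroup G (Γ : Set α))).index) :
    IsMultiplyPretransitive (indGrp (NR R) (FixF R)) ↥(FixF R) k := by
  classical
  set F := FixF R with hF
  apply of_exists_agree
  intro s hs f hf
  let Γ₁ : Finset α := s.map (Function.Embedding.subtype _)
  let Γ₂ : Finset α := (s.image f).map (Function.Embedding.subtype _)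
  have hΓ₁ : Γ₁.card = k := by simp [Γ₁, hs]
  have hΓ₁F : Γ₁ ⊆ F := by
    intro x hx
    obtain ⟨y, -, rfl⟩ := Finset.mem_map.1 hx
    exact y.2
  have hΓ₂F : Γ₂ ⊆ F := by
    intro x hx
    obtain ⟨y, -, rfl⟩ := Finset.mem_map.1 hx
    exact y.2
  let fe : α → α := fun x => if h : x ∈ F then (f ⟨x, h⟩ : α) else x
  have hfe : ∀ y : ↥F, fe y = f y := fun y => by simp [fe]
  have hinj : Set.InjOn fe Γ₁ := by
    intro x hx y hy hxy
    obtain ⟨x', hx', rfl⟩ := Finset.mem_map.1 (Finset.mem_coe.1 hx)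
    obtain ⟨y', hy', rfl⟩ := Finset.mem_map.1 (Finset.mem_coe.1 hy)
    simp only [Function.Embedding.subtype_apply] at hxy ⊢
    rw [hfe, hfe] at hxy
    have := hf (Finset.mem_coe.2 hx') (Finset.mem_coe.2 hy') (Subtype.ext hxy)
    rw [this]
  obtain ⟨g, hg⟩ := exists_agree_of_card_eq hG Γ₁ hΓ₁ fe hinj
  have hgs : ∀ y ∈ s, g • (y : α) = f y := by
    intro y hy
    rw [← hfe]
    exact hg _ (Finset.mem_map.2 ⟨y, hy, rfl⟩)
  have hK : ∀ y : G, y ∈ fixingSubgroup G (Γ₁ : Set α) ↔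
      g * y * g⁻¹ ∈ fixingSubgroup G (Γ₂ : Set α) := by
    intro y
    rw [mem_MZ, mem_MZ]
    constructor
    · intro hy z hz
      obtain ⟨w, hw, rfl⟩ := Finset.mem_map.1 hz
      obtain ⟨w', hw', rfl⟩ := Finset.mem_image.1 hw
      have h1 := hgs w' hw'
      have h2 := hy (w' : α) (Finset.mem_map.2 ⟨w', hw', rfl⟩)
      simp only [Function.Embedding.subtype_apply]
      rw [← h1]
      change ((g * y * g⁻¹ : G) : Perm α) (g • (w' : α)) = g • (w' : α)
      have h3 : ((g * y * g⁻¹ : G) : Perm α) (g • (w' : α)) = g • ((y : Perm α) (w' : α)) := by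
        change (g : Perm α) ((y : Perm α) ((g : Perm α)⁻¹ ((g : Perm α) (w' : α)))) = _
        have h9 : (g : Perm α)⁻¹ ((g : Perm α) (w' : α)) = w' := by simp
        rw [h9]
        rfl
      rw [h3, h2]
    · intro hy z hz
      obtain ⟨w, hw, rfl⟩ := Finset.mem_map.1 hz
      have h1 := hgs w hw
      have h2 := hy (f w : α) (Finset.mem_map.2 ⟨f w, Finset.mem_image_of_mem f hw, rfl⟩)
      simp only [Function.Embedding.subtype_apply]
      rw [← h1] at h2
      have h3 : ((g * y * g⁻¹ : G) : Perm α) (g • (w : α)) = g • ((y : Perm α) (w : α)) := by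
        change (g : Perm α) ((y : Perm α) ((g : Perm α)⁻¹ ((g : Perm α) (w : α)))) = _
        have h9 : (g : Perm α)⁻¹ ((g : Perm α) (w : α)) = w := by simp
        rw [h9]
        rfl
      rw [h3] at h2
      exact MulAction.injective g h2
  have hRK : ∀ {Γ : Finset α}, Γ ⊆ F → R ≤ fixingSubgroup G (Γ : Set α) := by
    intro Γ hΓ r hr
    rw [mem_MZ]
    intro z hz
    exact mem_FixF.1 (hΓ hz) r hr
  obtain ⟨h, hL, hn⟩ := Witt.frattini_sylow hRp (hRK hΓ₁F) (hRK hΓ₂F) g hK (hind Γ₁ hΓ₁ hΓ₁F)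
  obtain ⟨σ, hσ, hσx⟩ := exists_res hn
  refine ⟨⟨σ, hσ⟩, fun x hx => Subtype.ext ?_⟩
  change ((σ x : ↥F) : α) = _
  rw [hσx]
  change (h : Perm α) ((g : Perm α) (x : α)) = _
  have h1 : (g : Perm α) (x : α) = f x := hgs x hx
  rw [h1]
  exact mem_MZ.1 hL _ (Finset.mem_map.2 ⟨f x, Finset.mem_image_of_mem f hx, rfl⟩)

/-- Gleason's lemma on the fixed points. -/
theorem case_B {p : ℕ} [hp : Fact p.Prime] {R : Subgroup G} {m : ℕ} (hcard : Nat.card R = p ^ m)
    (hmax : ∀ R' : Subgroup G, IsPGroup p R' → k + 1 ≤ (FixF R').card → Nat.card R' ≤ Nat.card R)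
    (hdvd : ∀ Γ : Finset α, Γ.card = k → Γ ⊆ FixF R → p ^ (m + 1) ∣ hOrd G Γ)
    (hk1 : 1 ≤ k) (hkF : k < (FixF R).card) :
    IsMultiplyPretransitive (indGrp (NR R) (FixF R)) ↥(FixF R) k := by
  classical
  set F := FixF R with hF
  refine Cfsg.Agent.S0743.result (indGrp (NR R) F) hp.out hk1 (by rwa [Fintype.card_coe]) ?_
  intro s hs
  let Γ : Finset α := s.map (Function.Embedding.subtype _)
  have hΓ : Γ.card = k := by simp [Γ, hs]
  have hΓF : Γ ⊆ F := by
    intro x hx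
    obtain ⟨y, -, rfl⟩ := Finset.mem_map.1 hx
    exact y.2
  have hRK : R ≤ fixingSubgroup G (Γ : Set α) := by
    intro r hr
    rw [mem_MZ]
    intro z hz
    exact mem_FixF.1 (hΓF hz) r hr
  obtain ⟨P₁, hRP, hPK, hPn, hPc⟩ := over_in_K hRK hcard (hdvd Γ hΓ hΓF)
  have hPp : IsPGroup p P₁ := IsPGroup.of_card hPc
  have hPfix : ∀ u ∈ P₁, ∀ z ∈ Γ, (u : Perm α) z = z := fun u hu z hz => mem_MZ.1 (hPK hu) z hz
  -- elements of `P₁` normalise
  have hPnorm : ∀ u ∈ P₁, u ∈ Subgroup.normalizer (R : Set G) := by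
    intro u hu
    rw [Subgroup.mem_normalizer_iff]
    intro r
    refine ⟨fun hr => hPn u hu r hr, fun hr => ?_⟩
    -- finiteness
    let φ : R → R := fun z => ⟨u * z * u⁻¹, hPn u hu z z.2⟩
    have hφ : Function.Injective φ := by
      intro a b hab
      have h1 : u * (a : G) * u⁻¹ = u * (b : G) * u⁻¹ := congrArg Subtype.val hab
      have h2 : (a : G) = b := by simpa using h1
      exact Subtype.ext h2
    obtain ⟨z, hz⟩ := (Finite.injective_iff_surjective).1 hφ ⟨_, hr⟩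
    have h1 : u * (z : G) * u⁻¹ = u * r * u⁻¹ := congrArg Subtype.val hz
    have h2 : (z : G) = r := by simpa using h1
    exact h2 ▸ z.2
  -- the moved points
  have hmove : ∀ y ∈ F, y ∉ Γ → ∃ u ∈ P₁, (u : Perm α) y ≠ y := by
    intro y hyF hyΓ
    by_contra hcon
    push Not at hcon
    have h1 : insert y Γ ⊆ FixF P₁ := by
      intro z hz
      rw [mem_FixF]
      intro u hu
      rcases Finset.mem_insert.1 hz with rfl | hz
      · exact hcon u hu
      · exact hPfix u hu z hz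
    have h2 := Finset.card_le_card h1
    rw [Finset.card_insert_of_notMem hyΓ, hΓ] at h2
    have h3 := hmax P₁ hPp h2
    rw [hPc, hcard, pow_succ] at h3
    have hpos : 0 < p ^ m := pow_pos hp.out.pos m
    have := hp.out.two_le
    nlinarith
  -- the group on the fixed points
  let X := indGrp (NR R) F
  let P : Subgroup X :=
    { carrier := {σ | ∃ u ∈ P₁, ∀ x : ↥F, (((σ : Perm ↥F) x : ↥F) : α) = (u : Perm α) x}
      mul_mem' := by
        rintro σ τ ⟨u, hu, hσ⟩ ⟨v, hv, hτ⟩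
        refine ⟨u * v, P₁.mul_mem hu hv, fun x => ?_⟩
        change (((σ : Perm ↥F) ((τ : Perm ↥F) x) : ↥F) : α) = (u : Perm α) ((v : Perm α) x)
        rw [hσ, hτ]
      one_mem' := ⟨1, P₁.one_mem, fun x => rfl⟩
      inv_mem' := by
        rintro σ ⟨u, hu, hσ⟩
        refine ⟨u⁻¹, P₁.inv_mem hu, fun x => ?_⟩
        have h1 := hσ ((σ : Perm ↥F)⁻¹ x)
        have h0 : (σ : Perm ↥F) ((σ : Perm ↥F)⁻¹ x) = x := by simp
        rw [h0] at h1
        change (((σ : Perm ↥F)⁻¹ x : ↥F) : α) = (u : Perm α)⁻¹ x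
        rw [Perm.eq_inv_iff_eq]
        exact h1.symm }
  refine ⟨P, ?_, ?_⟩
  · -- a `p`-group
    rintro ⟨σ, u, hu, hσ⟩
    obtain ⟨j, hj⟩ := hPp ⟨u, hu⟩
    have hj' : u ^ p ^ j = 1 := congrArg Subtype.val hj
    refine ⟨j, Subtype.ext (Subtype.ext ?_)⟩
    have hpow : ∀ (n : ℕ) (x : ↥F), ((((σ : X) : Perm ↥F) ^ n) x : α) = ((u ^ n : G) : Perm α) x := by
      intro n
      induction n with
      | zero => intro x; rfl
      | succ n ih =>
        intro x
        rw [pow_succ', Perm.mul_apply, hσ, ih, pow_succ']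
        rfl
    ext x
    have := hpow (p ^ j) x
    rw [hj'] at this
    exact this
  · -- the fixed points
    ext x
    simp only [mem_fixedPoints, Finset.mem_coe]
    constructor
    · intro hx
      by_contra hxs
      have hxΓ : (x : α) ∉ Γ := by
        intro h
        obtain ⟨y, hy, hyx⟩ := Finset.mem_map.1 h
        have : y = x := Subtype.ext hyx
        exact hxs (this ▸ hy)
      obtain ⟨u, hu, hux⟩ := hmove x x.2 hxΓ
      obtain ⟨σ, hσ, hσx⟩ := exists_res (hPnorm u hu)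
      have hmem : (⟨σ, hσ⟩ : X) ∈ P := ⟨u, hu, hσx⟩
      have h1 := hx ⟨⟨σ, hσ⟩, hmem⟩
      have h2 : ((σ x : ↥F) : α) = x := congrArg Subtype.val h1
      rw [hσx] at h2
      exact hux h2
    · rintro hx ⟨⟨σ, hσ⟩, u, hu, hσx⟩
      apply Subtype.ext
      change ((σ x : ↥F) : α) = x
      rw [hσx]
      exact hPfix u hu x (Finset.mem_map.2 ⟨x, hx, rfl⟩)

/-- **The reduction step.** -/
theorem reduce_step (hk1 : 1 ≤ k) (hkn : k < Fintype.card α) (hG : IsMultiplyPretransitive G α k)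
    (hnR : ¬ Rigid G k) :
    ∃ (F : Finset α) (N : Subgroup (Perm α)), k < F.card ∧ F.card < Fintype.card α ∧ N ≤ G ∧
      IsMultiplyPretransitive (indGrp N F) ↥F k := by
  classical
  unfold Rigid at hnR
  push Not at hnR
  obtain ⟨s₀, hs₀, g, hg, hfix, hg1⟩ := hnR
  have hnt : Nontrivial (fixingSubgroup G (s₀ : Set α)) := by
    have hmem : (⟨g, hg⟩ : G) ∈ fixingSubgroup G (s₀ : Set α) := mem_MZ.2 hfix
    exact ⟨⟨⟨⟨g, hg⟩, hmem⟩, 1, fun h => hg1 (congrArg
      (fun u : fixingSubgroup G (s₀ : Set α) => ((u : G) : Perm α)) h)⟩⟩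
  obtain ⟨p, hp, hpd⟩ := Nat.exists_prime_and_dvd
    (show Nat.card (fixingSubgroup G (s₀ : Set α)) ≠ 1 from
      (Finite.one_lt_card_iff_nontrivial.2 hnt).ne')
  have := Fact.mk hp
  obtain ⟨x, hx⟩ := exists_prime_orderOf_dvd_card' (G := fixingSubgroup G (s₀ : Set α)) p hpd
  -- the family
  let 𝓡 : Set (Subgroup G) := {R | IsPGroup p R ∧ R ≠ ⊥ ∧ k + 1 ≤ (FixF R).card}
  have hne : 𝓡.Nonempty := by
    refine ⟨Subgroup.zpowers (x : G), ?_, ?_, ?_⟩
    · apply IsPGroup.of_card (n := 1)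
      rw [Nat.card_zpowers, Subgroup.orderOf_coe, hx, pow_one]
    · intro h
      rw [Subgroup.zpowers_eq_bot] at h
      have hx1 : x = 1 := Subtype.ext h
      rw [hx1, orderOf_one] at hx
      exact hp.one_lt.ne hx
    · rw [← hs₀]
      apply Finset.card_le_card
      intro a ha
      rw [mem_FixF]
      rintro _ ⟨n, rfl⟩
      have h1 : ((x : G) : Perm α) a = a := mem_MZ.1 x.2 a ha
      have h2 : ((((x : G) ^ n : G)) : Perm α) = ((x : G) : Perm α) ^ n := by
        simp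
      change (((x : G) ^ n : G) : Perm α) a = a
      rw [h2]
      exact Equiv.Perm.zpow_apply_eq_self_of_apply_eq_self h1 n
  obtain ⟨R, ⟨hRp, hRne, hRF⟩, hRmax⟩ := Set.exists_max_image 𝓡 (fun R => Nat.card R)
    (Set.toFinite _) hne
  obtain ⟨m, hm⟩ := IsPGroup.iff_card.1 hRp
  have hmax : ∀ R' : Subgroup G, IsPGroup p R' → k + 1 ≤ (FixF R').card →
      Nat.card R' ≤ Nat.card R := by
    intro R' hR' hc
    by_cases hbot : R' = ⊥
    · rw [hbot, Subgroup.card_bot]
      exact Nat.card_pos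
    · exact hRmax R' ⟨hR', hbot, hc⟩
  have hFlt : (FixF R).card < Fintype.card α := by
    rw [← Finset.card_univ]
    apply Finset.card_lt_card
    rw [Finset.ssubset_univ_iff]
    intro huniv
    apply hRne
    rw [eq_bot_iff]
    intro r hr
    rw [Subgroup.mem_bot]
    apply Subtype.ext
    ext a
    have : a ∈ FixF R := by rw [huniv]; exact Finset.mem_univ a
    exact mem_FixF.1 this r hr
  refine ⟨FixF R, NR R, by omega, hFlt, NR_le R, ?_⟩
  -- the dichotomy
  have hRK : ∀ {Γ : Finset α}, Γ ⊆ FixF R → R ≤ fixingSubgroup G (Γ : Set α) := by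
    intro Γ hΓ r hr
    rw [mem_MZ]
    intro z hz
    exact mem_FixF.1 (hΓ hz) r hr
  have hidx : ∀ {Γ : Finset α}, Γ ⊆ FixF R →
      (R.subgroupOf (fixingSubgroup G (Γ : Set α))).index * p ^ m = hOrd G Γ := by
    intro Γ hΓ
    rw [← hm]
    have h1 := Subgroup.index_mul_card (R.subgroupOf (fixingSubgroup G (Γ : Set α)))
    change _ = Nat.card (fixingSubgroup G (Γ : Set α))
    rw [← h1]
    congr 1
    exact (Nat.card_congr (Subgroup.subgroupOfEquivOfLe (hRK hΓ)).toEquiv).symm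
  obtain ⟨Γ₀, hΓ₀F, hΓ₀⟩ := Finset.exists_subset_card_eq (s := FixF R) (n := k) (by omega)
  have hpos : 0 < p ^ m := pow_pos hp.pos m
  have hconst : ∀ {Γ : Finset α}, Γ ⊆ FixF R → Γ.card = k →
      (R.subgroupOf (fixingSubgroup G (Γ : Set α))).index =
        (R.subgroupOf (fixingSubgroup G (Γ₀ : Set α))).index := by
    intro Γ hΓF hΓ
    apply Nat.eq_of_mul_eq_mul_right hpos
    rw [hidx hΓF, hidx hΓ₀F]
    exact hOrd_const hG hΓ hΓ₀
  by_cases hcase : p ∣ (R.subgroupOf (fixingSubgroup G (Γ₀ : Set α))).index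
  · refine case_B hm hmax ?_ hk1 (by omega)
    intro Γ hΓ hΓF
    rw [← hidx hΓF, hconst hΓF hΓ, pow_succ, mul_comm]
    exact Nat.mul_dvd_mul_right hcase _
  · refine case_A hRp hG ?_
    intro Γ hΓ hΓF
    rw [hconst hΓF hΓ]
    exact hcase

end Cfsg.Agent.Lib.Perm.LWReduce
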