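import Cfsg.Agent.Lib.Perm.LWReduce
import Cfsg.Agent.Lib.Perm.LWHomog

/-!
# Alternating sections of multiply transitive groups
-/

set_option autoImplicit false
set_option linter.unusedSectionVars false

universe u

open MulAction Equiv
open scoped Pointwise

namespace Cfsg.Agent.Lib.Perm.LWTrans

open Cfsg.Agent.Lib.Perm Cfsg.Agent.Lib.Perm.Basic Cfsg.Agent.Lib.Perm.LWCore
  Cfsg.Agent.Lib.Perm.NSClassify Cfsg.Agent.Lib.Perm.Induced Cfsg.Agent.Lib.Perm.LWExcl
  Cfsg.Agent.Lib.Perm.LWReduce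

/-- The near-sharp case. -/
theorem near_sharp_case {α : Type*} [Fintype α] [DecidableEq α] {G : Subgroup (Perm α)} {k : ℕ}
    (hk : 4 ≤ k) (hkn : k < Fintype.card α) (hG : IsMultiplyPretransitive G α k) (hR : Rigid G k) :
    ∃ Δ : Finset α, Δ.card = k + 1 ∧ alternatingGroup ↥Δ ≤ indGrp G Δ := by
  classical
  obtain ⟨Δ₀, -, hΔ₀⟩ := Finset.exists_subset_card_eq (s := (Finset.univ : Finset α)) (n := k + 1)
    (by rw [Finset.card_univ]; omega)
  obtain ⟨s, -, hs⟩ := Finset.exists_subset_card_eq (s := Δ₀) (n := k) (by omega)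
  have hpos := hOrd_pos (G := G) s
  have small : ∀ Δ : Finset α, Δ.card = k + 1 → (indGrp G Δ).index ≤ k →
      alternatingGroup ↥Δ ≤ indGrp G Δ := by
    intro Δ hΔ hi
    have hcard : Fintype.card ↥Δ = k + 1 := by rw [Fintype.card_coe, hΔ]
    exact alternating_le_of_index_lt (by rw [hcard]; omega) _ (by rw [hcard]; omega)
  have hle := index_mul_le hG hR hΔ₀ hs
  rcases ns_classify hk hG hR s hs with hN | ⟨hh, hN⟩
  · refine ⟨Δ₀, hΔ₀, small Δ₀ hΔ₀ ?_⟩
    have : (indGrp G Δ₀).index * hOrd G s ≤ 2 * hOrd G s := hle.trans hN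
    have := Nat.le_of_mul_le_mul_right this hpos
    omega
  · rw [hh, mul_one] at hle
    rcases hN with hN | hN
    · exact ⟨Δ₀, hΔ₀, small Δ₀ hΔ₀ (by omega)⟩
    · by_cases hi : (indGrp G Δ₀).index ≤ k
      · exact ⟨Δ₀, hΔ₀, small Δ₀ hΔ₀ hi⟩
      have hk6 : k ≤ 6 := by omega
      by_cases hk6' : k = 6
      · exfalso
        subst hk6'
        have hn : Fintype.card α = 13 := by omega
        have hc := card_G hG s hs
        rw [hh, mul_one, hn] at hc
        have htr : IsPretransitive G α := by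
          rw [← is_one_pretransitive_iff]
          exact trans_le hG (by norm_num) (by omega)
        exact Cfsg.Agent.S0710.result hn G (by rw [hc]; decide)
      · by_cases hex : ∃ Δ₁ : Finset α, Δ₁.card = k + 1 ∧ Δ₁ ∉ orbit G Δ₀
        · obtain ⟨Δ₁, hΔ₁, hne⟩ := hex
          have h2 := index_two_le hG hR hΔ₀ hΔ₁ hne hs
          rw [hh, mul_one] at h2
          exact ⟨Δ₁, hΔ₁, small Δ₁ hΔ₁ (by omega)⟩
        · exfalso
          push Not at hex
          have hhom : IsPretransitive G (Set.powersetCard α (k + 1)) := by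
            refine Homogeneous.homog_iff.2 ?_
            intro A B hA hB
            obtain ⟨g₁, hg₁⟩ := hex A hA
            obtain ⟨g₂, hg₂⟩ := hex B hB
            refine ⟨g₂ * g₁⁻¹, ?_⟩
            have h1 : g₁ • Δ₀ = A := hg₁
            have h2 : g₂ • Δ₀ = B := hg₂
            rw [mul_smul, ← h1, inv_smul_smul, h2]
          have h7 := index_mul_eq hG hR hhom hΔ₀ hs
          rw [hh, mul_one, hN] at h7
          have hdvd : (indGrp G Δ₀).index ∣ (k + 1).factorial := by
            have h2 := Subgroup.index_mul_card (indGrp G Δ₀)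
            rw [card_perm_coe hΔ₀] at h2
            exact ⟨_, h2.symm⟩
          rw [h7] at hdvd
          have : 7 ≤ k + 1 := (Nat.Prime.dvd_factorial (by norm_num)).1 hdvd
          omega

/-- Lifting from the set of fixed points. -/
theorem lift_alt {α : Type*} [Fintype α] [DecidableEq α] {G N : Subgroup (Perm α)} {F : Finset α}
    (hN : N ≤ G) {Δ' : Finset ↥F} (hA : alternatingGroup ↥Δ' ≤ indGrp (indGrp N F) Δ') :
    ∃ Δ : Finset α, Δ.card = Δ'.card ∧ alternatingGroup ↥Δ ≤ indGrp G Δ := by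
  classical
  let Δ : Finset α := Δ'.map (Function.Embedding.subtype _)
  refine ⟨Δ, by simp [Δ], ?_⟩
  let e : ↥Δ' ≃ ↥Δ := Equiv.ofBijective
    (fun x => (⟨x.1.1, Finset.mem_map.2 ⟨x.1, x.2, rfl⟩⟩ : ↥Δ)) (by
      constructor
      · intro x y hxy
        have h1 : (x.1 : α) = y.1 := congrArg (fun q : ↥Δ => (q : α)) hxy
        exact Subtype.ext (Subtype.ext h1)
      · rintro ⟨z, hz⟩
        obtain ⟨w, hw, rfl⟩ := Finset.mem_map.1 hz
        exact ⟨⟨w, hw⟩, rfl⟩)
  have he : ∀ x : ↥Δ', ((e x : ↥Δ) : α) = ((x : ↥F) : α) := fun _ => rfl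
  intro σ hσ
  rw [Perm.mem_alternatingGroup] at hσ
  have hσ' : (e.symm.permCongr σ) ∈ alternatingGroup ↥Δ' := by
    rw [Perm.mem_alternatingGroup, Perm.sign_permCongr]
    exact hσ
  obtain ⟨τ, hτ, hτx⟩ := hA hσ'
  obtain ⟨g, hg, hgx⟩ := hτ
  refine ⟨g, hN hg, fun z => ?_⟩
  obtain ⟨x, rfl⟩ := e.surjective z
  rw [he]
  have h1 := hgx (x : ↥F)
  rw [h1, hτx x]
  have h2 : (e.symm.permCongr σ) x = e.symm (σ (e x)) := by
    simp [Equiv.permCongr_apply]
  rw [h2]
  rw [← he]
  simp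

/-- **Existence of alternating sections.** -/
theorem exists_alt : ∀ (n : ℕ) {α : Type u} [Fintype α] [DecidableEq α] (G : Subgroup (Perm α))
    {k : ℕ}, Fintype.card α = n → 4 ≤ k → k < n → IsMultiplyPretransitive G α k →
    ∃ Δ : Finset α, Δ.card = k + 1 ∧ alternatingGroup ↥Δ ≤ indGrp G Δ := by
  intro n
  induction n using Nat.strong_induction_on with
  | _ n ih =>
    intro α _ _ G k hn hk hkn hG
    subst hn
    by_cases hR : Rigid G k
    · exact near_sharp_case hk hkn hG hR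
    · obtain ⟨F, N, hkF, hFn, hNG, hX⟩ := reduce_step (by omega) hkn hG hR
      obtain ⟨Δ', hΔ', hA⟩ := ih F.card hFn (α := ↥F) (indGrp N F) (k := k)
        (by rw [Fintype.card_coe]) hk hkF hX
      obtain ⟨Δ, hΔ, hAΔ⟩ := lift_alt hNG hA
      exact ⟨Δ, by rw [hΔ, hΔ'], hAΔ⟩

/-- **Livingstone–Wagner, second form.** -/
theorem homog_trans {α : Type u} [Fintype α] [DecidableEq α] {G : Subgroup (Perm α)} {k : ℕ}
    (hk : 5 ≤ k) (hkn : 2 * k ≤ Fintype.card α)
    (hT : IsMultiplyPretransitive G α (k - 1))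
    (hh : IsPretransitive G (Set.powersetCard α k)) : IsMultiplyPretransitive G α k := by
  obtain ⟨t, rfl⟩ : ∃ t, k = t + 1 := ⟨k - 1, by omega⟩
  have hT' : IsMultiplyPretransitive G α t := hT
  obtain ⟨Δ₀, hΔ₀, hA₀⟩ := exists_alt _ G rfl (by omega) (by omega) hT'
  have hi₀ : (indGrp G Δ₀).index ≤ 2 := by
    have hdvd := Subgroup.index_dvd_of_le hA₀
    have h2 : (alternatingGroup ↥Δ₀).index ≤ 2 := by
      have hnt : Nontrivial ↥Δ₀ := by
        rw [← Finite.one_lt_card_iff_nontrivial, Nat.card_eq_fintype_card, Fintype.card_coe, hΔ₀]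
        omega
      rw [alternatingGroup.index_eq_two]
    exact (Nat.le_of_dvd (by
      have hnt : Nontrivial ↥Δ₀ := by
        rw [← Finite.one_lt_card_iff_nontrivial, Nat.card_eq_fintype_card, Fintype.card_coe, hΔ₀]
        omega
      rw [alternatingGroup.index_eq_two]
      norm_num) hdvd).trans h2
  have hcards : ∀ E : Finset α, E.card = t + 1 → (indGrp G E).index = (indGrp G Δ₀).index := by
    intro E hE
    have h1 := orbit_card_mul (G := G) E
    have h2 := orbit_card_mul (G := G) Δ₀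
    rw [orbit_eq_of_homog hh hE] at h1
    rw [orbit_eq_of_homog hh hΔ₀, ← h1, LWHomog.hOrd_of_homog hh hΔ₀ hE] at h2
    have hc := choose_pos hE
    have hh0 := hOrd_pos (G := G) E
    have h3 : Nat.card (indGrp G Δ₀) = Nat.card (indGrp G E) := by
      have h4 := Nat.eq_of_mul_eq_mul_left hc h2
      exact Nat.eq_of_mul_eq_mul_right hh0 h4
    have h5 := Subgroup.index_mul_card (indGrp G E)
    have h6 := Subgroup.index_mul_card (indGrp G Δ₀)
    rw [card_perm_coe hE] at h5
    rw [card_perm_coe hΔ₀, h3] at h6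
    exact Nat.eq_of_mul_eq_mul_right Nat.card_pos (h5.trans h6.symm)
  by_cases hi1 : (indGrp G Δ₀).index = 1
  · exact trans_of_full hh hΔ₀ (Subgroup.index_eq_one.1 hi1)
  · exfalso
    have hi0 : (indGrp G Δ₀).index ≠ 0 := Subgroup.index_ne_zero_of_finite
    have hi2 : (indGrp G Δ₀).index = 2 := by omega
    have := LWAlt.lw_alt (t := t) (by omega) hT' hh
      (fun E hE => (index_two (by rw [hcards E hE, hi2])).1)
      (fun E hE => (index_two (by rw [hcards E hE, hi2])).2)
    omega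

end Cfsg.Agent.Lib.Perm.LWTrans
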