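import Cfsg.Agent.Lib.Perm.JordanPrime
import Cfsg.Agent.Lib.Perm.MinDegree
import Mathlib.GroupTheory.SpecificGroups.Alternating.Simple

/-!
# `p`-groups acting on an invariant set of `p` points

The action of a `p`-group `P ≤ Sym(α)` on an orbit of length `p` is cyclic of order `p`, and elements
preserving the orbit and normalising `P` act by power maps.
-/

set_option autoImplicit false

open MulAction Equiv
open scoped Pointwise

namespace Cfsg.Agent.Lib.Perm.LocalOrbit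

variable {α : Type*} [Fintype α] {p : ℕ} [hpp : Fact p.Prime]
  {P : Subgroup (Perm α)}

/-- A `p`-element fixes every point of an invariant set of size `< p`. -/
theorem fix_of_small (hP : IsPGroup p P) {u : Perm α} (hu : u ∈ P) (Z : Set α)
    (hZ1 : ∀ b ∈ Z, u b ∈ Z) (hZ2 : ∀ b ∈ Z, u⁻¹ b ∈ Z) (hZ : Z.ncard < p) :
    ∀ b ∈ Z, u b = b := by
  classical
  intro b hb
  let Q : Subgroup (Perm α) := Subgroup.zpowers u
  have hQ : IsPGroup p Q := hP.to_le ((Subgroup.zpowers_le).2 hu)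
  have hsub : orbit Q b ⊆ Z := by
    rintro _ ⟨⟨q, j, rfl⟩, rfl⟩
    change (u ^ j) b ∈ Z
    induction j using Int.induction_on with
    | zero => simpa using hb
    | succ i ih =>
      have : u ^ ((i : ℤ) + 1) = u * u ^ (i : ℤ) := by rw [add_comm, zpow_add, zpow_one]
      rw [this]
      exact hZ1 _ ih
    | pred i ih =>
      have : u ^ (-(i : ℤ) - 1) = u⁻¹ * u ^ (-(i : ℤ)) := by
        rw [sub_eq_add_neg, add_comm, zpow_add, zpow_neg_one]
      rw [this]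
      exact hZ2 _ ih
  obtain ⟨f, hf⟩ := hQ.card_orbit b
  have hle : Nat.card (orbit Q b) ≤ Z.ncard := by
    rw [Nat.card_coe_set_eq]
    exact Set.ncard_le_ncard hsub (Set.toFinite _)
  have hf0 : f = 0 := by
    by_contra hne
    have h1 : p ≤ p ^ f := Nat.le_self_pow hne p
    omega
  rw [hf0, pow_zero] at hf
  have hsingle : Set.Subsingleton (orbit Q b) := by
    rw [← Set.encard_le_one_iff_subsingleton, ← Set.Finite.cast_ncard_eq (Set.toFinite _),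
      ← Nat.card_coe_set_eq, hf]
    simp
  have h1 : u b ∈ orbit Q b := ⟨⟨u, Subgroup.mem_zpowers u⟩, rfl⟩
  exact hsingle h1 (mem_orbit_self b)

/-- A `p`-element moving a point of an invariant set of size `p` is transitive on it. -/
theorem zpow_transitive (hP : IsPGroup p P) {w : Perm α} (hw : w ∈ P) (O : Set α)
    (hO : O.ncard = p) (hO1 : ∀ b ∈ O, w b ∈ O) (hO2 : ∀ b ∈ O, w⁻¹ b ∈ O) {a : α} (ha : a ∈ O)
    (hwa : w a ≠ a) : ∀ b ∈ O, ∃ j : ℤ, (w ^ j) a = b := by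
  classical
  let Q : Subgroup (Perm α) := Subgroup.zpowers w
  have hQ : IsPGroup p Q := hP.to_le ((Subgroup.zpowers_le).2 hw)
  have hsub : orbit Q a ⊆ O := by
    rintro _ ⟨⟨q, j, rfl⟩, rfl⟩
    change (w ^ j) a ∈ O
    induction j using Int.induction_on with
    | zero => simpa using ha
    | succ i ih =>
      have : w ^ ((i : ℤ) + 1) = w * w ^ (i : ℤ) := by rw [add_comm, zpow_add, zpow_one]
      rw [this]
      exact hO1 _ ih
    | pred i ih =>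
      have : w ^ (-(i : ℤ) - 1) = w⁻¹ * w ^ (-(i : ℤ)) := by
        rw [sub_eq_add_neg, add_comm, zpow_add, zpow_neg_one]
      rw [this]
      exact hO2 _ ih
  obtain ⟨f, hf⟩ := hQ.card_orbit a
  have hle : Nat.card (orbit Q a) ≤ O.ncard := by
    rw [Nat.card_coe_set_eq]
    exact Set.ncard_le_ncard hsub (Set.toFinite _)
  have hf0 : f ≠ 0 := by
    rintro rfl
    rw [pow_zero] at hf
    have hsingle : Set.Subsingleton (orbit Q a) := by
      rw [← Set.encard_le_one_iff_subsingleton, ← Set.Finite.cast_ncard_eq (Set.toFinite _),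
        ← Nat.card_coe_set_eq, hf]
      simp
    have h1 : w a ∈ orbit Q a := ⟨⟨w, Subgroup.mem_zpowers w⟩, rfl⟩
    exact hwa (hsingle h1 (mem_orbit_self a))
  have h1 : p ≤ p ^ f := Nat.le_self_pow hf0 p
  have heq : orbit Q a = O := by
    apply Set.eq_of_subset_of_ncard_le hsub _ (Set.toFinite _)
    rw [Nat.card_coe_set_eq] at hf
    rw [hf, hO]
    exact h1
  intro b hb
  rw [← heq] at hb
  obtain ⟨⟨q, j, rfl⟩, hq⟩ := hb
  exact ⟨j, hq⟩

/-- A `p`-element moving a point of an invariant `p`-set has `p`-th power trivial on it. -/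
theorem pow_p_fix (hP : IsPGroup p P) {w : Perm α} (hw : w ∈ P) (O : Set α)
    (hO : O.ncard = p) (hO1 : ∀ b ∈ O, w b ∈ O) (hO2 : ∀ b ∈ O, w⁻¹ b ∈ O) {a : α} (ha : a ∈ O)
    (hwa : w a ≠ a) : ∀ b ∈ O, (w ^ p) b = b := by
  classical
  have htr := zpow_transitive hP hw O hO hO1 hO2 ha hwa
  let Q : Subgroup (Perm α) := Subgroup.zpowers w
  have hfix : (w ^ p) a = a := by
    have horb : orbit Q a = O := by
      apply Set.Subset.antisymm
      · rintro _ ⟨⟨q, j, rfl⟩, rfl⟩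
        change (w ^ j) a ∈ O
        induction j using Int.induction_on with
        | zero => simpa using ha
        | succ i ih =>
          have : w ^ ((i : ℤ) + 1) = w * w ^ (i : ℤ) := by rw [add_comm, zpow_add, zpow_one]
          rw [this]
          exact hO1 _ ih
        | pred i ih =>
          have : w ^ (-(i : ℤ) - 1) = w⁻¹ * w ^ (-(i : ℤ)) := by
            rw [sub_eq_add_neg, add_comm, zpow_add, zpow_neg_one]
          rw [this]
          exact hO2 _ ih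
      · intro b hb
        obtain ⟨j, rfl⟩ := htr b hb
        exact ⟨⟨w ^ j, Subgroup.zpow_mem_zpowers w j⟩, rfl⟩
    have hidx : (stabilizer Q a).index = p := by
      rw [index_stabilizer, horb, hO]
    have hnorm : (stabilizer Q a).Normal := by
      infer_instance
    have hmem := Subgroup.pow_index_mem (stabilizer Q a) (⟨w, Subgroup.mem_zpowers w⟩ : Q)
    rw [hidx] at hmem
    exact hmem
  intro b hb
  obtain ⟨j, rfl⟩ := htr b hb
  have : (w ^ p) ((w ^ j) a) = (w ^ j) ((w ^ p) a) := by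
    have h1 : w ^ p * w ^ j = w ^ j * w ^ p := (Commute.refl w).pow_left p |>.zpow_right j
    exact DFunLike.congr_fun h1 a
  rw [this, hfix]

/-- An element of `P` moving `b` in an invariant `p`-set has powers prime to `p` moving `b`. -/
theorem zpow_ne (hP : IsPGroup p P) {w : Perm α} (hw : w ∈ P) (O : Set α)
    (hO : O.ncard = p) (hO1 : ∀ b ∈ O, w b ∈ O) (hO2 : ∀ b ∈ O, w⁻¹ b ∈ O) {a : α} (ha : a ∈ O)
    (hwa : w a ≠ a) {i : ℤ} (hi : ¬ (p : ℤ) ∣ i) : (w ^ i) a ≠ a := by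
  classical
  intro hfix
  have hpf : (w ^ p) a = a := pow_p_fix hP hw O hO hO1 hO2 ha hwa a ha
  have hc : Nat.Coprime p i.natAbs :=
    (Nat.Prime.coprime_iff_not_dvd hpp.out).2 (fun h => hi (Int.natCast_dvd.2 h))
  have hg : Int.gcd i (p : ℤ) = 1 := by
    rw [Int.gcd, Int.natAbs_natCast]
    exact hc.symm
  have hst := Int.gcd_eq_gcd_ab i (p : ℤ)
  rw [hg] at hst
  set s := Int.gcdA i (p : ℤ)
  set t := Int.gcdB i (p : ℤ)
  have h1 : w = (w ^ i) ^ s * (w ^ (p : ℤ)) ^ t := by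
    rw [← zpow_mul, ← zpow_mul, ← zpow_add, ← hst]
    simp
  have h2 : ((w ^ (p : ℤ)) ^ t) a = a := by
    apply Perm.zpow_apply_eq_self_of_apply_eq_self
    rw [zpow_natCast]
    exact hpf
  have h3 : ((w ^ i) ^ s) a = a := Perm.zpow_apply_eq_self_of_apply_eq_self hfix s
  apply hwa
  conv_lhs => rw [h1]
  rw [Perm.mul_apply, h2, h3]

/-- Permutations agreeing on an invariant set: powers agree. -/
theorem agree_zpow {f g : Perm α} {O : Set α} (hf : ∀ b, b ∈ O ↔ f b ∈ O)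
    (h : ∀ b ∈ O, f b = g b) (j : ℤ) : ∀ b ∈ O, (f ^ j) b = (g ^ j) b := by
  have hf' : ∀ b ∈ O, f⁻¹ b ∈ O := by
    intro b hb
    rw [hf]
    simpa using hb
  have hinv : ∀ b ∈ O, f⁻¹ b = g⁻¹ b := by
    intro b hb
    rw [Perm.eq_inv_iff_eq, ← h _ (hf' b hb)]
    simp
  induction j using Int.induction_on with
  | zero => intro b _; simp
  | succ i ih =>
    intro b hb
    have e1 : f ^ ((i : ℤ) + 1) = f ^ (i : ℤ) * f := by rw [zpow_add, zpow_one]
    have e2 : g ^ ((i : ℤ) + 1) = g ^ (i : ℤ) * g := by rw [zpow_add, zpow_one]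
    rw [e1, e2, Perm.mul_apply, Perm.mul_apply, ← h b hb]
    exact ih _ ((hf b).1 hb)
  | pred i ih =>
    intro b hb
    have e1 : f ^ (-(i : ℤ) - 1) = f ^ (-(i : ℤ)) * f⁻¹ := by
      rw [sub_eq_add_neg, zpow_add, zpow_neg_one]
    have e2 : g ^ (-(i : ℤ) - 1) = g ^ (-(i : ℤ)) * g⁻¹ := by
      rw [sub_eq_add_neg, zpow_add, zpow_neg_one]
    rw [e1, e2, Perm.mul_apply, Perm.mul_apply, ← hinv b hb]
    exact ih _ (hf' b hb)

/-- The structure of `P` on an invariant `p`-set on which it is transitive. -/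
theorem exists_gen (hP : IsPGroup p P) (O : Set α) (hO : O.ncard = p)
    (hinv : ∀ w ∈ P, ∀ b, b ∈ O ↔ w b ∈ O) (htr : ∀ b ∈ O, ∀ c ∈ O, ∃ w ∈ P, w b = c) :
    ∃ w₀ ∈ P, ∃ a ∈ O, w₀ a ≠ a ∧ ∀ w ∈ P, ∃ j : ℤ, ∀ b ∈ O, w b = (w₀ ^ j) b := by
  classical
  have hp1 := (hpp.out).one_lt
  obtain ⟨a, ha, a', ha', hne⟩ := (Set.one_lt_ncard (Set.toFinite O)).1 (by omega)
  obtain ⟨w₀, hw₀, hw₀a⟩ := htr a ha a' ha'
  have hw₀ne : w₀ a ≠ a := by rw [hw₀a]; exact hne.symm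
  have hO1 : ∀ b ∈ O, w₀ b ∈ O := fun b hb => (hinv w₀ hw₀ b).1 hb
  have hO2 : ∀ b ∈ O, w₀⁻¹ b ∈ O := fun b hb => by
    rw [hinv w₀ hw₀]
    simpa using hb
  refine ⟨w₀, hw₀, a, ha, hw₀ne, fun w hw => ?_⟩
  obtain ⟨j, hj⟩ := zpow_transitive hP hw₀ O hO hO1 hO2 ha hw₀ne (w a) ((hinv w hw a).1 ha)
  refine ⟨j, fun b hb => ?_⟩
  -- `w' = w₀^{-j} w` fixes `a`, hence all of `O`
  let w' : Perm α := (w₀ ^ j)⁻¹ * w
  have hw' : w' ∈ P := P.mul_mem (P.inv_mem (P.zpow_mem hw₀ j)) hw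
  have hw'a : w' a = a := by
    simp only [w', Perm.mul_apply]
    rw [← hj]
    simp
  have hw'inv : ∀ c, c ∈ O ↔ w' c ∈ O := hinv w' hw'
  by_cases hba : b = a
  · rw [hba, hj]
  · let Z : Set α := O \ {a}
    have hZc : Z.ncard < p := by
      have h3 : Z.ncard + 1 = O.ncard := Set.ncard_sdiff_singleton_add_one ha (Set.toFinite O)
      omega
    have hfix := fix_of_small hP hw' Z (by
      rintro c ⟨hc, hca⟩
      refine ⟨(hw'inv c).1 hc, fun h => hca ?_⟩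
      have h1 : w' c = w' a := by rw [hw'a]; exact h
      exact w'.injective h1) (by
      rintro c ⟨hc, hca⟩
      refine ⟨?_, fun h => hca ?_⟩
      · rw [hw'inv]
        simpa using hc
      · have h1 : w'⁻¹ c = a := h
        rw [Perm.inv_eq_iff_eq] at h1
        rw [h1, hw'a]
        exact rfl) hZc b ⟨hb, hba⟩
    have h2 : (w₀ ^ j)⁻¹ (w b) = b := hfix
    rw [Perm.inv_eq_iff_eq] at h2
    exact h2

/-- An element preserving the orbit and normalising `P` acts by a power map on the orbit. -/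
theorem exists_multiplier (hP : IsPGroup p P) (O : Set α) (hO : O.ncard = p)
    (hinv : ∀ w ∈ P, ∀ b, b ∈ O ↔ w b ∈ O) (htr : ∀ b ∈ O, ∀ c ∈ O, ∃ w ∈ P, w b = c)
    {x : Perm α} (hxn : x ∈ Subgroup.normalizer (P : Set (Perm α))) (hxO : ∀ b, b ∈ O ↔ x b ∈ O) :
    ∃ m : ℤ, ∀ w ∈ P, ∀ b ∈ O, (x * w * x⁻¹) b = (w ^ m) b := by
  obtain ⟨w₀, hw₀, a, ha, hne, hgen⟩ := exists_gen hP O hO hinv htr
  have hconj : x * w₀ * x⁻¹ ∈ P := (Subgroup.mem_normalizer_iff.1 hxn w₀).1 hw₀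
  obtain ⟨m, hm⟩ := hgen _ hconj
  refine ⟨m, fun w hw b hb => ?_⟩
  obtain ⟨j, hj⟩ := hgen w hw
  have hx' : ∀ c ∈ O, x⁻¹ c ∈ O := fun c hc => by
    rw [hxO]
    simpa using hc
  have hw₀O : ∀ c, c ∈ O ↔ w₀ c ∈ O := hinv w₀ hw₀
  have hw₀jO : ∀ c, c ∈ O ↔ (w₀ ^ j) c ∈ O := hinv _ (P.zpow_mem hw₀ j)
  -- left side
  have h1 : (x * w * x⁻¹) b = ((x * w₀ * x⁻¹) ^ j) b := by
    rw [conj_zpow]
    simp only [Perm.mul_apply]
    rw [hj _ (hx' b hb)]
  have h2 : ((x * w₀ * x⁻¹) ^ j) b = (((w₀ ^ m) ^ j)) b :=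
    agree_zpow (hinv _ hconj) hm j b hb
  have h3 : ((w₀ ^ m) ^ j) = (w₀ ^ j) ^ m := by
    rw [← zpow_mul, ← zpow_mul, mul_comm]
  have h4 : ((w₀ ^ j) ^ m) b = (w ^ m) b :=
    (agree_zpow hw₀jO (fun c hc => (hj c hc).symm) m b hb)
  rw [h1, h2, h3, h4]

/-- The `p`-th power of a permutation commuting on an orbit with `P` is trivial on it. -/
theorem pow_eq_of_commute (hP : IsPGroup p P) (O : Set α) (hO : O.ncard = p)
    (hinv : ∀ w ∈ P, ∀ b, b ∈ O ↔ w b ∈ O) (htr : ∀ b ∈ O, ∀ c ∈ O, ∃ w ∈ P, w b = c)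
    {u : Perm α} (huO : ∀ b, b ∈ O ↔ u b ∈ O)
    (hcomm : ∀ w ∈ P, ∀ b ∈ O, u (w b) = w (u b)) :
    ∀ b ∈ O, (u ^ p) b = b := by
  obtain ⟨w₀, hw₀, a, ha, hne, hgen⟩ := exists_gen hP O hO hinv htr
  have hO1 : ∀ b ∈ O, w₀ b ∈ O := fun b hb => (hinv w₀ hw₀ b).1 hb
  have hO2 : ∀ b ∈ O, w₀⁻¹ b ∈ O := fun b hb => by
    rw [hinv w₀ hw₀]
    simpa using hb
  have htr' := zpow_transitive hP hw₀ O hO hO1 hO2 ha hne
  obtain ⟨j, hj⟩ := htr' (u a) ((huO a).1 ha)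
  -- `u` acts on `O` as `w₀ ^ j`
  have hu : ∀ b ∈ O, u b = (w₀ ^ j) b := by
    intro b hb
    obtain ⟨i, rfl⟩ := htr' b hb
    have hwi : w₀ ^ i ∈ P := P.zpow_mem hw₀ i
    rw [hcomm _ hwi a ha, ← hj]
    have : w₀ ^ j * w₀ ^ i = w₀ ^ i * w₀ ^ j := (Commute.refl w₀).zpow_zpow j i
    exact (DFunLike.congr_fun this a).symm
  -- and so
  intro b hb
  have h1 : (u ^ (p : ℤ)) b = ((w₀ ^ j) ^ (p : ℤ)) b := agree_zpow huO hu p b hb
  rw [zpow_natCast] at h1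
  rw [h1]
  have h2 : ((w₀ ^ j) ^ (p : ℤ)) = (w₀ ^ p) ^ j := by
    rw [← zpow_mul, ← zpow_natCast, ← zpow_mul, mul_comm]
  rw [h2]
  exact Perm.zpow_apply_eq_self_of_apply_eq_self (pow_p_fix hP hw₀ O hO hO1 hO2 ha hne b hb) j

/-- The `p`-th power of a commutator of elements preserving the orbit and normalising `P`
is trivial on it. -/
theorem commutator_pow (hP : IsPGroup p P) (O : Set α) (hO : O.ncard = p)
    (hinv : ∀ w ∈ P, ∀ b, b ∈ O ↔ w b ∈ O) (htr : ∀ b ∈ O, ∀ c ∈ O, ∃ w ∈ P, w b = c)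
    {x y : Perm α} (hxn : x ∈ Subgroup.normalizer (P : Set (Perm α))) (hxO : ∀ b, b ∈ O ↔ x b ∈ O)
    (hyn : y ∈ Subgroup.normalizer (P : Set (Perm α))) (hyO : ∀ b, b ∈ O ↔ y b ∈ O) :
    ∀ b ∈ O, ((x⁻¹ * y⁻¹ * x * y) ^ p) b = b := by
  obtain ⟨m, hm⟩ := exists_multiplier hP O hO hinv htr hxn hxO
  obtain ⟨n, hn⟩ := exists_multiplier hP O hO hinv htr hyn hyO
  have hxi : ∀ c ∈ O, x⁻¹ c ∈ O := fun c hc => by
    rw [hxO]
    simpa using hc
  have hyi : ∀ c ∈ O, y⁻¹ c ∈ O := fun c hc => by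
    rw [hyO]
    simpa using hc
  have hxi' : ∀ c, c ∈ O ↔ x⁻¹ c ∈ O := fun c =>
    ⟨hxi c, fun h => by simpa using (hxO _).1 h⟩
  have hyi' : ∀ c, c ∈ O ↔ y⁻¹ c ∈ O := fun c =>
    ⟨hyi c, fun h => by simpa using (hyO _).1 h⟩
  -- conjugation by `x y` and `y x` agree on `P`
  have hconj : ∀ w ∈ P, ∀ b ∈ O, ((x * y) * w * (x * y)⁻¹) b = ((y * x) * w * (y * x)⁻¹) b := by
    intro w hw b hb
    have h1 : ((x * y) * w * (x * y)⁻¹) b = (x * (y * w * y⁻¹) * x⁻¹) b := by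
      have e : (x * y) * w * (x * y)⁻¹ = x * (y * w * y⁻¹) * x⁻¹ := by group
      rw [e]
    have h2 : ((y * x) * w * (y * x)⁻¹) b = (y * (x * w * x⁻¹) * y⁻¹) b := by
      have e : (y * x) * w * (y * x)⁻¹ = y * (x * w * x⁻¹) * y⁻¹ := by group
      rw [e]
    have hyw : y * w * y⁻¹ ∈ P := (Subgroup.mem_normalizer_iff.1 hyn w).1 hw
    have hxw : x * w * x⁻¹ ∈ P := (Subgroup.mem_normalizer_iff.1 hxn w).1 hw
    rw [h1, h2, hm _ hyw b hb, hn _ hxw b hb]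
    -- both are `w ^ (m * n)`
    have h3 : ((y * w * y⁻¹) ^ m) b = ((w ^ n) ^ m) b :=
      agree_zpow (hinv _ hyw) (hn w hw) m b hb
    have h4 : ((x * w * x⁻¹) ^ n) b = ((w ^ m) ^ n) b :=
      agree_zpow (hinv _ hxw) (hm w hw) n b hb
    rw [h3, h4, ← zpow_mul, ← zpow_mul, mul_comm]
  have hxyO : ∀ c, c ∈ O ↔ (x * y) c ∈ O := fun c => by
    simp only [Perm.mul_apply]
    rw [← hxO, ← hyO]
  have hyxO : ∀ c, c ∈ O ↔ (y * x) c ∈ O := fun c => by
    simp only [Perm.mul_apply]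
    rw [← hyO, ← hxO]
  have huO : ∀ c, c ∈ O ↔ (x⁻¹ * y⁻¹ * x * y) c ∈ O := fun c => by
    simp only [Perm.mul_apply]
    rw [← hxi', ← hyi', ← hxO, ← hyO]
  refine pow_eq_of_commute hP O hO hinv htr huO ?_
  intro w hw b hb
  -- `u = (y x)⁻¹ (x y)`
  have hu : x⁻¹ * y⁻¹ * x * y = (y * x)⁻¹ * (x * y) := by group
  rw [hu]
  have hb' : (x * y) b ∈ O := (hxyO b).1 hb
  have h1 := hconj w hw _ hb'
  have h2 : (x * y * w * (x * y)⁻¹) ((x * y) b) = (x * y) (w b) := by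
    simp [Perm.mul_apply]
  rw [h2] at h1
  have h3 : ((y * x) * w * (y * x)⁻¹) ((x * y) b) = (y * x) (w ((y * x)⁻¹ ((x * y) b))) := rfl
  rw [h3] at h1
  simp only [Perm.mul_apply]
  have h4 : (y * x)⁻¹ ((x * y) (w b)) = w ((y * x)⁻¹ ((x * y) b)) := by
    rw [Perm.inv_eq_iff_eq, h1]
  simpa [Perm.mul_apply] using h4

end Cfsg.Agent.Lib.Perm.LocalOrbit
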