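import Cfsg.Agent.Lib.Perm.Normal
import Mathlib.GroupTheory.Subgroup.Centralizer

/-!
# Minimal normal subgroups of permutation groups

Abelian transitive minimal normal subgroups (S0703), two transitive minimal normal subgroups (S0704).
-/

set_option autoImplicit false

open MulAction
open scoped Pointwise

namespace Cfsg.Agent.Lib.Perm.MinNormal

variable {α : Type*}

/-- An element of `Sym(α)` commuting with a transitive subgroup and fixing a point is trivial. -/
theorem eq_one_of_commute_transitive {T : Subgroup (Equiv.Perm α)}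
    (htr : ∀ a b : α, ∃ t ∈ T, t a = b) {c : Equiv.Perm α}
    (hc : ∀ t ∈ T, c * t = t * c) {a : α} (hca : c a = a) : c = 1 := by
  ext b
  obtain ⟨t, ht, rfl⟩ := htr a b
  have := congrArg (fun σ : Equiv.Perm α => σ a) (hc t ht)
  simp only [Equiv.Perm.coe_mul, Function.comp_apply, hca] at this
  simpa using this

/-- The centralizer of a transitive subgroup contained in a transitive subgroup `S` commuting with
it: `C(T) = S`. -/
theorem centralizer_eq_of_commute {T S : Subgroup (Equiv.Perm α)}
    (hT : ∀ a b : α, ∃ t ∈ T, t a = b) (hS : ∀ a b : α, ∃ s ∈ S, s a = b)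
    (hcomm : ∀ t ∈ T, ∀ s ∈ S, t * s = s * t) :
    Subgroup.centralizer (T : Set (Equiv.Perm α)) = S := by
  apply le_antisymm
  · intro c hc
    rw [Subgroup.mem_centralizer_iff] at hc
    by_cases hne : Nonempty α
    · obtain ⟨a⟩ := hne
      obtain ⟨s, hs, hsa⟩ := hS a (c a)
      have h1 : s⁻¹ * c = 1 := by
        apply eq_one_of_commute_transitive hT (a := a)
        · intro t ht
          have h2 := hc t ht
          have h3 := hcomm t ht s hs
          have h4 : s⁻¹ * t = t * s⁻¹ := by
            rw [inv_mul_eq_iff_eq_mul, ← mul_assoc, ← h3, mul_assoc, mul_inv_cancel, mul_one]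
          rw [mul_assoc, ← h2, ← mul_assoc, h4, mul_assoc]
        · simp [← hsa]
      have : c = s := by
        rw [inv_mul_eq_one] at h1
        exact h1.symm
      rw [this]
      exact hs
    · have hsub : Subsingleton (Equiv.Perm α) := by
        haveI : IsEmpty α := not_nonempty_iff.mp hne
        infer_instance
      rw [Subsingleton.elim c 1]
      exact S.one_mem
  · intro s hs
    rw [Subgroup.mem_centralizer_iff]
    intro t ht
    exact hcomm t ht s hs

variable (G : Subgroup (Equiv.Perm α))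

/-- Two minimal normal subgroups that are different intersect trivially and commute. -/
theorem commute_of_min_normal (M N : Subgroup G) [hM : M.Normal] [hN : N.Normal]
    (hMmin : ∀ L : Subgroup G, L.Normal → L ≤ M → L = ⊥ ∨ L = M)
    (hNmin : ∀ L : Subgroup G, L.Normal → L ≤ N → L = ⊥ ∨ L = N)
    (hMN : M ≠ N) : M ⊓ N = ⊥ ∧ ∀ m ∈ M, ∀ n ∈ N, m * n = n * m := by
  have hinf : M ⊓ N = ⊥ := by
    have hnor : (M ⊓ N).Normal := inferInstance
    rcases hMmin _ hnor inf_le_left with h | h
    · exact h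
    · rcases hNmin _ hnor inf_le_right with h' | h'
      · exact h'
      · exfalso
        apply hMN
        rw [← h, h']
  refine ⟨hinf, fun m hm n hn => ?_⟩
  have hc : m * n * m⁻¹ * n⁻¹ ∈ M ⊓ N := by
    constructor
    · have := M.mul_mem hm (hM.conj_mem m⁻¹ (M.inv_mem hm) n)
      simpa [mul_assoc] using this
    · have := N.mul_mem (hN.conj_mem n hn m) (N.inv_mem hn)
      simpa [mul_assoc] using this
  rw [hinf, Subgroup.mem_bot] at hc
  have h2 : m * n * m⁻¹ = n := by
    rwa [mul_inv_eq_one] at hc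
  rwa [mul_inv_eq_iff_eq_mul] at h2

/-- Transitivity of the image. -/
theorem trans_map {M : Subgroup G} (htrans : IsPretransitive M α) (a b : α) :
    ∃ t ∈ M.map G.subtype, t a = b := by
  obtain ⟨m, hm⟩ := htrans.exists_smul_eq a b
  exact ⟨((m : G) : Equiv.Perm α), ⟨m, m.2, rfl⟩, hm⟩

/-- S0703: abelian transitive minimal normal subgroups. -/
theorem abelian_transitive_minimal_normal [Finite α] (M : Subgroup G) [hMn : M.Normal]
    (hM : M ≠ ⊥)
    (hmin : ∀ L : Subgroup G, L.Normal → L ≤ M → L = ⊥ ∨ L = M)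
    (hab : IsMulCommutative M) (htrans : IsPretransitive M α) :
    Subgroup.centralizer ((M.map G.subtype : Subgroup (Equiv.Perm α)) : Set (Equiv.Perm α)) =
        M.map G.subtype ∧
      (∀ a : α, stabilizer M a = ⊥) ∧
      (∃ p : ℕ, p.Prime ∧ ∀ m ∈ M, m ^ p = 1) ∧
      ∀ L : Subgroup G, L.Normal → L ≠ ⊥ →
        (∀ L' : Subgroup G, L'.Normal → L' ≤ L → L' = ⊥ ∨ L' = L) → L = M := by
  classical
  have hcommG : ∀ x ∈ M, ∀ y ∈ M, x * y = y * x := by
    intro x hx y hy
    have := hab.is_comm.comm (⟨x, hx⟩ : M) ⟨y, hy⟩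
    exact congrArg Subtype.val this
  have htr := trans_map G htrans
  have hcommT : ∀ t ∈ M.map G.subtype, ∀ s ∈ M.map G.subtype, t * s = s * t := by
    rintro _ ⟨x, hx, rfl⟩ _ ⟨y, hy, rfl⟩
    have := hcommG x hx y hy
    exact congrArg Subtype.val this
  have hcent := centralizer_eq_of_commute htr htr hcommT
  have hreg : ∀ a : α, stabilizer M a = ⊥ := by
    intro a
    rw [Subgroup.eq_bot_iff_forall]
    intro m hm
    have h1 : ((m : G) : Equiv.Perm α) = 1 := by
      apply eq_one_of_commute_transitive htr (a := a)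
      · intro t ht
        exact hcommT _ ⟨m, m.2, rfl⟩ t ht
      · exact hm
    apply Subtype.ext
    apply Subtype.ext
    exact h1
  refine ⟨hcent, hreg, ?_, ?_⟩
  · -- the subgroup of elements of order dividing `p`
    have hne : Nonempty α := by
      by_contra hne
      haveI : IsEmpty α := not_nonempty_iff.mp hne
      apply hM
      rw [Subgroup.eq_bot_iff_forall]
      intro x _
      apply Subtype.ext
      exact Subsingleton.elim _ _
    haveI hfin : Finite M := Cfsg.Agent.Lib.Perm.Regular.finite_of_regular hreg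
    have hnt : Nontrivial M := (Subgroup.nontrivial_iff_ne_bot M).mpr hM
    obtain ⟨p, hp, hpd⟩ := Nat.exists_prime_and_dvd (Finite.one_lt_card (α := M)).ne'
    haveI : Fact p.Prime := ⟨hp⟩
    obtain ⟨z, hz⟩ := exists_prime_orderOf_dvd_card' p hpd
    let Mp : Subgroup G :=
      { carrier := {x | x ∈ M ∧ x ^ p = 1}
        mul_mem' := by
          rintro x y ⟨hx, hx1⟩ ⟨hy, hy1⟩
          refine ⟨M.mul_mem hx hy, ?_⟩
          have hcm : Commute x y := hcommG x hx y hy
          rw [hcm.mul_pow, hx1, hy1, one_mul]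
        one_mem' := ⟨M.one_mem, one_pow _⟩
        inv_mem' := by
          rintro x ⟨hx, hx1⟩
          exact ⟨M.inv_mem hx, by rw [inv_pow, hx1, inv_one]⟩ }
    have hMpn : Mp.Normal := by
      constructor
      rintro x ⟨hx, hx1⟩ g
      refine ⟨hMn.conj_mem x hx g, ?_⟩
      rw [conj_pow, hx1]
      simp
    rcases hmin Mp hMpn (fun x hx => hx.1) with h | h
    · exfalso
      have hzm : (z : G) ∈ Mp := by
        refine ⟨z.2, ?_⟩
        have : z ^ p = 1 := hz ▸ pow_orderOf_eq_one z
        simpa using congrArg Subtype.val this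
      rw [h, Subgroup.mem_bot] at hzm
      have hz1 : z = 1 := Subtype.ext hzm
      rw [hz1, orderOf_one] at hz
      exact hp.one_lt.ne hz
    · refine ⟨p, hp, fun m hm => ?_⟩
      rw [← h] at hm
      exact hm.2
  · intro L hLn hL hLmin
    by_contra hne
    obtain ⟨hinf, hcomm⟩ := commute_of_min_normal G L M hLmin hmin hne
    apply hL
    rw [eq_bot_iff]
    intro x hx
    rw [← hinf]
    refine ⟨hx, ?_⟩
    have hxc : (x : Equiv.Perm α) ∈
        Subgroup.centralizer ((M.map G.subtype : Subgroup (Equiv.Perm α)) : Set (Equiv.Perm α)) := by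
      rw [Subgroup.mem_centralizer_iff]
      rintro _ ⟨y, hy, rfl⟩
      have := hcomm x hx y hy
      exact (congrArg Subtype.val this).symm
    rw [hcent] at hxc
    obtain ⟨y, hy, hyx⟩ := hxc
    have : y = x := Subtype.ext hyx
    exact this ▸ hy

/-- S0704: two transitive minimal normal subgroups. -/
theorem two_transitive_minimal_normal (M N : Subgroup G) [hMn : M.Normal] [hNn : N.Normal]
    (hM : M ≠ ⊥) (hN : N ≠ ⊥)
    (hMmin : ∀ L : Subgroup G, L.Normal → L ≤ M → L = ⊥ ∨ L = M)
    (hNmin : ∀ L : Subgroup G, L.Normal → L ≤ N → L = ⊥ ∨ L = N)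
    (hMN : M ≠ N) (hMt : IsPretransitive M α) (hNt : IsPretransitive N α) :
    (∀ a : α, stabilizer M a = ⊥) ∧ (∀ a : α, stabilizer N a = ⊥) ∧ ¬ IsMulCommutative M ∧
      Nonempty (M ≃* N) ∧
      Subgroup.centralizer ((M.map G.subtype : Subgroup (Equiv.Perm α)) : Set (Equiv.Perm α)) =
        N.map G.subtype ∧
      Subgroup.centralizer ((N.map G.subtype : Subgroup (Equiv.Perm α)) : Set (Equiv.Perm α)) =
        M.map G.subtype ∧
      ∀ L : Subgroup G, L.Normal → L ≠ ⊥ →
        (∀ L' : Subgroup G, L'.Normal → L' ≤ L → L' = ⊥ ∨ L' = L) → L = M ∨ L = N := by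
  classical
  obtain ⟨hinf, hcomm⟩ := commute_of_min_normal G M N hMmin hNmin hMN
  have htM := trans_map G hMt
  have htN := trans_map G hNt
  have hcommT : ∀ t ∈ M.map G.subtype, ∀ s ∈ N.map G.subtype, t * s = s * t := by
    rintro _ ⟨x, hx, rfl⟩ _ ⟨y, hy, rfl⟩
    have := hcomm x hx y hy
    exact congrArg Subtype.val this
  have hcommT' : ∀ t ∈ N.map G.subtype, ∀ s ∈ M.map G.subtype, t * s = s * t := by
    intro t ht s hs
    exact (hcommT s hs t ht).symm
  have hCM := centralizer_eq_of_commute htM htN hcommT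
  have hCN := centralizer_eq_of_commute htN htM hcommT'
  have hregM : ∀ a : α, stabilizer M a = ⊥ := by
    intro a
    rw [Subgroup.eq_bot_iff_forall]
    intro m hm
    have h1 : ((m : G) : Equiv.Perm α) = 1 := by
      apply eq_one_of_commute_transitive htN (a := a)
      · intro t ht
        exact hcommT _ ⟨m, m.2, rfl⟩ t ht
      · exact hm
    apply Subtype.ext
    apply Subtype.ext
    exact h1
  have hregN : ∀ a : α, stabilizer N a = ⊥ := by
    intro a
    rw [Subgroup.eq_bot_iff_forall]
    intro m hm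
    have h1 : ((m : G) : Equiv.Perm α) = 1 := by
      apply eq_one_of_commute_transitive htM (a := a)
      · intro t ht
        exact hcommT' _ ⟨m, m.2, rfl⟩ t ht
      · exact hm
    apply Subtype.ext
    apply Subtype.ext
    exact h1
  have hne : Nonempty α := by
    by_contra hne
    haveI : IsEmpty α := not_nonempty_iff.mp hne
    apply hM
    rw [Subgroup.eq_bot_iff_forall]
    intro x _
    apply Subtype.ext
    exact Subsingleton.elim _ _
  obtain ⟨a⟩ := hne
  have hmemN : ∀ x : G, (x : Equiv.Perm α) ∈ N.map G.subtype → x ∈ N := by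
    rintro x ⟨y, hy, hyx⟩
    have : y = x := Subtype.ext hyx
    exact this ▸ hy
  have hmemM : ∀ x : G, (x : Equiv.Perm α) ∈ M.map G.subtype → x ∈ M := by
    rintro x ⟨y, hy, hyx⟩
    have : y = x := Subtype.ext hyx
    exact this ▸ hy
  refine ⟨hregM, hregN, ?_, ?_, hCM, hCN, ?_⟩
  · intro hab
    -- `N ≤ M`
    have hcommMM : ∀ t ∈ M.map G.subtype, ∀ s ∈ M.map G.subtype, t * s = s * t := by
      rintro _ ⟨x, hx, rfl⟩ _ ⟨y, hy, rfl⟩
      have := hab.is_comm.comm (⟨x, hx⟩ : M) ⟨y, hy⟩
      exact congrArg (fun z : M => ((z : G) : Equiv.Perm α)) this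
    have h1 := centralizer_eq_of_commute htM htM hcommMM
    rw [h1] at hCM
    apply hN
    rw [eq_bot_iff]
    intro x hx
    rw [← hinf]
    refine ⟨?_, hx⟩
    apply hmemM
    rw [hCM]
    exact ⟨x, hx, rfl⟩
  · -- the isomorphism
    have hbijM : Function.Bijective (fun m : M => (m : G) • a) := by
      refine ⟨fun p q h => Subtype.ext
        (Cfsg.Agent.Lib.Perm.Regular.eq_of_smul_eq hregM (x := a) p.2 q.2 h), fun y => ?_⟩
      obtain ⟨n, hn⟩ := hMt.exists_smul_eq a y
      exact ⟨n, hn⟩
    have hbijN : Function.Bijective (fun m : N => (m : G) • a) := by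
      refine ⟨fun p q h => Subtype.ext
        (Cfsg.Agent.Lib.Perm.Regular.eq_of_smul_eq hregN (x := a) p.2 q.2 h), fun y => ?_⟩
      obtain ⟨n, hn⟩ := hNt.exists_smul_eq a y
      exact ⟨n, hn⟩
    let e : M ≃ N := (Equiv.ofBijective _ hbijM).trans (Equiv.ofBijective _ hbijN).symm
    have he : ∀ m : M, ((e m : N) : G) • a = (m : G) • a := by
      intro m
      have : (Equiv.ofBijective _ hbijN) (e m) = (Equiv.ofBijective _ hbijM) m := by
        simp [e]
      exact this
    have hemul : ∀ x y : M, e (x * y) = e y * e x := by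
      intro x y
      apply hbijN.1
      change ((e (x * y) : N) : G) • a = ((e y * e x : N) : G) • a
      rw [he]
      have h1 : ((e y * e x : N) : G) • a = ((e y : N) : G) • (((e x : N) : G) • a) := mul_smul _ _ _
      rw [h1, he]
      have h2 : ((x * y : M) : G) • a = (x : G) • ((y : G) • a) := mul_smul _ _ _
      rw [h2, ← he y, ← mul_smul, ← mul_smul, hcomm (x : G) x.2 _ (e y).2]
    refine ⟨⟨e.trans (Equiv.inv N), ?_⟩⟩
    intro x y
    change (e (x * y))⁻¹ = (e x)⁻¹ * (e y)⁻¹
    rw [hemul, mul_inv_rev]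
  · intro L hLn hL hLmin
    by_contra hcon
    push Not at hcon
    obtain ⟨hLM, hLN⟩ := hcon
    obtain ⟨hinf1, hcomm1⟩ := commute_of_min_normal G L M hLmin hMmin hLM
    apply hL
    rw [eq_bot_iff]
    intro x hx
    rw [← hinf1]
    refine ⟨hx, ?_⟩
    have hxc : (x : Equiv.Perm α) ∈
        Subgroup.centralizer ((N.map G.subtype : Subgroup (Equiv.Perm α)) : Set (Equiv.Perm α)) := by
      obtain ⟨_, hcomm2⟩ := commute_of_min_normal G L N hLmin hNmin hLN
      rw [Subgroup.mem_centralizer_iff]
      rintro _ ⟨y, hy, rfl⟩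
      have := hcomm2 x hx y hy
      exact (congrArg Subtype.val this).symm
    rw [hCN] at hxc
    exact hmemM x hxc

end Cfsg.Agent.Lib.Perm.MinNormal
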