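import Cfsg.Agent.Lib.Perm.LWCore

/-!
# Classification of the possible parameters of near-sharp groups
-/

set_option autoImplicit false
set_option linter.unusedSectionVars false

open MulAction Equiv

namespace Cfsg.Agent.Lib.Perm.NSClassify

open Cfsg.Agent.Lib.Perm Cfsg.Agent.Lib.Perm.Basic Cfsg.Agent.Lib.Perm.Tits
  Cfsg.Agent.Lib.Perm.LWCore

variable {α : Type*} [Fintype α] [DecidableEq α] {G : Subgroup (Perm α)} {t : ℕ}

/-- The pointwise stabiliser of `Z` -/
abbrev MZ (G : Subgroup (Perm α)) (Z : Finset α) := ↥(fixingSubgroup G (Z : Set α))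

/-- The points off `Z` -/
abbrev OZ (G : Subgroup (Perm α)) (Z : Finset α) :=
  ↥(SubMulAction.ofFixingSubgroup G (Z : Set α))

theorem card_OZ (Z : Finset α) : Nat.card (OZ G Z) = Fintype.card α - Z.card := by
  have e : OZ G Z ≃ ↥(Zᶜ : Finset α) :=
    ⟨fun x => ⟨x.1, Finset.mem_compl.2 (fun h => x.2 (by exact_mod_cast h))⟩,
      fun x => ⟨x.1, fun h => (Finset.mem_compl.1 x.2) (by exact_mod_cast h)⟩, fun _ => rfl,
      fun _ => rfl⟩
  rw [Nat.card_congr e, Nat.card_eq_fintype_card, Fintype.card_coe, Finset.card_compl]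

theorem smul_val {Z : Finset α} (g : MZ G Z) (x : OZ G Z) :
    ((g • x : OZ G Z) : α) = ((g : G) : Perm α) (x : α) := rfl

theorem fix_val {Z : Finset α} (g : MZ G Z) {z : α} (hz : z ∈ Z) :
    ((g : G) : Perm α) z = z := by
  have := (mem_fixingSubgroup_iff G).1 g.2 z (by exact_mod_cast hz)
  exact this

theorem mem_MZ {Z : Finset α} {g : G} :
    g ∈ fixingSubgroup G (Z : Set α) ↔ ∀ z ∈ Z, (g : Perm α) z = z := by
  rw [mem_fixingSubgroup_iff]
  exact ⟨fun h z hz => h z (by exact_mod_cast hz), fun h z hz => h z (by exact_mod_cast hz)⟩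

/-- The stabiliser of `Z` is `4`-transitive with the rigidity property. -/
theorem tr4_of {Z : Finset α} (hG : IsMultiplyPretransitive G α (Z.card + 4)) :
    Tr4 (MZ G Z) (OZ G Z) := by
  refine ⟨?_⟩
  · intro a b c d a' b' c' d' h h'
    obtain ⟨hab, hac, had, hbc, hbd, hcd⟩ := h
    obtain ⟨hab', hac', had', hbc', hbd', hcd'⟩ := h'
    have v1 : a.1 ≠ b.1 := fun h => hab (Subtype.ext h)
    have v2 : a.1 ≠ c.1 := fun h => hac (Subtype.ext h)
    have v3 : a.1 ≠ d.1 := fun h => had (Subtype.ext h)
    have v4 : b.1 ≠ c.1 := fun h => hbc (Subtype.ext h)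
    have v5 : b.1 ≠ d.1 := fun h => hbd (Subtype.ext h)
    have v6 : c.1 ≠ d.1 := fun h => hcd (Subtype.ext h)
    have w1 : a'.1 ≠ b'.1 := fun h => hab' (Subtype.ext h)
    have w2 : a'.1 ≠ c'.1 := fun h => hac' (Subtype.ext h)
    have w3 : a'.1 ≠ d'.1 := fun h => had' (Subtype.ext h)
    have w4 : b'.1 ≠ c'.1 := fun h => hbc' (Subtype.ext h)
    have w5 : b'.1 ≠ d'.1 := fun h => hbd' (Subtype.ext h)
    have w6 : c'.1 ≠ d'.1 := fun h => hcd' (Subtype.ext h)
    let B : Finset α := {a.1, b.1, c.1, d.1}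
    have hB : B.card = 4 := by
      simp only [B]
      rw [Finset.card_insert_of_notMem (by simp [v1, v2, v3]),
        Finset.card_insert_of_notMem (by simp [v4, v5]), Finset.card_insert_of_notMem (by simp [v6]),
        Finset.card_singleton]
    let f : α → α := fun x => if x = a.1 then a'.1 else if x = b.1 then b'.1 else
      if x = c.1 then c'.1 else d'.1
    have fa : f a.1 = a'.1 := by simp [f]
    have fb : f b.1 = b'.1 := by simp [f, v1.symm]
    have fc : f c.1 = c'.1 := by simp [f, v2.symm, v4.symm]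
    have fd : f d.1 = d'.1 := by simp [f, v3.symm, v5.symm, v6.symm]
    have hf : Set.InjOn f B := by
      intro x hx y hy hxy
      simp only [B, Finset.coe_insert, Finset.coe_singleton, Set.mem_insert_iff,
        Set.mem_singleton_iff] at hx hy
      rcases hx with rfl | rfl | rfl | rfl <;> rcases hy with rfl | rfl | rfl | rfl <;>
        first
          | rfl
          | (exfalso; simp only [fa, fb, fc, fd] at hxy;
             first
              | exact w1 hxy | exact w2 hxy | exact w3 hxy | exact w4 hxy | exact w5 hxy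
              | exact w6 hxy | exact w1 hxy.symm | exact w2 hxy.symm | exact w3 hxy.symm
              | exact w4 hxy.symm | exact w5 hxy.symm | exact w6 hxy.symm)
    have hZB : Disjoint Z B := by
      rw [Finset.disjoint_right]
      intro x hx
      simp only [B, Finset.mem_insert, Finset.mem_singleton] at hx
      rcases hx with rfl | rfl | rfl | rfl
      · exact fun h => a.2 (by exact_mod_cast h)
      · exact fun h => b.2 (by exact_mod_cast h)
      · exact fun h => c.2 (by exact_mod_cast h)
      · exact fun h => d.2 (by exact_mod_cast h)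
    have hfZ : ∀ x ∈ B, f x ∉ Z := by
      intro x hx
      simp only [B, Finset.mem_insert, Finset.mem_singleton] at hx
      rcases hx with rfl | rfl | rfl | rfl
      · rw [fa]; exact fun h => a'.2 (by exact_mod_cast h)
      · rw [fb]; exact fun h => b'.2 (by exact_mod_cast h)
      · rw [fc]; exact fun h => c'.2 (by exact_mod_cast h)
      · rw [fd]; exact fun h => d'.2 (by exact_mod_cast h)
    obtain ⟨g, hg1, hg2⟩ := exists_agree_rel hG B hB hZB f hf hfZ
    refine ⟨⟨g, mem_MZ.2 hg1⟩, Subtype.ext ?_, Subtype.ext ?_, Subtype.ext ?_, Subtype.ext ?_⟩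
    · rw [smul_val]; simpa [fa] using hg2 a.1 (by simp [B])
    · rw [smul_val]; simpa [fb] using hg2 b.1 (by simp [B])
    · rw [smul_val]; simpa [fc] using hg2 c.1 (by simp [B])
    · rw [smul_val]; simpa [fd] using hg2 d.1 (by simp [B])

/-- The stabiliser of `Z` is `4`-transitive with the rigidity property. -/
theorem ns4_of {Z : Finset α} (hG : IsMultiplyPretransitive G α (Z.card + 4))
    (hR : Rigid G (Z.card + 4)) : NS4 (MZ G Z) (OZ G Z) := by
  refine ⟨tr4_of hG, ?_⟩
  · intro g a b c d e h hea heb hec hed ha hb hc hd he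
    obtain ⟨hab, hac, had, hbc, hbd, hcd⟩ := h
    have v1 : a.1 ≠ b.1 := fun h => hab (Subtype.ext h)
    have v2 : a.1 ≠ c.1 := fun h => hac (Subtype.ext h)
    have v3 : a.1 ≠ d.1 := fun h => had (Subtype.ext h)
    have v4 : b.1 ≠ c.1 := fun h => hbc (Subtype.ext h)
    have v5 : b.1 ≠ d.1 := fun h => hbd (Subtype.ext h)
    have v6 : c.1 ≠ d.1 := fun h => hcd (Subtype.ext h)
    have u1 : e.1 ≠ a.1 := fun h => hea (Subtype.ext h)
    have u2 : e.1 ≠ b.1 := fun h => heb (Subtype.ext h)
    have u3 : e.1 ≠ c.1 := fun h => hec (Subtype.ext h)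
    have u4 : e.1 ≠ d.1 := fun h => hed (Subtype.ext h)
    have nz : ∀ x : OZ G Z, x.1 ∉ Z := fun x h => x.2 (by exact_mod_cast h)
    let s : Finset α := insert e.1 (insert a.1 (insert b.1 (insert c.1 (insert d.1 Z))))
    have hs : s.card = Z.card + 4 + 1 := by
      simp only [s]
      rw [Finset.card_insert_of_notMem (by simp [u1, u2, u3, u4, nz e]),
        Finset.card_insert_of_notMem (by simp [v1, v2, v3, nz a]),
        Finset.card_insert_of_notMem (by simp [v4, v5, nz b]),
        Finset.card_insert_of_notMem (by simp [v6, nz c]),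
        Finset.card_insert_of_notMem (nz d)]
    have hfix : ∀ x ∈ s, ((g : G) : Perm α) x = x := by
      intro x hx
      simp only [s, Finset.mem_insert] at hx
      rcases hx with rfl | rfl | rfl | rfl | rfl | hx
      · exact congrArg Subtype.val he
      · exact congrArg Subtype.val ha
      · exact congrArg Subtype.val hb
      · exact congrArg Subtype.val hc
      · exact congrArg Subtype.val hd
      · exact fix_val g hx
    have := hR s hs _ (g : G).2 hfix
    exact Subtype.ext (Subtype.ext this)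

/-- The order of the stabiliser of four further points. -/
theorem card_K4_eq {Z s : Finset α} (a b c d : OZ G Z)
    (hs : ∀ x, x ∈ s ↔ x ∈ Z ∨ x = a.1 ∨ x = b.1 ∨ x = c.1 ∨ x = d.1) :
    Nat.card (K4 (MZ G Z) a b c d) = hOrd G s := by
  refine Nat.card_congr ⟨fun u => ⟨u.1.1, ?_⟩, fun v => ⟨⟨v.1, ?_⟩, ?_⟩, fun _ => rfl, fun _ => rfl⟩
  · rw [mem_MZ]
    obtain ⟨h1, h2, h3, h4⟩ := mem_K4.1 u.2
    intro x hx
    rcases (hs x).1 hx with h | rfl | rfl | rfl | rfl
    · exact fix_val u.1 h
    · exact congrArg Subtype.val h1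
    · exact congrArg Subtype.val h2
    · exact congrArg Subtype.val h3
    · exact congrArg Subtype.val h4
  · rw [mem_MZ]
    intro z hz
    exact (mem_MZ.1 v.2) z ((hs z).2 (Or.inl hz))
  · refine mem_K4.2 ⟨Subtype.ext ?_, Subtype.ext ?_, Subtype.ext ?_, Subtype.ext ?_⟩
    · exact (mem_MZ.1 v.2) _ ((hs _).2 (by simp))
    · exact (mem_MZ.1 v.2) _ ((hs _).2 (by simp))
    · exact (mem_MZ.1 v.2) _ ((hs _).2 (by simp))
    · exact (mem_MZ.1 v.2) _ ((hs _).2 (by simp))

/-- The order of the stabiliser of two further points. -/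
theorem card_K2_eq {Z s : Finset α} (c d : OZ G Z)
    (hs : ∀ x, x ∈ s ↔ x ∈ Z ∨ x = c.1 ∨ x = d.1) :
    Nat.card (stabilizer (MZ G Z) c ⊓ stabilizer (MZ G Z) d : Subgroup (MZ G Z)) = hOrd G s := by
  refine Nat.card_congr ⟨fun u => ⟨u.1.1, ?_⟩, fun v => ⟨⟨v.1, ?_⟩, ?_⟩, fun _ => rfl, fun _ => rfl⟩
  · rw [mem_MZ]
    have h1 : u.1 • c = c := (Subgroup.mem_inf.1 u.2).1
    have h2 : u.1 • d = d := (Subgroup.mem_inf.1 u.2).2
    intro x hx
    rcases (hs x).1 hx with h | rfl | rfl
    · exact fix_val u.1 h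
    · exact congrArg Subtype.val h1
    · exact congrArg Subtype.val h2
  · rw [mem_MZ]
    intro z hz
    exact (mem_MZ.1 v.2) z ((hs z).2 (Or.inl hz))
  · refine Subgroup.mem_inf.2 ⟨mem_stabilizer_iff.2 (Subtype.ext ?_), mem_stabilizer_iff.2 (Subtype.ext ?_)⟩
    · exact (mem_MZ.1 v.2) _ ((hs _).2 (by simp))
    · exact (mem_MZ.1 v.2) _ ((hs _).2 (by simp))

/-- The bound in the case of even order. -/
theorem even_of {Z : Finset α} (hG : IsMultiplyPretransitive G α (Z.card + 2))
    (hR : Rigid G (Z.card + 2)) (c d : OZ G Z) (hcd : c ≠ d) {s : Finset α}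
    (hs : ∀ x, x ∈ s ↔ x ∈ Z ∨ x = c.1 ∨ x = d.1) (he : Even (hOrd G s)) :
    Fintype.card α - (Z.card + 2) ≤ 2 * hOrd G s := by
  classical
  have := Fintype.ofFinite (OZ G Z)
  have hb := NearSharp.even_bound (M := MZ G Z) (Ω := OZ G Z) (c := c) (d := d) ?_ ?_ hcd
    (by rw [card_K2_eq c d hs]; exact he)
  · rw [card_K2_eq c d hs, ← Nat.card_eq_fintype_card, card_OZ] at hb
    omega
  · intro a b a' b' hab hab'
    have v : a.1 ≠ b.1 := fun h => hab (Subtype.ext h)
    have w : a'.1 ≠ b'.1 := fun h => hab' (Subtype.ext h)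
    let B : Finset α := {a.1, b.1}
    let f : α → α := fun x => if x = a.1 then a'.1 else b'.1
    have fa : f a.1 = a'.1 := by simp [f]
    have fb : f b.1 = b'.1 := by simp [f, v.symm]
    have hf : Set.InjOn f B := by
      intro x hx y hy hxy
      simp only [B, Finset.coe_insert, Finset.coe_singleton, Set.mem_insert_iff,
        Set.mem_singleton_iff] at hx hy
      rcases hx with rfl | rfl <;> rcases hy with rfl | rfl <;>
        first
          | rfl
          | (exfalso; simp only [fa, fb] at hxy;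
             first
              | exact w hxy | exact w hxy.symm)
    have hZB : Disjoint Z B := by
      rw [Finset.disjoint_right]
      intro x hx
      simp only [B, Finset.mem_insert, Finset.mem_singleton] at hx
      rcases hx with rfl | rfl
      · exact fun h => a.2 (by exact_mod_cast h)
      · exact fun h => b.2 (by exact_mod_cast h)
    have hfZ : ∀ x ∈ B, f x ∉ Z := by
      intro x hx
      simp only [B, Finset.mem_insert, Finset.mem_singleton] at hx
      rcases hx with rfl | rfl
      · rw [fa]; exact fun h => a'.2 (by exact_mod_cast h)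
      · rw [fb]; exact fun h => b'.2 (by exact_mod_cast h)
    obtain ⟨g, hg1, hg2⟩ := exists_agree_rel hG B (Finset.card_pair v) hZB f hf hfZ
    refine ⟨⟨g, mem_MZ.2 hg1⟩, Subtype.ext ?_, Subtype.ext ?_⟩
    · rw [smul_val]; simpa [fa] using hg2 a.1 (by simp [B])
    · rw [smul_val]; simpa [fb] using hg2 b.1 (by simp [B])
  · intro g a b e hab hae hbe ha hb he
    have v1 : a.1 ≠ b.1 := fun h => hab (Subtype.ext h)
    have u1 : a.1 ≠ e.1 := fun h => hae (Subtype.ext h)
    have u2 : b.1 ≠ e.1 := fun h => hbe (Subtype.ext h)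
    have nz : ∀ x : OZ G Z, x.1 ∉ Z := fun x h => x.2 (by exact_mod_cast h)
    let s' : Finset α := insert a.1 (insert b.1 (insert e.1 Z))
    have hs' : s'.card = Z.card + 2 + 1 := by
      simp only [s']
      rw [Finset.card_insert_of_notMem (by simp [v1, u1, nz a]),
        Finset.card_insert_of_notMem (by simp [u2, nz b]),
        Finset.card_insert_of_notMem (nz e)]
    have hfix : ∀ x ∈ s', ((g : G) : Perm α) x = x := by
      intro x hx
      simp only [s', Finset.mem_insert] at hx
      rcases hx with rfl | rfl | rfl | hx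
      · exact congrArg Subtype.val ha
      · exact congrArg Subtype.val hb
      · exact congrArg Subtype.val he
      · exact fix_val g hx
    have := hR s' hs' _ (g : G).2 hfix
    exact Subtype.ext (Subtype.ext this)

theorem rigid_mono {m m' : ℕ} (hm : m ≤ m') (hR : Rigid G m) :
    Rigid G m' := by
  intro s hs g hg hfix
  obtain ⟨s₀, hs₀, hs₀c⟩ := Finset.exists_subset_card_eq (s := s) (n := m + 1) (by omega)
  exact hR s₀ hs₀c g hg (fun a ha => hfix a (hs₀ ha))

/-- Four distinct points in a finite set of size at least `4`. -/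
theorem exists_four {Ω : Type*} [DecidableEq Ω] (S : Finset Ω) (hS : 4 ≤ S.card) :
    ∃ a b c d : Ω, a ∈ S ∧ b ∈ S ∧ c ∈ S ∧ d ∈ S ∧ Dist4 a b c d := by
  obtain ⟨a, ha⟩ : S.Nonempty := Finset.card_pos.1 (by omega)
  have h1 : (S.erase a).card = S.card - 1 := Finset.card_erase_of_mem ha
  obtain ⟨b, hb⟩ : (S.erase a).Nonempty := Finset.card_pos.1 (by omega)
  have h2 : ((S.erase a).erase b).card = S.card - 2 := by
    rw [Finset.card_erase_of_mem hb, h1]
    omega
  obtain ⟨c, hc⟩ : ((S.erase a).erase b).Nonempty := Finset.card_pos.1 (by omega)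
  have h3 : (((S.erase a).erase b).erase c).card = S.card - 3 := by
    rw [Finset.card_erase_of_mem hc, h2]
    omega
  obtain ⟨d, hd⟩ : (((S.erase a).erase b).erase c).Nonempty := Finset.card_pos.1 (by omega)
  simp only [Finset.mem_erase] at hb hc hd
  exact ⟨a, b, c, d, ha, hb.2, hc.2.2, hd.2.2.2, hb.1.symm, hc.2.1.symm, hd.2.2.1.symm,
    hc.1.symm, hd.2.1.symm, hd.1.symm⟩

/-- There is no near-sharp group with `N = 5`. -/
theorem not_nine {Z : Finset α} (hNS : NS4 (MZ G Z) (OZ G Z)) (hc : Nat.card (OZ G Z) = 9)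
    (hK : ∀ a b c d : OZ G Z, Dist4 a b c d → Nat.card (K4 (MZ G Z) a b c d) = 1) : False := by
  classical
  have := Fintype.ofFinite (OZ G Z)
  let G' : Subgroup (Perm (OZ G Z)) := (toPermHom (MZ G Z) (OZ G Z)).range
  have hG' : IsMultiplyPretransitive G' (OZ G Z) 4 := by
    refine ⟨fun x y => ?_⟩
    have hd : ∀ z : Fin 4 ↪ OZ G Z, Dist4 (z 0) (z 1) (z 2) (z 3) := by
      intro z
      refine ⟨fun h => ?_, fun h => ?_, fun h => ?_, fun h => ?_, fun h => ?_, fun h => ?_⟩ <;>
        exact absurd (z.injective h) (by decide)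
    obtain ⟨g, h0, h1, h2, h3⟩ := hNS.trans (hd x) (hd y)
    refine ⟨⟨toPermHom _ _ g, g, rfl⟩, ?_⟩
    ext i
    have hval : ∀ w, ((⟨toPermHom _ _ g, g, rfl⟩ : G') • w : OZ G Z) = g • w := fun _ => rfl
    fin_cases i
    · exact congrArg Subtype.val h0
    · exact congrArg Subtype.val h1
    · exact congrArg Subtype.val h2
    · exact congrArg Subtype.val h3
  refine KpNine.nine_contra G' (by rw [← Nat.card_eq_fintype_card, hc]) hG' ?_
  rintro π ⟨g, rfl⟩ hne
  by_contra hlt
  have hcomp : 4 ≤ (toPermHom (MZ G Z) (OZ G Z) g).supportᶜ.card := by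
    rw [Finset.card_compl]
    rw [← Nat.card_eq_fintype_card, hc]
    omega
  obtain ⟨a, b, c, d, ha, hb, hc', hd, hD⟩ := exists_four _ hcomp
  simp only [Finset.mem_compl, Perm.mem_support, not_not, toPermHom_apply, toPerm_apply] at ha hb hc' hd
  have hm : g ∈ K4 (MZ G Z) a b c d := mem_K4.2 ⟨ha, hb, hc', hd⟩
  have h1 : (⟨g, hm⟩ : K4 (MZ G Z) a b c d) = 1 := by
    have := hK a b c d hD
    rw [Nat.card_eq_one_iff_unique] at this
    exact this.1.elim _ _
  have : g = 1 := congrArg Subtype.val h1
  apply hne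
  rw [this, map_one]

theorem hOrd_pos (s : Finset α) : 0 < hOrd G s := Nat.card_pos

/-- The pointwise stabiliser of a `t`-set acts freely off this set. -/
theorem hOrd_dvd (hR : Rigid G t) (s : Finset α) (hs : s.card = t) :
    hOrd G s ∣ Fintype.card α - t := by
  have h1 := card_dvd_of_free (H := MZ G s) (X := OZ G s)
    (by
      intro g x hgx
      have hx : x.1 ∉ s := fun h => x.2 (by exact_mod_cast h)
      have hg : ((g : G) : Perm α) x.1 = x.1 := congrArg Subtype.val hgx
      have := hR (insert x.1 s) (by rw [Finset.card_insert_of_notMem hx, hs]) _ (g : G).2 (by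
        intro y hy
        rcases Finset.mem_insert.1 hy with rfl | hy
        · exact hg
        · exact mem_MZ.1 g.2 y hy)
      exact Subtype.ext (Subtype.ext this))
  rw [card_OZ (G := G), hs] at h1
  exact h1

set_option maxHeartbeats 1000000 in
/-- **Classification of the parameters** of a near-sharp group. -/
theorem ns_classify (ht : 4 ≤ t) (hG : IsMultiplyPretransitive G α t) (hR : Rigid G t)
    (s : Finset α) (hs : s.card = t) :
    Fintype.card α - t ≤ 2 * hOrd G s ∨
      (hOrd G s = 1 ∧ (Fintype.card α - t = 3 ∨ Fintype.card α - t = 7)) := by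
  classical
  by_contra hcon
  push Not at hcon
  obtain ⟨hbig, hother⟩ := hcon
  have htn : t ≤ Fintype.card α := by rw [← hs]; exact Finset.card_le_univ s
  set h := hOrd G s with hh
  have hpos : 0 < h := hOrd_pos s
  set N := Fintype.card α - t with hN
  -- split `s`
  obtain ⟨u, rfl⟩ : ∃ u, t = u + 4 := ⟨t - 4, by omega⟩
  obtain ⟨a, s₁, ha, rfl, h₁⟩ := Finset.card_eq_succ.1 (show s.card = (u + 3) + 1 from hs)
  obtain ⟨b, s₂, hb, rfl, h₂⟩ := Finset.card_eq_succ.1 h₁
  obtain ⟨c, s₃, hc, rfl, h₃⟩ := Finset.card_eq_succ.1 h₂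
  obtain ⟨d, Z, hd, rfl, hZ⟩ := Finset.card_eq_succ.1 h₃
  simp only [Finset.mem_insert, not_or] at ha hb hc
  obtain ⟨hab, hac, had, haZ⟩ := ha
  obtain ⟨hbc, hbd, hbZ⟩ := hb
  obtain ⟨hcd, hcZ⟩ := hc
  have hGZ : IsMultiplyPretransitive G α (Z.card + 4) := by rw [hZ]; exact hG
  have hRZ : Rigid G (Z.card + 4) := by rw [hZ]; exact hR
  have hNS := ns4_of hGZ hRZ
  have := Fintype.ofFinite (OZ G Z)
  have hcardΩ : Nat.card (OZ G Z) = N + 4 := by
    rw [card_OZ, hN, hZ]
    have : u + 4 ≤ Fintype.card α := htn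
    omega
  have hΩ : Fintype.card (OZ G Z) = N + 4 := by rw [← Nat.card_eq_fintype_card, hcardΩ]
  let a' : OZ G Z := ⟨a, fun h => haZ (by exact_mod_cast h)⟩
  let b' : OZ G Z := ⟨b, fun h => hbZ (by exact_mod_cast h)⟩
  let c' : OZ G Z := ⟨c, fun h => hcZ (by exact_mod_cast h)⟩
  let d' : OZ G Z := ⟨d, fun h => hd (by exact_mod_cast h)⟩
  have hD : Dist4 a' b' c' d' := ⟨fun h => hab (congrArg Subtype.val h),
    fun h => hac (congrArg Subtype.val h), fun h => had (congrArg Subtype.val h),
    fun h => hbc (congrArg Subtype.val h), fun h => hbd (congrArg Subtype.val h),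
    fun h => hcd (congrArg Subtype.val h)⟩
  have hK0 : Nat.card (K4 (MZ G Z) a' b' c' d') = h := by
    rw [card_K4_eq a' b' c' d' (s := insert a (insert b (insert c (insert d Z))))]
    intro x
    simp only [Finset.mem_insert, a', b', c', d']
    tauto
  have hKall : ∀ x y z w : OZ G Z, Dist4 x y z w → Nat.card (K4 (MZ G Z) x y z w) = h := by
    intro x y z w hw
    rw [hNS.card_K4 hw hD, hK0]
  -- `h` is odd
  have hodd : Odd h := by
    rw [← Nat.not_even_iff_odd]
    intro he
    -- the even bound with `Z₂`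
    have hcN := even_of (Z := insert a (insert b Z))
      (G := G) (by
        rw [Finset.card_insert_of_notMem (by simp [hab, haZ]), Finset.card_insert_of_notMem hbZ,
          hZ]
        exact hG)
      (by
        rw [Finset.card_insert_of_notMem (by simp [hab, haZ]), Finset.card_insert_of_notMem hbZ,
          hZ]
        exact hR)
      ⟨c, fun h => by
        have h' : c ∈ insert a (insert b Z) := by exact_mod_cast h
        simp only [Finset.mem_insert] at h'
        rcases h' with h' | h' | h'
        · exact hac h'.symm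
        · exact hbc h'.symm
        · exact hcZ h'⟩
      ⟨d, fun h => by
        have h' : d ∈ insert a (insert b Z) := by exact_mod_cast h
        simp only [Finset.mem_insert] at h'
        rcases h' with h' | h' | h'
        · exact had h'.symm
        · exact hbd h'.symm
        · exact hd h'⟩
      (fun h => hcd (congrArg Subtype.val h))
      (s := insert a (insert b (insert c (insert d Z))))
      (by
        intro x
        simp only [Finset.mem_insert]
        tauto)
      he
    rw [Finset.card_insert_of_notMem (by simp [hab, haZ]), Finset.card_insert_of_notMem hbZ,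
      hZ] at hcN
    have hNbig : 2 * h < N := hbig
    have : Fintype.card α - (u + 1 + 1 + 2) = N := by rw [hN]
    omega
  have hoddall : ∀ x y z w : OZ G Z, Dist4 x y z w → Odd (Nat.card (K4 (MZ G Z) x y z w)) := by
    intro x y z w hw
    rw [hKall x y z w hw]
    exact hodd
  obtain ⟨t₁, hta, htb, htc, htd, ht₁⟩ := hNS.exists_inv hD (by rw [hK0]; exact hodd)
  have ht₁1 : t₁ ≠ 1 := by
    rintro rfl
    have : c' = d' := by simpa using htc
    exact hD.2.2.2.2.2 this
  -- by cases on the existence of a third fixed point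
  by_cases hr : ∃ r, t₁ • r = r ∧ r ≠ a' ∧ r ≠ b'
  · obtain ⟨r, htr, hra, hrb⟩ := hr
    obtain ⟨hle, hpar⟩ := three_fixed hNS ht₁ ht₁1 hD hta htb htc htd hoddall htr hra hrb
    rw [hΩ] at hle hpar
    -- `h ∣ N`
    have hdvd : h ∣ N := hOrd_dvd hR _ hs
    have hNle : N ≤ 7 := by omega
    have hNbig : 2 * h < N := hbig
    have hhle : h ≤ 3 := by omega
    interval_cases h
    · -- `h = 1`
      have h5 : N ≠ 5 := by
        intro h5
        exact not_nine hNS (by rw [hcardΩ, h5]) (by
          intro x y z w hw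
          exact hKall x y z w hw)
      have := hother rfl
      omega
    · exact absurd hodd (by decide)
    · -- `h = 3`
      have : N = 7 := by omega
      rw [this] at hdvd
      omega
  · push Not at hr
    have hF : ∀ x, t₁ • x = x → x = a' ∨ x = b' := by
      intro x hx
      by_contra hcon
      push Not at hcon
      exact hcon.2 (hr x hx hcon.1)
    have hb2 := two_fixed hNS ht₁ hD hta htb htc htd hoddall hF
    rw [hΩ] at hb2
    have hle : Nat.card (K4 (MZ G Z) a' b' c' d' ⊓ Subgroup.centralizer {t₁} : Subgroup (MZ G Z)) ≤ h := by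
      rw [← hK0]
      exact Subgroup.card_le_of_le inf_le_left
    have hNbig : 2 * h < N := hbig
    omega

end Cfsg.Agent.Lib.Perm.NSClassify
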