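import Cfsg.Agent.Lib.Perm.Basic

/-!
# Nearly sharply transitive actions: the even case

`M` acts `2`-transitively on `Ω` and only the identity fixes three points.  If the stabiliser of two
points has even order `h` then `|Ω| - 2 ≤ 2 h`.
-/

set_option autoImplicit false
set_option linter.unusedSectionVars false

open MulAction Equiv

namespace Cfsg.Agent.Lib.Perm.NearSharp

variable {M Ω : Type*} [Group M] [MulAction M Ω]

/-- Conjugate subgroups have the same order: two-point stabilisers. -/
theorem card_stab2_conj {c d x y : Ω} {g : M} (h1 : g • c = x) (h2 : g • d = y) :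
    Nat.card (stabilizer M c ⊓ stabilizer M d : Subgroup M) =
      Nat.card (stabilizer M x ⊓ stabilizer M y : Subgroup M) := by
  have e : (stabilizer M x ⊓ stabilizer M y : Subgroup M) =
      (stabilizer M c ⊓ stabilizer M d : Subgroup M).map (MulAut.conj g).toMonoidHom := by
    ext w
    simp only [Subgroup.mem_inf, mem_stabilizer_iff, Subgroup.mem_map]
    constructor
    · rintro ⟨hx, hy⟩
      refine ⟨g⁻¹ * w * g, ⟨?_, ?_⟩, by simp [MulAut.conj_apply, mul_assoc]⟩
      · simp only [mul_smul]
        rw [h1, hx, ← h1, inv_smul_smul]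
      · simp only [mul_smul]
        rw [h2, hy, ← h2, inv_smul_smul]
    · rintro ⟨u, ⟨hc, hd⟩, rfl⟩
      simp only [MulEquiv.coe_toMonoidHom, MulAut.conj_apply, mul_smul]
      constructor
      · rw [← h1, inv_smul_smul, hc]
      · rw [← h2, inv_smul_smul, hd]
  rw [e]
  exact (Subgroup.card_map_of_injective (MulAut.conj g).injective).symm

/-- The main bound for even two-point stabilisers. -/
theorem even_bound [Finite M] [Fintype Ω] [DecidableEq Ω]
    (htr : ∀ {a b c d : Ω}, a ≠ b → c ≠ d → ∃ g : M, g • a = c ∧ g • b = d)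
    (hrig : ∀ (g : M) {a b c : Ω}, a ≠ b → a ≠ c → b ≠ c → g • a = a → g • b = b → g • c = c → g = 1)
    {c d : Ω} (hcd : c ≠ d)
    (heven : Even (Nat.card (stabilizer M c ⊓ stabilizer M d : Subgroup M))) :
    Fintype.card Ω - 2 ≤ 2 * Nat.card (stabilizer M c ⊓ stabilizer M d : Subgroup M) := by
  classical
  have := Fact.mk Nat.prime_two
  have h2dvd := heven.two_dvd
  -- the involution
  obtain ⟨z₀, hz₀⟩ := exists_prime_orderOf_dvd_card' 2 h2dvd
  set z : M := (z₀ : M) with hz
  have hzord : orderOf z = 2 := by rw [hz, Subgroup.orderOf_coe, hz₀]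
  have hz1 : z ≠ 1 := by
    intro h
    rw [h, orderOf_one] at hzord
    omega
  have hz2 : z * z = 1 := by
    have := pow_orderOf_eq_one z
    rwa [hzord, pow_two] at this
  have hzinv : z⁻¹ = z := inv_eq_of_mul_eq_one_left hz2
  have hzc : z • c = c := z₀.2.1
  have hzd : z • d = d := z₀.2.2
  have hzz : ∀ x : Ω, z • z • x = x := fun x => by rw [← mul_smul, hz2, one_smul]
  have hzfix : ∀ x : Ω, z • x = x → x = c ∨ x = d := by
    intro x hx
    by_contra hcon
    push Not at hcon
    exact hz1 (hrig z hcd (Ne.symm hcon.1) (Ne.symm hcon.2) hzc hzd hx)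
  -- the swapping elements
  obtain ⟨s₀, hs₀c, hs₀d⟩ := htr hcd hcd.symm
  let S : Type _ := {g : M // g • c = d ∧ g • d = c}
  have hScard : Nat.card S = Nat.card (stabilizer M c ⊓ stabilizer M d : Subgroup M) := by
    refine Nat.card_congr
      { toFun := fun g => ⟨s₀⁻¹ * g.1, ?_, ?_⟩
        invFun := fun u => ⟨s₀ * u.1, ?_, ?_⟩
        left_inv := fun g => by simp
        right_inv := fun u => by simp }
    · change (s₀⁻¹ * g.1) • c = c
      rw [mul_smul, g.2.1, inv_smul_eq_iff, hs₀c]
    · change (s₀⁻¹ * g.1) • d = d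
      rw [mul_smul, g.2.2, inv_smul_eq_iff, hs₀d]
    · have : (u.1 : M) • c = c := u.2.1
      rw [mul_smul, this, hs₀c]
    · have : (u.1 : M) • d = d := u.2.2
      rw [mul_smul, this, hs₀d]
  -- for each further point an element of `S` fixing it
  have hex : ∀ x : {x : Ω // x ≠ c ∧ x ≠ d}, ∃ w : S, (w.1 : M) • (x : Ω) = x := by
    rintro ⟨x, hxc, hxd⟩
    have hzx : z • x ≠ x := fun h => (hzfix x h).elim hxc hxd
    have hzxc : z • x ≠ c := fun h => hxc (by rw [← hzz x, h, hzc])
    have hzxd : z • x ≠ d := fun h => hxd (by rw [← hzz x, h, hzd])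
    set x' := z • x with hx'
    have hzx' : z • x' = x := hzz x
    let K' : Subgroup M := stabilizer M x ⊓ stabilizer M x'
    obtain ⟨g, hg1, hg2⟩ := htr hcd (Ne.symm hzx)
    have hK'card : Nat.card K' = Nat.card (stabilizer M c ⊓ stabilizer M d : Subgroup M) :=
      (card_stab2_conj hg1 hg2).symm
    have hmem : ∀ w : K', z * (w : M) * z⁻¹ ∈ K' := by
      intro w
      have hw1 : (w : M) • x = x := w.2.1
      have hw2 : (w : M) • x' = x' := w.2.2
      constructor
      · change (z * (w : M) * z⁻¹) • x = x
        simp only [mul_smul]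
        rw [hzinv, ← hx', hw2, hzx']
      · change (z * (w : M) * z⁻¹) • x' = x'
        simp only [mul_smul]
        rw [hzinv, hzx', hw1]
    let f : K' → K' := fun w => ⟨z * w * z⁻¹, hmem w⟩
    have hf : Function.Involutive f := by
      intro w
      apply Subtype.ext
      change z * (z * (w : M) * z⁻¹) * z⁻¹ = w
      calc z * (z * (w : M) * z⁻¹) * z⁻¹ = (z * z) * w * (z * z)⁻¹ := by group
        _ = w := by rw [hz2]; simp
    let σ : Perm K' := hf.toPerm
    have hσ : σ ^ 2 ^ 1 = 1 := by
      ext w
      change (f (f w) : M) = w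
      rw [hf w]
    have := Fintype.ofFinite K'
    have hmod := Perm.card_compl_support_modEq hσ
    have h1mem : (1 : K') ∈ σ.supportᶜ := by
      simp only [Finset.mem_compl, Perm.mem_support, not_not]
      apply Subtype.ext
      change z * ((1 : K') : M) * z⁻¹ = 1
      simp
    have hK'even : Fintype.card K' % 2 = 0 := by
      rw [← Nat.card_eq_fintype_card, hK'card]
      exact Nat.mod_eq_zero_of_dvd h2dvd
    have hcard2 : 2 ≤ σ.supportᶜ.card := by
      have hpos : 0 < σ.supportᶜ.card := Finset.card_pos.2 ⟨1, h1mem⟩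
      have : σ.supportᶜ.card % 2 = 0 := by
        rw [Nat.ModEq] at hmod
        omega
      omega
    obtain ⟨w, hwmem, hwne⟩ := Finset.exists_mem_ne (by omega : 1 < σ.supportᶜ.card) 1
    simp only [Finset.mem_compl, Perm.mem_support, not_not] at hwmem
    have hwcomm : z * (w : M) * z⁻¹ = w := congrArg Subtype.val hwmem
    have hwz : ∀ y : Ω, z • (w : M) • y = (w : M) • z • y := by
      intro y
      have : z * (w : M) = (w : M) * z := by
        rw [mul_inv_eq_iff_eq_mul] at hwcomm
        exact hwcomm
      have h2 := congrArg (fun k : M => k • y) this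
      simpa [mul_smul] using h2
    have hw1 : (w : M) ≠ 1 := fun h => hwne (Subtype.ext h)
    have hwx : (w : M) • x = x := w.2.1
    have hwx' : (w : M) • x' = x' := w.2.2
    -- `w` interchanges `c` and `d`
    have hwc : (w : M) • c = d := by
      have h1 : z • (w : M) • c = (w : M) • c := by rw [hwz, hzc]
      rcases hzfix _ h1 with h | h
      · exact absurd (hrig (w : M) hxc.symm hzxc.symm hzx.symm h hwx hwx') hw1
      · exact h
    have hwd : (w : M) • d = c := by
      have h1 : z • (w : M) • d = (w : M) • d := by rw [hwz, hzd]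
      rcases hzfix _ h1 with h | h
      · exact h
      · exact absurd (hrig (w : M) hxd.symm hzxd.symm hzx.symm h hwx hwx') hw1
    exact ⟨⟨w, hwc, hwd⟩, hwx⟩
  choose f hf using hex
  have := Fintype.ofFinite S
  have hfib : ∀ u ∈ (Finset.univ : Finset S),
      (Finset.univ.filter (fun x : {x : Ω // x ≠ c ∧ x ≠ d} => f x = u)).card ≤ 2 := by
    intro u _
    by_contra hcon
    push Not at hcon
    obtain ⟨x, hx, y, hy, w, hw, hxy, hxw, hyw⟩ := Finset.two_lt_card.mp hcon
    simp only [Finset.mem_filter, Finset.mem_univ, true_and] at hx hy hw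
    have h1 := hf x
    have h2 := hf y
    have h3 := hf w
    rw [hx] at h1
    rw [hy] at h2
    rw [hw] at h3
    have hu1 : (u.1 : M) = 1 := hrig _ (fun h => hxy (Subtype.ext h)) (fun h => hxw (Subtype.ext h))
      (fun h => hyw (Subtype.ext h)) h1 h2 h3
    have := u.2.1
    rw [hu1, one_smul] at this
    exact hcd this
  have hle := Finset.card_le_mul_card_image_of_maps_to (s := (Finset.univ : Finset _))
    (t := (Finset.univ : Finset S)) (f := f) (fun x _ => Finset.mem_univ _) 2 hfib
  have hP : Fintype.card {x : Ω // x ≠ c ∧ x ≠ d} = Fintype.card Ω - 2 := by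
    have : (Finset.univ.filter (fun x : Ω => x ≠ c ∧ x ≠ d)) = Finset.univ \ {c, d} := by
      ext x
      simp
    rw [Fintype.card_subtype, this, Finset.card_sdiff_of_subset (Finset.subset_univ _),
      Finset.card_univ, Finset.card_pair hcd]
  rw [← hP, ← hScard, Nat.card_eq_fintype_card]
  simpa using hle

end Cfsg.Agent.Lib.Perm.NearSharp
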