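import Mathlib

/-!
# Subgroups and automorphisms of direct powers of a non-abelian simple group

Automorphisms of `I → T` act coordinate-wise up to a permutation of the indices, and Scott's lemma
on subdirect subgroups of `I → T`.
-/

set_option autoImplicit false
set_option linter.unusedSectionVars false
set_option linter.unusedVariables false
set_option linter.style.haveILetI false
set_option linter.unusedFintypeInType false
set_option linter.unusedDecidableInType false

namespace Cfsg.Agent.Lib.Perm.ONan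

universe u v w

variable {T : Type u} [Group T]

/-- An element commuting with everything in a non-abelian simple group is trivial. -/
theorem eq_one_of_comm (hs : IsSimpleGroup T) (hna : ¬ IsMulCommutative T) {x : T}
    (hx : ∀ t, x * t = t * x) : x = 1 := by
  have hc : x ∈ Subgroup.center T := by
    rw [Subgroup.mem_center_iff]
    exact fun g => (hx g).symm
  rcases hs.eq_bot_or_eq_top_of_normal (Subgroup.center T) inferInstance with h | h
  · rw [h] at hc
    exact Subgroup.mem_bot.mp hc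
  · exfalso
    apply hna
    refine ⟨⟨fun a b => ?_⟩⟩
    have : a ∈ Subgroup.center T := by rw [h]; trivial
    exact (Subgroup.mem_center_iff.mp this b).symm

/-- A subgroup containing all commutators of a non-abelian simple group is everything. -/
theorem eq_top_of_comm (hs : IsSimpleGroup T) (hna : ¬ IsMulCommutative T) (L : Subgroup T)
    (hL : ∀ a b : T, a * b * a⁻¹ * b⁻¹ ∈ L) : L = ⊤ := by
  have h1 : commutator T ≤ L := by
    rw [commutator_def, Subgroup.commutator_le]
    intro a _ b _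
    exact hL a b
  rcases hs.eq_bot_or_eq_top_of_normal (commutator T) inferInstance with h | h
  · exfalso
    apply hna
    refine ⟨⟨fun a b => ?_⟩⟩
    have h2 : a * b * a⁻¹ * b⁻¹ ∈ commutator T := by
      rw [commutator_def]
      exact Subgroup.commutator_mem_commutator (Subgroup.mem_top a) (Subgroup.mem_top b)
    rw [h, Subgroup.mem_bot] at h2
    calc a * b = (a * b * a⁻¹ * b⁻¹) * (b * a) := by group
      _ = b * a := by rw [h2, one_mul]
  · rw [h] at h1
    exact top_le_iff.mp h1

variable {I : Type v} [Fintype I] [DecidableEq I]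

/-- Homomorphisms vanishing on all coordinate factors vanish. -/
theorem eq_one_of_single {M : Type*} [Group M] (π : (I → T) →* M)
    (h : ∀ i t, π (Pi.mulSingle i t) = 1) (f : I → T) : π f = 1 := by
  have key : ∀ S : Finset I, ∀ f : I → T, (∀ l, l ∉ S → f l = 1) → π f = 1 := by
    intro S
    induction S using Finset.induction_on with
    | empty =>
      intro f hf
      have : f = 1 := funext fun l => hf l (by simp)
      rw [this, map_one]
    | insert l S hl ih =>
      intro f hf
      have h1 : f = Pi.mulSingle l (f l) * Function.update f l 1 := by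
        funext x
        by_cases hx : x = l
        · subst hx
          simp
        · simp [Pi.mulSingle_eq_of_ne hx, Function.update_of_ne hx]
      rw [h1, map_mul, h, one_mul]
      apply ih
      intro x hx
      by_cases hxl : x = l
      · subst hxl
        simp
      · rw [Function.update_of_ne hxl]
        apply hf
        simp [hxl, hx]
  exact key Finset.univ f (by simp)

/-- **Coordinates of automorphisms.**  Each coordinate of `ψ f` is an isomorphic image of one
coordinate of `f`. -/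
theorem coord_aut (hs : IsSimpleGroup T) (hna : ¬ IsMulCommutative T) (ψ : (I → T) ≃* (I → T)) (j : I) :
    ∃ (i : I) (α : T ≃* T), ∀ f, ψ f j = α (f i) := by
  classical
  let π : (I → T) →* T := (Pi.evalMonoidHom _ j).comp ψ.toMonoidHom
  have hπ : ∀ f, π f = ψ f j := fun f => rfl
  have hsurj : Function.Surjective π := by
    intro t
    refine ⟨ψ.symm (Pi.mulSingle j t), ?_⟩
    rw [hπ, MulEquiv.apply_symm_apply]
    simp
  let χ : I → T →* T := fun i => π.comp (MonoidHom.mulSingle (fun _ : I => T) i)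
  have hχ : ∀ i t, χ i t = π (Pi.mulSingle i t) := fun i t => rfl
  obtain ⟨hnt⟩ : Nontrivial T := ⟨hs.toNontrivial.exists_pair_ne⟩
  -- some `χ i` is non-trivial
  have hex : ∃ i, χ i ≠ 1 := by
    by_contra hall
    push Not at hall
    obtain ⟨t, ht⟩ := exists_ne (1 : T)
    obtain ⟨f, hf⟩ := hsurj t
    apply ht
    rw [← hf]
    apply eq_one_of_single
    intro i s
    rw [← hχ, hall i]
    rfl
  obtain ⟨i, hi⟩ := hex
  -- the range is everything
  have hrange : (χ i).range = ⊤ := by
    have hn : (χ i).range.Normal := by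
      constructor
      rintro _ ⟨u, rfl⟩ t
      obtain ⟨f, rfl⟩ := hsurj t
      refine ⟨f i * u * (f i)⁻¹, ?_⟩
      rw [hχ, hχ, ← map_inv, ← map_mul, ← map_mul]
      congr 1
      funext l
      by_cases hl : l = i
      · subst hl
        simp
      · simp [Pi.mulSingle_eq_of_ne hl]
    rcases hs.eq_bot_or_eq_top_of_normal (χ i).range hn with h | h
    · exfalso
      apply hi
      ext t
      have : χ i t ∈ (χ i).range := ⟨t, rfl⟩
      rw [h, Subgroup.mem_bot] at this
      exact this
    · exact h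
  have hsurjχ : Function.Surjective (χ i) := MonoidHom.range_eq_top.mp hrange
  -- the formula
  have hform : ∀ f, π f = χ i (f i) := by
    intro f
    set g : I → T := (Pi.mulSingle i (f i))⁻¹ * f with hg
    have hgi : g i = 1 := by simp [hg]
    have hfg : f = Pi.mulSingle i (f i) * g := by rw [hg]; group
    have hcomm : ∀ t, π g * χ i t = χ i t * π g := by
      intro t
      rw [hχ, ← map_mul, ← map_mul]
      congr 1
      funext l
      by_cases hl : l = i
      · subst hl
        simp [hgi]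
      · simp [Pi.mulSingle_eq_of_ne hl]
    have h1 : π g = 1 := by
      apply eq_one_of_comm hs hna
      intro t
      obtain ⟨u, rfl⟩ := hsurjχ t
      exact hcomm u
    calc π f = π (Pi.mulSingle i (f i)) * π g := by rw [← map_mul, ← hfg]
      _ = χ i (f i) := by rw [h1, mul_one, hχ]
  -- injectivity
  have hker : (χ i).ker = ⊥ := by
    rcases hs.eq_bot_or_eq_top_of_normal (χ i).ker inferInstance with h | h
    · exact h
    · exfalso
      apply hi
      ext t
      have : t ∈ (χ i).ker := by rw [h]; trivial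
      exact this
  have hinj : Function.Injective (χ i) := (MonoidHom.ker_eq_bot_iff _).mp hker
  exact ⟨i, MulEquiv.ofBijective (χ i) ⟨hinj, hsurjχ⟩, fun f => hform f⟩

/-- The index function of an automorphism is unique. -/
theorem coord_unique (hs : IsSimpleGroup T) (ψ : (I → T) ≃* (I → T)) {j i i' : I} {α α' : T ≃* T}
    (h : ∀ f, ψ f j = α (f i)) (h' : ∀ f, ψ f j = α' (f i')) : i = i' := by
  by_contra hne
  obtain ⟨hnt⟩ : Nontrivial T := ⟨hs.toNontrivial.exists_pair_ne⟩
  obtain ⟨t, ht⟩ := exists_ne (1 : T)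
  have h1 := h (Pi.mulSingle i t)
  have h2 := h' (Pi.mulSingle i t)
  rw [h2, Pi.mulSingle_eq_same, Pi.mulSingle_eq_of_ne (Ne.symm hne), map_one] at h1
  exact ht (α.map_eq_one_iff.mp h1.symm)

/-- The index function of an automorphism is injective. -/
theorem coord_inj (hs : IsSimpleGroup T) (ψ : (I → T) ≃* (I → T)) {j j' i : I} {α α' : T ≃* T}
    (h : ∀ f, ψ f j = α (f i)) (h' : ∀ f, ψ f j' = α' (f i)) : j = j' := by
  by_contra hne
  obtain ⟨hnt⟩ : Nontrivial T := ⟨hs.toNontrivial.exists_pair_ne⟩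
  obtain ⟨t, ht⟩ := exists_ne (1 : T)
  have h1 := h (ψ.symm (Pi.mulSingle j t))
  have h2 := h' (ψ.symm (Pi.mulSingle j t))
  rw [MulEquiv.apply_symm_apply, Pi.mulSingle_eq_same] at h1
  rw [MulEquiv.apply_symm_apply, Pi.mulSingle_eq_of_ne (Ne.symm hne)] at h2
  have h3 := α'.map_eq_one_iff.mp h2.symm
  rw [h3, map_one] at h1
  exact ht h1

/-! ### Scott's lemma -/

section Scott

variable (L : Subgroup (I → T))

/-- Linked coordinates. -/
def Eqv (i j : I) : Prop := ∃ φ : T ≃* T, ∀ f ∈ L, f j = φ (f i)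

variable {L}

theorem Eqv.refl (i : I) : Eqv L i i := ⟨MulEquiv.refl T, fun _ _ => rfl⟩

theorem Eqv.symm {i j : I} (h : Eqv L i j) : Eqv L j i := by
  obtain ⟨φ, hφ⟩ := h
  exact ⟨φ.symm, fun f hf => by rw [hφ f hf, MulEquiv.symm_apply_apply]⟩

theorem Eqv.trans {i j k : I} (h : Eqv L i j) (h' : Eqv L j k) : Eqv L i k := by
  obtain ⟨φ, hφ⟩ := h
  obtain ⟨φ', hφ'⟩ := h'
  exact ⟨φ.trans φ', fun f hf => by rw [hφ' f hf, hφ f hf]; rfl⟩

/-- Not linked coordinates are independent. -/
theorem indep_two (hs : IsSimpleGroup T) (hsub : ∀ i t, ∃ f ∈ L, f i = t) {i j : I}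
    (hne : ¬ Eqv L i j) (t : T) : ∃ f ∈ L, f i = t ∧ f j = 1 := by
  classical
  obtain ⟨hnt⟩ : Nontrivial T := ⟨hs.toNontrivial.exists_pair_ne⟩
  let B : Subgroup T :=
    { carrier := {x | ∃ f ∈ L, f i = x ∧ f j = 1}
      one_mem' := ⟨1, L.one_mem, rfl, rfl⟩
      mul_mem' := by
        rintro _ _ ⟨f, hf, rfl, hfj⟩ ⟨g, hg, rfl, hgj⟩
        exact ⟨f * g, L.mul_mem hf hg, rfl, by simp [hfj, hgj]⟩
      inv_mem' := by
        rintro _ ⟨f, hf, rfl, hfj⟩
        exact ⟨f⁻¹, L.inv_mem hf, rfl, by simp [hfj]⟩ }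
  have hBn : B.Normal := by
    constructor
    rintro _ ⟨f, hf, rfl, hfj⟩ t
    obtain ⟨g, hg, rfl⟩ := hsub i t
    exact ⟨g * f * g⁻¹, L.mul_mem (L.mul_mem hg hf) (L.inv_mem hg), rfl, by simp [hfj]⟩
  rcases hs.eq_bot_or_eq_top_of_normal B hBn with hB | hB
  · exfalso
    apply hne
    apply Eqv.symm
    -- `f i` is a function of `f j`
    have hker : ∀ f ∈ L, f j = 1 → f i = 1 := by
      intro f hf hfj
      have : f i ∈ B := ⟨f, hf, rfl, hfj⟩
      rw [hB, Subgroup.mem_bot] at this
      exact this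
    choose w hw hwj using hsub j
    have hval : ∀ f ∈ L, f i = w (f j) i := by
      intro f hf
      have h1 := hker (f * (w (f j))⁻¹) (L.mul_mem hf (L.inv_mem (hw _))) (by simp [hwj])
      simp only [Pi.mul_apply, Pi.inv_apply] at h1
      exact mul_inv_eq_one.mp h1
    let φ : T →* T :=
      { toFun := fun x => w x i
        map_one' := by
          have := hval 1 L.one_mem
          simpa using this.symm
        map_mul' := by
          intro x y
          have := hval (w x * w y) (L.mul_mem (hw x) (hw y))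
          simp only [Pi.mul_apply, hwj] at this
          exact this.symm }
    have hφ : ∀ f ∈ L, f i = φ (f j) := hval
    have hφs : Function.Surjective φ := by
      intro x
      obtain ⟨f, hf, rfl⟩ := hsub i x
      exact ⟨f j, (hφ f hf).symm⟩
    have hφi : Function.Injective φ := by
      rw [← MonoidHom.ker_eq_bot_iff]
      rcases hs.eq_bot_or_eq_top_of_normal φ.ker inferInstance with h | h
      · exact h
      · exfalso
        obtain ⟨x, hx⟩ := exists_ne (1 : T)
        obtain ⟨y, rfl⟩ := hφs x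
        apply hx
        have : y ∈ φ.ker := by rw [h]; trivial
        exact this
    exact ⟨MulEquiv.ofBijective φ ⟨hφi, hφs⟩, fun f hf => hφ f hf⟩
  · have : t ∈ B := by rw [hB]; trivial
    exact this

/-- A coordinate is independent of a set of non-linked coordinates. -/
theorem indep_set (hs : IsSimpleGroup T) (hna : ¬ IsMulCommutative T) (hsub : ∀ i t, ∃ f ∈ L, f i = t)
    {i : I} (S : Finset I) (hS : ∀ j ∈ S, ¬ Eqv L i j) (t : T) :
    ∃ f ∈ L, f i = t ∧ ∀ j ∈ S, f j = 1 := by
  classical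
  induction S using Finset.induction_on generalizing t with
  | empty =>
    obtain ⟨f, hf, h⟩ := hsub i t
    exact ⟨f, hf, h, by simp⟩
  | insert l S hl ih =>
    have ih' := ih (fun j hj => hS j (Finset.mem_insert_of_mem hj))
    let B : Subgroup T :=
      { carrier := {x | ∃ f ∈ L, f i = x ∧ ∀ j ∈ insert l S, f j = 1}
        one_mem' := ⟨1, L.one_mem, rfl, fun _ _ => rfl⟩
        mul_mem' := by
          rintro _ _ ⟨f, hf, rfl, hfj⟩ ⟨g, hg, rfl, hgj⟩
          refine ⟨f * g, L.mul_mem hf hg, rfl, fun j hj => ?_⟩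
          simp [hfj j hj, hgj j hj]
        inv_mem' := by
          rintro _ ⟨f, hf, rfl, hfj⟩
          refine ⟨f⁻¹, L.inv_mem hf, rfl, fun j hj => ?_⟩
          simp [hfj j hj] }
    have hB : B = ⊤ := by
      apply eq_top_of_comm hs hna
      intro a b
      obtain ⟨f, hf, hfi, hfS⟩ := ih' a
      obtain ⟨g, hg, hgi, hgl⟩ := indep_two hs hsub (hS l (Finset.mem_insert_self l S)) b
      refine ⟨f * g * f⁻¹ * g⁻¹, L.mul_mem (L.mul_mem (L.mul_mem hf hg) (L.inv_mem hf)) (L.inv_mem hg),
        by simp [hfi, hgi], fun j hj => ?_⟩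
      rcases Finset.mem_insert.mp hj with rfl | hj'
      · simp [hgl]
      · simp [hfS j hj']
    have : t ∈ B := by rw [hB]; trivial
    exact this

/-- Independence of pairwise non-linked coordinates. -/
theorem indep_all (hs : IsSimpleGroup T) (hna : ¬ IsMulCommutative T) (hsub : ∀ i t, ∃ f ∈ L, f i = t)
    (S : Finset I) (hS : ∀ i ∈ S, ∀ j ∈ S, Eqv L i j → i = j) (g : I → T) :
    ∃ f ∈ L, ∀ i ∈ S, f i = g i := by
  classical
  induction S using Finset.induction_on with
  | empty => exact ⟨1, L.one_mem, by simp⟩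
  | insert l S hl ih =>
    obtain ⟨f, hf, hfS⟩ := ih (fun i hi j hj => hS i (Finset.mem_insert_of_mem hi) j (Finset.mem_insert_of_mem hj))
    have hne : ∀ j ∈ S, ¬ Eqv L l j := by
      intro j hj h
      have := hS l (Finset.mem_insert_self l S) j (Finset.mem_insert_of_mem hj) h
      exact hl (this ▸ hj)
    obtain ⟨f', hf', hl', hS'⟩ := indep_set hs hna hsub S hne ((f l)⁻¹ * g l)
    refine ⟨f * f', L.mul_mem hf hf', fun i hi => ?_⟩
    rcases Finset.mem_insert.mp hi with rfl | hi'
    · simp [hl']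
    · simp [hS' i hi', hfS i hi']

/-- **Scott's lemma**: a subdirect subgroup is determined by the coordinate links. -/
theorem mem_of_links (hs : IsSimpleGroup T) (hna : ¬ IsMulCommutative T)
    (hsub : ∀ i t, ∃ f ∈ L, f i = t) (ρ : I → I) (hρ : ∀ i j, Eqv L i j → ρ i = ρ j)
    (φ : I → T ≃* T) (hφ : ∀ i, ∀ f ∈ L, f i = φ i (f (ρ i))) (f : I → T)
    (hf : ∀ i, f i = φ i (f (ρ i))) (hρ2 : ∀ i, ρ (ρ i) = ρ i) : f ∈ L := by
  classical
  obtain ⟨ℓ, hℓ, hℓS⟩ := indep_all (L := L) hs hna hsub (Finset.univ.image ρ) (by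
    intro i hi j hj h
    obtain ⟨i', -, rfl⟩ := Finset.mem_image.mp hi
    obtain ⟨j', -, rfl⟩ := Finset.mem_image.mp hj
    have := hρ _ _ h
    rwa [hρ2, hρ2] at this) f
  have : f = ℓ := by
    funext i
    rw [hf i, hφ i ℓ hℓ, hℓS (ρ i) (Finset.mem_image_of_mem _ (Finset.mem_univ i))]
  rw [this]
  exact hℓ

end Scott

/-! ### The action on coordinates -/

section Action

variable {H : Type w} [Group H] (Ψ : H →* MulAut (I → T)) (K : Subgroup H)

/-- `i` is carried to `j` by an element of `K`. -/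
def Rel (i j : I) : Prop := ∃ k ∈ K, ∃ α : T ≃* T, ∀ f, Ψ k f j = α (f i)

variable {Ψ K}

theorem Rel.refl (i : I) : Rel Ψ K i i :=
  ⟨1, K.one_mem, MulEquiv.refl T, fun f => by simp⟩

theorem Rel.trans {i j l : I} (h : Rel Ψ K i j) (h' : Rel Ψ K j l) : Rel Ψ K i l := by
  obtain ⟨k, hk, α, hα⟩ := h
  obtain ⟨k', hk', α', hα'⟩ := h'
  refine ⟨k' * k, K.mul_mem hk' hk, α.trans α', fun f => ?_⟩
  rw [map_mul, MulAut.mul_apply, hα', hα]
  rfl

/-- Transitivity of `K` on coordinates. -/
theorem rel_all (hs : IsSimpleGroup T) (hna : ¬ IsMulCommutative T)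
    (hinner : ∀ h : H, ∃ k ∈ K, ∃ x : I → T, ∀ f, Ψ h f = x * Ψ k f * x⁻¹)
    (hmin : ∀ P : Subgroup (I → T), (∀ h, ∀ f ∈ P, Ψ h f ∈ P) → P = ⊥ ∨ P = ⊤) (i j : I) :
    Rel Ψ K i j := by
  classical
  obtain ⟨hnt⟩ : Nontrivial T := ⟨hs.toNontrivial.exists_pair_ne⟩
  obtain ⟨t, ht⟩ := exists_ne (1 : T)
  let P : Subgroup (I → T) :=
    { carrier := {f | ∀ l, ¬ Rel Ψ K i l → f l = 1}
      one_mem' := fun _ _ => rfl
      mul_mem' := by
        intro f g hf hg l hl
        simp [hf l hl, hg l hl]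
      inv_mem' := by
        intro f hf l hl
        simp [hf l hl] }
  have hP : ∀ h, ∀ f ∈ P, Ψ h f ∈ P := by
    intro h f hf l hl
    obtain ⟨k, hk, x, hx⟩ := hinner h
    obtain ⟨i', α, hα⟩ := coord_aut hs hna (Ψ k) l
    have hi' : ¬ Rel Ψ K i i' := fun h' => hl (h'.trans ⟨k, hk, α, hα⟩)
    have h1 : Ψ k f l = 1 := by rw [hα, hf i' hi', map_one]
    rw [hx]
    simp [h1]
  rcases hmin P hP with h | h
  · exfalso
    have h1 : (Pi.mulSingle i t : I → T) ∈ P := by
      intro l hl
      have : l ≠ i := by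
        rintro rfl
        exact hl (Rel.refl l)
      show (Pi.mulSingle i t : I → T) l = 1
      simp [Pi.mulSingle_eq_of_ne this]
    rw [h, Subgroup.mem_bot] at h1
    apply ht
    have := congrFun h1 i
    simpa using this
  · by_contra hij
    have h1 : (Pi.mulSingle j t : I → T) ∈ P := by rw [h]; trivial
    have h2 := h1 j hij
    apply ht
    simpa using h2

variable {L : Subgroup (I → T)}

/-- Projections of an invariant subgroup are related by `α`. -/
theorem proj_mem (hL : ∀ k ∈ K, ∀ f ∈ L, Ψ k f ∈ L) {k : H} (hk : k ∈ K) {i j : I} {α : T ≃* T}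
    (hα : ∀ f, Ψ k f j = α (f i)) {f : I → T} (hf : f ∈ L) :
    α (f i) ∈ L.map (Pi.evalMonoidHom (fun _ => T) j) :=
  ⟨Ψ k f, hL k hk f hf, hα f⟩

/-- Links are transported by `K`. -/
theorem eqv_transport (hL : ∀ k ∈ K, ∀ f ∈ L, Ψ k f ∈ L) {k : H} (hk : k ∈ K) {i i' j j' : I}
    {α α' : T ≃* T} (hα : ∀ f, Ψ k f j = α (f i)) (hα' : ∀ f, Ψ k f j' = α' (f i')) :
    Eqv L i i' ↔ Eqv L j j' := by
  constructor
  · rintro ⟨φ, hφ⟩
    refine ⟨α.symm.trans (φ.trans α'), fun g hg => ?_⟩
    have hf : Ψ k⁻¹ g ∈ L := hL _ (K.inv_mem hk) g hg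
    have hgf : Ψ k (Ψ k⁻¹ g) = g := by
      rw [← MulAut.mul_apply, ← map_mul, mul_inv_cancel, map_one]
      rfl
    have h1 := hα (Ψ k⁻¹ g)
    have h2 := hα' (Ψ k⁻¹ g)
    rw [hgf] at h1 h2
    rw [h2, hφ _ hf, h1]
    simp
  · rintro ⟨φ, hφ⟩
    refine ⟨α.trans (φ.trans α'.symm), fun f hf => ?_⟩
    have h1 := hφ _ (hL k hk f hf)
    rw [hα, hα'] at h1
    rw [← α'.symm_apply_apply (f i'), h1]
    rfl

/-- The blocks have a common size. -/
theorem card_block (hs : IsSimpleGroup T) (hna : ¬ IsMulCommutative T)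
    (hL : ∀ k ∈ K, ∀ f ∈ L, Ψ k f ∈ L) (hrel : ∀ i j, Rel Ψ K i j) (i j : I) :
    Nat.card {l // Eqv L i l} = Nat.card {l // Eqv L j l} := by
  classical
  obtain ⟨k, hk, α, hα⟩ := hrel i j
  choose σ a ha using fun l => coord_aut hs hna (Ψ k) l
  have hinj : Function.Injective σ := by
    intro l l' h
    have h2 := ha l'
    rw [← h] at h2
    exact coord_inj hs (Ψ k) (ha l) h2
  have hbij : Function.Bijective σ := Finite.injective_iff_bijective.mp hinj
  have hσj : σ j = i := coord_unique hs (Ψ k) (ha j) hα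
  symm
  refine Nat.card_congr (Equiv.subtypeEquiv (Equiv.ofBijective σ hbij) (fun l => ?_))
  show Eqv L j l ↔ Eqv L i (σ l)
  rw [← hσj]
  exact (eqv_transport hL hk (ha j) (ha l)).symm

/-- The final form of Scott's lemma. -/
theorem scott_final (hs : IsSimpleGroup T) (hna : ¬ IsMulCommutative T)
    (hL : ∀ k ∈ K, ∀ f ∈ L, Ψ k f ∈ L) (hrel : ∀ i j, Rel Ψ K i j)
    (hsub : ∀ i t, ∃ f ∈ L, f i = t) (i₀ : I) :
    ∃ (e' : (I → T) ≃* (I → T)) (c : I → I) (k₀ : ℕ),
      (∀ j, Nat.card {i // c i = j} = k₀ ∨ Nat.card {i // c i = j} = 0) ∧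
      (k₀ ≤ 1 → L = ⊤) ∧ ∀ f, f ∈ L ↔ ∀ i j, c i = c j → e' f i = e' f j := by
  classical
  let S : Setoid I := ⟨Eqv L, ⟨Eqv.refl, Eqv.symm, Eqv.trans⟩⟩
  let ρ : I → I := fun i => (Quotient.mk S i).out
  have hρ1 : ∀ i, Eqv L (ρ i) i := fun i => Quotient.mk_out (s := S) i
  have hρ2 : ∀ i j, Eqv L i j → ρ i = ρ j := fun i j h => congrArg Quotient.out (Quotient.sound (s := S) h)
  have hρ3 : ∀ i, ρ (ρ i) = ρ i := fun i => hρ2 _ _ (hρ1 i)
  choose φ hφ using hρ1
  have hφid : ∀ i t, φ (ρ i) t = t := by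
    intro i t
    obtain ⟨f, hf, rfl⟩ := hsub (ρ i) t
    have := hφ (ρ i) f hf
    rw [hρ3] at this
    exact this.symm
  let e' : (I → T) ≃* (I → T) := MulEquiv.piCongrRight (fun i => (φ i).symm)
  have he' : ∀ f i, e' f i = (φ i).symm (f i) := fun _ _ => rfl
  refine ⟨e', ρ, Nat.card {l // Eqv L i₀ l}, ?_, ?_, ?_⟩
  · intro j
    by_cases hj : ρ j = j
    · left
      rw [card_block hs hna hL hrel i₀ j]
      refine Nat.card_congr (Equiv.subtypeEquivRight (fun i => ?_))
      constructor
      · intro h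
        have := (⟨φ i, hφ i⟩ : Eqv L (ρ i) i)
        rwa [h] at this
      · intro h
        rw [← hρ2 _ _ h, hj]
    · right
      have : IsEmpty {i // ρ i = j} := ⟨fun ⟨i, hi⟩ => hj (by
        rw [← hi]
        exact hρ3 i)⟩
      exact Nat.card_of_isEmpty
  · intro hk
    have hunique : ∀ i j, Eqv L i j → i = j := by
      intro i j hij
      have hc : Nat.card {l // Eqv L i l} ≤ 1 := by
        rw [card_block hs hna hL hrel i i₀]
        exact hk
      have hsub' : Subsingleton {l // Eqv L i l} := by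
        rw [← Finite.card_le_one_iff_subsingleton]
        exact hc
      have := Subsingleton.elim (⟨i, Eqv.refl i⟩ : {l // Eqv L i l}) ⟨j, hij⟩
      exact congrArg Subtype.val this
    have hρid : ∀ i, ρ i = i := fun i => hunique _ _ ⟨φ i, hφ i⟩
    rw [eq_top_iff]
    intro f _
    apply mem_of_links hs hna hsub ρ hρ2 φ hφ f _ hρ3
    intro i
    have := hφid i (f i)
    rw [hρid] at this ⊢
    exact this.symm
  · intro f
    constructor
    · intro hf i j hij
      rw [he', he', hφ i f hf, hφ j f hf, MulEquiv.symm_apply_apply, MulEquiv.symm_apply_apply, hij]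
    · intro h
      apply mem_of_links hs hna hsub ρ hρ2 φ hφ f _ hρ3
      intro i
      have h1 := h i (ρ i) (hρ3 i).symm
      rw [he', he', ← hφid i (f (ρ i)), MulEquiv.symm_apply_apply] at h1
      rw [← h1, MulEquiv.apply_symm_apply]

end Action

end Cfsg.Agent.Lib.Perm.ONan
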