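import Cfsg.Agent.Lib.Perm.NearSharp

/-!
# Tits' argument for nearly sharply `4`-transitive actions

`M` acts `4`-transitively on `Ω`, five-point stabilisers are trivial and four-point stabilisers have
odd order.
-/

set_option autoImplicit false
set_option linter.unusedSectionVars false

open MulAction Equiv

namespace Cfsg.Agent.Lib.Perm.Tits

variable {M Ω : Type*} [Group M] [MulAction M Ω]

/-- Four distinct points. -/
def Dist4 (a b c d : Ω) : Prop := a ≠ b ∧ a ≠ c ∧ a ≠ d ∧ b ≠ c ∧ b ≠ d ∧ c ≠ d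

/-- `4`-transitivity. -/
structure Tr4 (M Ω : Type*) [Group M] [MulAction M Ω] : Prop where
  trans : ∀ {a b c d a' b' c' d' : Ω}, Dist4 a b c d → Dist4 a' b' c' d' →
    ∃ g : M, g • a = a' ∧ g • b = b' ∧ g • c = c' ∧ g • d = d'

/-- The hypotheses: `4`-transitive, only the identity fixes five points. -/
structure NS4 (M Ω : Type*) [Group M] [MulAction M Ω] : Prop extends Tr4 M Ω where
  rigid : ∀ (g : M) {a b c d e : Ω}, Dist4 a b c d → e ≠ a → e ≠ b → e ≠ c → e ≠ d →
    g • a = a → g • b = b → g • c = c → g • d = d → g • e = e → g = 1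

/-- The stabiliser of four points. -/
def K4 (M : Type*) {Ω : Type*} [Group M] [MulAction M Ω] (a b c d : Ω) : Subgroup M :=
  stabilizer M a ⊓ stabilizer M b ⊓ stabilizer M c ⊓ stabilizer M d

theorem mem_K4 {a b c d : Ω} {g : M} :
    g ∈ K4 M a b c d ↔ g • a = a ∧ g • b = b ∧ g • c = c ∧ g • d = d := by
  simp only [K4, Subgroup.mem_inf, mem_stabilizer_iff]
  tauto

theorem card_K4_conj {a b c d a' b' c' d' : Ω} {g : M} (h1 : g • a = a') (h2 : g • b = b')
    (h3 : g • c = c') (h4 : g • d = d') :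
    Nat.card (K4 M a b c d) = Nat.card (K4 M a' b' c' d') := by
  have e : K4 M a' b' c' d' = (K4 M a b c d).map (MulAut.conj g).toMonoidHom := by
    ext w
    simp only [mem_K4, Subgroup.mem_map]
    constructor
    · rintro ⟨h1', h2', h3', h4'⟩
      refine ⟨g⁻¹ * w * g, ⟨?_, ?_, ?_, ?_⟩, by simp [MulAut.conj_apply, mul_assoc]⟩
      · simp only [mul_smul]; rw [h1, h1', ← h1, inv_smul_smul]
      · simp only [mul_smul]; rw [h2, h2', ← h2, inv_smul_smul]
      · simp only [mul_smul]; rw [h3, h3', ← h3, inv_smul_smul]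
      · simp only [mul_smul]; rw [h4, h4', ← h4, inv_smul_smul]
    · rintro ⟨u, ⟨h1', h2', h3', h4'⟩, rfl⟩
      simp only [MulEquiv.coe_toMonoidHom, MulAut.conj_apply, mul_smul]
      refine ⟨?_, ?_, ?_, ?_⟩
      · rw [← h1, inv_smul_smul, h1']
      · rw [← h2, inv_smul_smul, h2']
      · rw [← h3, inv_smul_smul, h3']
      · rw [← h4, inv_smul_smul, h4']
  rw [e]
  exact (Subgroup.card_map_of_injective (MulAut.conj g).injective).symm

namespace Tr4

variable (hNS : Tr4 M Ω)
include hNS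

theorem card_K4 {a b c d a' b' c' d' : Ω} (h : Dist4 a b c d) (h' : Dist4 a' b' c' d') :
    Nat.card (K4 M a b c d) = Nat.card (K4 M a' b' c' d') := by
  obtain ⟨g, h1, h2, h3, h4⟩ := hNS.trans h h'
  exact card_K4_conj h1 h2 h3 h4

/-- An involution interchanging two points and fixing two others. -/
theorem exists_inv [Finite M] {a b c d : Ω} (h : Dist4 a b c d) (hodd : Odd (Nat.card (K4 M a b c d))) :
    ∃ t : M, t • a = a ∧ t • b = b ∧ t • c = d ∧ t • d = c ∧ t * t = 1 := by
  have hd' : Dist4 a b d c := by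
    obtain ⟨h1, h2, h3, h4, h5, h6⟩ := h
    exact ⟨h1, h3, h2, h5, h4, h6.symm⟩
  obtain ⟨t₀, h1, h2, h3, h4⟩ := hNS.trans h hd'
  have hmem : t₀ * t₀ ∈ K4 M a b c d := mem_K4.2 ⟨by simp [mul_smul, h1], by simp [mul_smul, h2],
    by simp [mul_smul, h3, h4], by simp [mul_smul, h3, h4]⟩
  obtain ⟨m, hm⟩ := hodd
  refine ⟨(t₀ * t₀) ^ m * t₀, ?_, ?_, ?_, ?_, ?_⟩
  · rw [mul_smul, h1]
    exact (mem_K4.1 ((K4 M a b c d).pow_mem hmem m)).1
  · rw [mul_smul, h2]
    exact (mem_K4.1 ((K4 M a b c d).pow_mem hmem m)).2.1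
  · rw [mul_smul, h3]
    exact (mem_K4.1 ((K4 M a b c d).pow_mem hmem m)).2.2.2
  · rw [mul_smul, h4]
    exact (mem_K4.1 ((K4 M a b c d).pow_mem hmem m)).2.2.1
  · have hc : Commute ((t₀ * t₀) ^ m) t₀ := (Commute.mul_left (Commute.refl t₀) (Commute.refl t₀)).pow_left m
    have h5 : ((t₀ * t₀) ^ m * t₀) * ((t₀ * t₀) ^ m * t₀) = (t₀ * t₀) ^ (2 * m + 1) := by
      rw [pow_succ, pow_mul', sq]
      calc ((t₀ * t₀) ^ m * t₀) * ((t₀ * t₀) ^ m * t₀)
          = (t₀ * t₀) ^ m * (t₀ * (t₀ * t₀) ^ m) * t₀ := by group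
        _ = (t₀ * t₀) ^ m * ((t₀ * t₀) ^ m * t₀) * t₀ := by rw [hc.eq]
        _ = (t₀ * t₀) ^ m * (t₀ * t₀) ^ m * (t₀ * t₀) := by group
    rw [h5, ← hm]
    have h6 : ((⟨t₀ * t₀, hmem⟩ : K4 M a b c d)) ^ Nat.card (K4 M a b c d) = 1 := pow_card_eq_one'
    have h7 := congrArg Subtype.val h6
    rw [Subgroup.coe_pow] at h7
    exact h7

/-- An involution cannot fix four points. -/
theorem inv_not_fix4 [Finite M] {t : M} (ht : t * t = 1) (ht1 : t ≠ 1) {a b c d : Ω} (h : Dist4 a b c d)
    (hodd : Odd (Nat.card (K4 M a b c d))) (h1 : t • a = a) (h2 : t • b = b) (h3 : t • c = c)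
    (h4 : t • d = d) : False := by
  have hmem : t ∈ K4 M a b c d := mem_K4.2 ⟨h1, h2, h3, h4⟩
  have ho : orderOf t = 2 := orderOf_eq_prime (by rw [sq, ht]) ht1
  have hdvd : orderOf (⟨t, hmem⟩ : K4 M a b c d) ∣ Nat.card (K4 M a b c d) := orderOf_dvd_natCard _
  rw [Subgroup.orderOf_mk, ho] at hdvd
  obtain ⟨m, hm⟩ := hodd
  omega

/-- Centralising elements with prescribed values. -/
theorem exists_centralizing [Finite M] {t : M} (ht : t * t = 1) {c d y₀ y : Ω} (hcd : c ≠ d)
    (htc : t • c = d) (htd : t • d = c)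
    (hy₀ : t • y₀ ≠ y₀) (hy₀c : y₀ ≠ c) (hy₀d : y₀ ≠ d)
    (hy : t • y ≠ y) (hyc : y ≠ c) (hyd : y ≠ d)
    (hodd : Odd (Nat.card (K4 M c d y (t • y)))) :
    ∃ g : M, g • c = c ∧ g • d = d ∧ g • y₀ = y ∧ g * t = t * g := by
  have htt : ∀ x : Ω, t • t • x = x := fun x => by rw [← mul_smul, ht, one_smul]
  have hinv : t⁻¹ = t := inv_eq_of_mul_eq_one_left ht
  have hdist : ∀ {z : Ω}, t • z ≠ z → z ≠ c → z ≠ d → Dist4 c d z (t • z) := by
    intro z hz hzc hzd
    refine ⟨hcd, hzc.symm, ?_, hzd.symm, ?_, hz.symm⟩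
    · intro h
      apply hzd
      have := htt z
      rw [← h, htc] at this
      exact this.symm
    · intro h
      apply hzc
      have := htt z
      rw [← h, htd] at this
      exact this.symm
  obtain ⟨g₀, h1, h2, h3, h4⟩ := hNS.trans (hdist hy₀ hy₀c hy₀d) (hdist hy hyc hyd)
  set t' : M := g₀ * t * g₀⁻¹ with ht'
  have ht'c : t' • c = d := by
    simp only [ht', mul_smul]
    have e : g₀⁻¹ • c = c := by rw [inv_smul_eq_iff, h1]
    rw [e, htc, h2]
  have ht'd : t' • d = c := by
    simp only [ht', mul_smul]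
    have e : g₀⁻¹ • d = d := by rw [inv_smul_eq_iff, h2]
    rw [e, htd, h1]
  have ht'y : t' • y = t • y := by
    simp only [ht', mul_smul]
    have e : g₀⁻¹ • y = y₀ := by rw [inv_smul_eq_iff, h3]
    rw [e, h4]
  have ht'ty : t' • (t • y) = y := by
    simp only [ht', mul_smul]
    have e : g₀⁻¹ • (t • y) = t • y₀ := by rw [inv_smul_eq_iff, h4]
    rw [e, htt, h3]
  have ht't' : t' * t' = 1 := by
    calc t' * t' = g₀ * (t * t) * g₀⁻¹ := by rw [ht']; group
      _ = 1 := by rw [ht]; simp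
  set ξ : M := t' * t with hξ
  have hξmem : ξ ∈ K4 M c d y (t • y) := by
    refine mem_K4.2 ⟨?_, ?_, ?_, ?_⟩
    · rw [hξ, mul_smul, htc, ht'd]
    · rw [hξ, mul_smul, htd, ht'c]
    · rw [hξ, mul_smul, ht'ty]
    · rw [hξ, mul_smul, htt, ht'y]
  have hinvξ : t * ξ * t⁻¹ = ξ⁻¹ := by
    rw [hinv, hξ, mul_inv_rev, hinv, inv_eq_of_mul_eq_one_left ht't']
    calc t * (t' * t) * t = t * t' * (t * t) := by group
      _ = t * t' := by rw [ht]; simp
  -- a square root of `ξ`
  obtain ⟨m, hm⟩ := hodd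
  set h := Nat.card (K4 M c d y (t • y)) with hh
  have hξh : ξ ^ h = 1 := by
    have h6 : ((⟨ξ, hξmem⟩ : K4 M c d y (t • y))) ^ h = 1 := pow_card_eq_one'
    have h7 := congrArg Subtype.val h6
    rw [Subgroup.coe_pow] at h7
    exact h7
  set η : M := ξ ^ (m + 1) with hη
  have hη2 : η * η = ξ := by
    rw [hη, ← pow_add]
    have : m + 1 + (m + 1) = h + 1 := by omega
    rw [this, pow_succ, hξh, one_mul]
  have hηmem : η ∈ K4 M c d y (t • y) := (K4 M c d y (t • y)).pow_mem hξmem _
  have hinvη : t * η * t⁻¹ = η⁻¹ := by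
    rw [hη, ← conj_pow, hinvξ, inv_pow]
  obtain ⟨ηc, ηd, ηy, ηty⟩ := mem_K4.1 hηmem
  refine ⟨η⁻¹ * g₀, ?_, ?_, ?_, ?_⟩
  · rw [mul_smul, h1, inv_smul_eq_iff, ηc]
  · rw [mul_smul, h2, inv_smul_eq_iff, ηd]
  · rw [mul_smul, h3, inv_smul_eq_iff, ηy]
  · -- commutation
    have e1 : g₀ * t = t' * g₀ := by rw [ht']; group
    have e2 : t' = η * η * t := by
      rw [hη2, hξ, mul_assoc, ht, mul_one]
    have e3 : t * η = η⁻¹ * t := by
      rw [mul_inv_eq_iff_eq_mul] at hinvη
      exact hinvη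
    calc η⁻¹ * g₀ * t = η⁻¹ * (g₀ * t) := by group
      _ = η⁻¹ * (t' * g₀) := by rw [e1]
      _ = η⁻¹ * (η * η * t * g₀) := by rw [e2]
      _ = η * (t * g₀) := by group
      _ = (η * t) * g₀ := by group
      _ = (t * η⁻¹) * g₀ := by
        have : η * t = t * η⁻¹ := by
          calc η * t = η * (t * η) * η⁻¹ := by group
            _ = η * (η⁻¹ * t) * η⁻¹ := by rw [e3]
            _ = t * η⁻¹ := by group
        rw [this]
      _ = t * (η⁻¹ * g₀) := by group

end Tr4

/-- Parity of the number of fixed points of an involution. -/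
theorem fix_parity [Fintype Ω] [DecidableEq Ω] {t : M} (ht : t * t = 1) :
    (Finset.univ.filter (fun x : Ω => t • x = x)).card % 2 = Fintype.card Ω % 2 := by
  have : Fact (Nat.Prime 2) := ⟨Nat.prime_two⟩
  have hσ : (toPerm t : Perm Ω) ^ 2 ^ 1 = 1 := by
    ext x
    simp only [pow_one, sq, Perm.mul_apply, toPerm_apply, Perm.one_apply]
    rw [← mul_smul, ht, one_smul]
  have hmod := Perm.card_compl_support_modEq hσ
  have e : (toPerm t : Perm Ω).supportᶜ = Finset.univ.filter (fun x : Ω => t • x = x) := by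
    ext x
    simp [Perm.mem_support]
  rw [e] at hmod
  exact hmod

/-- Tits' bound. -/
theorem delta_bound [Finite M] [Fintype Ω] [DecidableEq Ω] (hNS : NS4 M Ω) {t : M} (ht : t * t = 1)
    {a b c d : Ω} (hd : Dist4 a b c d) (hta : t • a = a) (htb : t • b = b) (htc : t • c = d)
    (htd : t • d = c) (hodd : ∀ x y z w : Ω, Dist4 x y z w → Odd (Nat.card (K4 M x y z w))) :
    (Finset.univ.filter (fun x : Ω => t • x ≠ x ∧ x ≠ c ∧ x ≠ d)).card ≤
      Nat.card (K4 M a b c d ⊓ Subgroup.centralizer {t} : Subgroup M) *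
        ((Finset.univ.filter (fun x : Ω => t • x = x)).card).factorial := by
  classical
  set Fx : Finset Ω := Finset.univ.filter (fun x : Ω => t • x = x) with hFx
  set Δ : Finset Ω := Finset.univ.filter (fun x : Ω => t • x ≠ x ∧ x ≠ c ∧ x ≠ d) with hΔ
  obtain ⟨hab, hac, had, hbc, hbd, hcd⟩ := hd
  have htt : ∀ x : Ω, t • t • x = x := fun x => by rw [← mul_smul, ht, one_smul]
  by_cases hne : Δ.Nonempty
  swap
  · rw [Finset.not_nonempty_iff_eq_empty] at hne
    rw [hne]
    simp
  obtain ⟨y₀, hy₀⟩ := hne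
  simp only [hΔ, Finset.mem_filter, Finset.mem_univ, true_and] at hy₀
  obtain ⟨hy₀1, hy₀2, hy₀3⟩ := hy₀
  have hdist : ∀ {z : Ω}, t • z ≠ z → z ≠ c → z ≠ d → Dist4 c d z (t • z) := by
    intro z hz hzc hzd
    refine ⟨hcd, hzc.symm, ?_, hzd.symm, ?_, hz.symm⟩
    · intro h
      apply hzd
      have := htt z
      rw [← h, htc] at this
      exact this.symm
    · intro h
      apply hzc
      have := htt z
      rw [← h, htd] at this
      exact this.symm
  have hex : ∀ y : Δ, ∃ g : M, g • c = c ∧ g • d = d ∧ g • y₀ = y ∧ g * t = t * g := by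
    rintro ⟨y, hy⟩
    simp only [hΔ, Finset.mem_filter, Finset.mem_univ, true_and] at hy
    exact hNS.exists_centralizing ht hcd htc htd hy₀1 hy₀2 hy₀3 hy.1 hy.2.1 hy.2.2
      (hodd _ _ _ _ (hdist hy.1 hy.2.1 hy.2.2))
  choose g hgc hgd hgy hgt using hex
  have hcomm : ∀ (y : Δ) (x : Ω), g y • t • x = t • g y • x := by
    intro y x
    have := congrArg (fun k : M => k • x) (hgt y)
    simpa [mul_smul] using this
  have hpres : ∀ (y : Δ) (x : Ω), (g y • x) ∈ Fx ↔ x ∈ Fx := by
    intro y x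
    simp only [hFx, Finset.mem_filter, Finset.mem_univ, true_and]
    rw [← hcomm y x]
    exact smul_left_cancel_iff _
  let f : Δ → Perm Fx := fun y => (toPerm (g y) : Perm Ω).subtypePerm (fun x => by
    simp only [toPerm_apply]
    exact hpres y x)
  have hfval : ∀ (y : Δ) (x : Fx), ((f y x : Fx) : Ω) = g y • (x : Ω) := fun _ _ => rfl
  have haF : a ∈ Fx := by simp [hFx, hta]
  have hbF : b ∈ Fx := by simp [hFx, htb]
  set C : Subgroup M := K4 M a b c d ⊓ Subgroup.centralizer {t} with hC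
  have := Fintype.ofFinite C
  have hfib : ∀ π ∈ (Finset.univ : Finset (Perm Fx)),
      (Finset.univ.filter (fun y : Δ => f y = π)).card ≤ Nat.card C := by
    intro π _
    by_cases hemp : (Finset.univ.filter (fun y : Δ => f y = π)).Nonempty
    swap
    · rw [Finset.not_nonempty_iff_eq_empty] at hemp
      rw [hemp]
      simp
    obtain ⟨y₁, hy₁⟩ := hemp
    simp only [Finset.mem_filter, Finset.mem_univ, true_and] at hy₁
    have hmem : ∀ y : Δ, f y = π → (g y₁)⁻¹ * g y ∈ C := by
      intro y hy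
      have hagree : ∀ x : Fx, g y • (x : Ω) = g y₁ • (x : Ω) := by
        intro x
        rw [← hfval, ← hfval, hy, hy₁]
      refine Subgroup.mem_inf.2 ⟨mem_K4.2 ⟨?_, ?_, ?_, ?_⟩, ?_⟩
      · rw [mul_smul, inv_smul_eq_iff]
        exact hagree ⟨a, haF⟩
      · rw [mul_smul, inv_smul_eq_iff]
        exact hagree ⟨b, hbF⟩
      · rw [mul_smul, hgc, inv_smul_eq_iff, hgc]
      · rw [mul_smul, hgd, inv_smul_eq_iff, hgd]
      · rw [Subgroup.mem_centralizer_iff]
        intro u hu
        rw [Set.mem_singleton_iff] at hu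
        subst hu
        have e1 := hgt y
        have e2 := hgt y₁
        have e3 : (g y₁)⁻¹ * u = u * (g y₁)⁻¹ := by
          rw [inv_mul_eq_iff_eq_mul, ← mul_assoc, e2]
          simp
        calc u * ((g y₁)⁻¹ * g y) = (u * (g y₁)⁻¹) * g y := by group
          _ = (g y₁)⁻¹ * u * g y := by rw [e3]
          _ = (g y₁)⁻¹ * (u * g y) := by group
          _ = (g y₁)⁻¹ * (g y * u) := by rw [e1]
          _ = _ := by group
    have hle : (Finset.univ.filter (fun y : Δ => f y = π)).card ≤ (Finset.univ : Finset C).card := by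
      refine Finset.card_le_card_of_injOn
        (fun y => if hy : f y = π then ⟨(g y₁)⁻¹ * g y, hmem y hy⟩ else 1)
        (fun _ _ => Finset.mem_univ _) ?_
      intro y hy y' hy' heq
      simp only [Finset.coe_filter, Finset.mem_univ, true_and, Set.mem_ofPred_eq] at hy hy'
      simp only [hy, hy', dif_pos] at heq
      have h1 : (g y₁)⁻¹ * g y = (g y₁)⁻¹ * g y' := congrArg Subtype.val heq
      have h2 : g y = g y' := mul_left_cancel h1
      apply Subtype.ext
      rw [← hgy y, ← hgy y', h2]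
    rw [Finset.card_univ, ← Nat.card_eq_fintype_card] at hle
    exact hle
  have hle := Finset.card_le_mul_card_image_of_maps_to (s := (Finset.univ : Finset Δ))
    (t := (Finset.univ : Finset (Perm Fx))) (f := f) (fun x _ => Finset.mem_univ _) _ hfib
  rw [Finset.card_univ, Finset.card_univ, Fintype.card_perm, Fintype.card_coe, Fintype.card_coe] at hle
  exact hle

/-- The count of points. -/
theorem card_split [Fintype Ω] [DecidableEq Ω] {t : M} {c d : Ω} (hcd : c ≠ d)
    (htc : t • c = d) (htd : t • d = c) :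
    (Finset.univ.filter (fun x : Ω => t • x = x)).card +
      (Finset.univ.filter (fun x : Ω => t • x ≠ x ∧ x ≠ c ∧ x ≠ d)).card + 2 = Fintype.card Ω := by
  classical
  have h1 : (Finset.univ : Finset Ω) = (Finset.univ.filter (fun x : Ω => t • x = x)) ∪
      ((Finset.univ.filter (fun x : Ω => t • x ≠ x ∧ x ≠ c ∧ x ≠ d)) ∪ {c, d}) := by
    ext x
    simp only [Finset.mem_univ, Finset.mem_union, Finset.mem_filter, true_and, Finset.mem_insert,
      Finset.mem_singleton, true_iff]
    tauto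
  have h2 : Disjoint (Finset.univ.filter (fun x : Ω => t • x ≠ x ∧ x ≠ c ∧ x ≠ d)) {c, d} := by
    rw [Finset.disjoint_left]
    intro x hx hx'
    simp only [Finset.mem_filter, Finset.mem_univ, true_and, Finset.mem_insert,
      Finset.mem_singleton] at hx hx'
    tauto
  have h3 : Disjoint (Finset.univ.filter (fun x : Ω => t • x = x))
      ((Finset.univ.filter (fun x : Ω => t • x ≠ x ∧ x ≠ c ∧ x ≠ d)) ∪ {c, d}) := by
    rw [Finset.disjoint_left]
    intro x hx hx'
    simp only [Finset.mem_filter, Finset.mem_univ, true_and, Finset.mem_union, Finset.mem_insert,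
      Finset.mem_singleton] at hx hx'
    rcases hx' with h | h | h
    · exact h.1 hx
    · subst h
      rw [htc] at hx
      exact hcd hx.symm
    · subst h
      rw [htd] at hx
      exact hcd hx
  have h4 := congrArg Finset.card h1
  rw [Finset.card_univ, Finset.card_union_of_disjoint h3, Finset.card_union_of_disjoint h2,
    Finset.card_pair hcd] at h4
  omega

/-- The case of exactly two fixed points. -/
theorem two_fixed [Finite M] [Fintype Ω] [DecidableEq Ω] (hNS : NS4 M Ω) {t : M} (ht : t * t = 1)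
    {a b c d : Ω} (hd : Dist4 a b c d) (hta : t • a = a) (htb : t • b = b) (htc : t • c = d)
    (htd : t • d = c) (hodd : ∀ x y z w : Ω, Dist4 x y z w → Odd (Nat.card (K4 M x y z w)))
    (hF : ∀ x, t • x = x → x = a ∨ x = b) :
    Fintype.card Ω ≤ 4 + 2 * Nat.card (K4 M a b c d ⊓ Subgroup.centralizer {t} : Subgroup M) := by
  classical
  have hle := delta_bound hNS ht hd hta htb htc htd hodd
  have hsplit := card_split hd.2.2.2.2.2 htc htd (t := t)
  have hFc : (Finset.univ.filter (fun x : Ω => t • x = x)) = {a, b} := by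
    ext x
    simp only [Finset.mem_filter, Finset.mem_univ, true_and, Finset.mem_insert, Finset.mem_singleton]
    constructor
    · exact hF x
    · rintro (rfl | rfl)
      · exact hta
      · exact htb
  rw [hFc, Finset.card_pair hd.1] at hle hsplit
  simp only [Nat.factorial] at hle
  omega

/-- The case of three fixed points. -/
theorem three_fixed [Finite M] [Fintype Ω] [DecidableEq Ω] (hNS : NS4 M Ω) {t : M} (ht : t * t = 1)
    (ht1 : t ≠ 1)
    {a b c d r : Ω} (hd : Dist4 a b c d) (hta : t • a = a) (htb : t • b = b) (htc : t • c = d)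
    (htd : t • d = c) (hodd : ∀ x y z w : Ω, Dist4 x y z w → Odd (Nat.card (K4 M x y z w)))
    (htr : t • r = r) (hra : r ≠ a) (hrb : r ≠ b) :
    Fintype.card Ω ≤ 11 ∧ Fintype.card Ω % 2 = 1 := by
  classical
  obtain ⟨hab, hac, had, hbc, hbd, hcd⟩ := id hd
  have hrc : r ≠ c := by
    rintro rfl
    exact hcd (htr.symm.trans htc)
  have hrd : r ≠ d := by
    rintro rfl
    exact hcd (htd.symm.trans htr)
  have hFc : (Finset.univ.filter (fun x : Ω => t • x = x)) = {a, b, r} := by
    ext x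
    simp only [Finset.mem_filter, Finset.mem_univ, true_and, Finset.mem_insert, Finset.mem_singleton]
    constructor
    · intro hx
      by_contra hcon
      push Not at hcon
      obtain ⟨h1, h2, h3⟩ := hcon
      have hd4 : Dist4 a b r x := ⟨hab, hra.symm, h1.symm, hrb.symm, h2.symm, h3.symm⟩
      exact hNS.inv_not_fix4 ht ht1 hd4 (hodd _ _ _ _ hd4) hta htb htr hx
    · rintro (rfl | rfl | rfl)
      · exact hta
      · exact htb
      · exact htr
  have hF3 : ({a, b, r} : Finset Ω).card = 3 := by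
    rw [Finset.card_eq_three]
    exact ⟨a, b, r, hab, hra.symm, hrb.symm, rfl⟩
  have hC1 : Nat.card (K4 M a b c d ⊓ Subgroup.centralizer {t} : Subgroup M) = 1 := by
    rw [Nat.card_eq_one_iff_unique]
    refine ⟨⟨fun u v => ?_⟩, ⟨1⟩⟩
    have key : ∀ u : (K4 M a b c d ⊓ Subgroup.centralizer {t} : Subgroup M), (u : M) = 1 := by
      rintro ⟨z, hz1, hz2⟩
      obtain ⟨h1, h2, h3, h4⟩ := mem_K4.1 hz1
      have hcomm : t * z = z * t := by
        have hz2' : z ∈ Subgroup.centralizer {t} := hz2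
        rw [Subgroup.mem_centralizer_iff] at hz2'
        exact hz2' t rfl
      have hzr : t • z • r = z • r := by
        rw [← mul_smul, hcomm, mul_smul, htr]
      have hzrF : z • r ∈ (Finset.univ.filter (fun x : Ω => t • x = x)) := by simpa using hzr
      rw [hFc] at hzrF
      simp only [Finset.mem_insert, Finset.mem_singleton] at hzrF
      have hzr' : z • r = r := by
        rcases hzrF with h | h | h
        · exact absurd (by rw [← h1] at h; exact smul_left_cancel z h) hra
        · exact absurd (by rw [← h2] at h; exact smul_left_cancel z h) hrb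
        · exact h
      exact hNS.rigid z hd hra hrb hrc hrd h1 h2 h3 h4 hzr'
    exact Subtype.ext ((key u).trans (key v).symm)
  have hle := delta_bound hNS ht hd hta htb htc htd hodd
  have hsplit := card_split hcd htc htd (t := t)
  have hpar := fix_parity ht (Ω := Ω)
  rw [hFc, hF3] at hle hsplit hpar
  rw [hC1] at hle
  simp only [Nat.factorial] at hle
  omega

end Cfsg.Agent.Lib.Perm.Tits
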