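import Cfsg.Agent.Lib.Perm.Normal

/-!
# Wagner's theorem

A non-trivial normal subgroup of a 3-transitive group of odd degree at least 5 is 3-transitive.
The argument is by Sylow: the setwise stabilizer in `N` of a pair has Sylow 2-subgroups with a
unique fixed point.
-/

set_option autoImplicit false

open MulAction
open scoped Pointwise

namespace Cfsg.Agent.Lib.Perm.Wagner

open Cfsg.Agent.Lib.Perm.Regular Cfsg.Agent.Lib.Perm.Normal

section Abstract

variable {Γ : Type*} [Group Γ] {X : Type*} [MulAction Γ X]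

/-- If a normal subgroup `U` of a transitive group contains a 2-subgroup with at most one fixed
point, and the degree is odd, then `U` is transitive. -/
theorem normal_transitive_of_two_subgroup [IsPretransitive Γ X] (hodd : Odd (Nat.card X))
    (U : Subgroup Γ) [U.Normal] (S : Subgroup Γ) (hSU : S ≤ U) (hS : IsPGroup 2 S)
    (hfix : ∀ x y : X, (∀ s ∈ S, s • x = x) → (∀ s ∈ S, s • y = y) → x = y) :
    IsPretransitive U X := by
  classical
  haveI : Fact (Nat.Prime 2) := ⟨Nat.prime_two⟩
  have key : ∀ x : X, ∃ y ∈ orbit U x, ∀ s ∈ S, s • y = y := by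
    intro x
    have hB : IsBlock Γ (orbit U x) := IsBlock.orbit_of_normal x
    have hdvd := hB.ncard_dvd_card ⟨x, mem_orbit_self x⟩
    let Y : SubMulAction S X :=
      { carrier := orbit U x
        smul_mem' := by
          rintro ⟨s, hs⟩ y hy
          obtain ⟨u, rfl⟩ := hy
          exact ⟨⟨s, hSU hs⟩ * u, mul_smul (⟨s, hSU hs⟩ : U) u x⟩ }
    have hcard : Nat.card Y = (orbit U x).ncard := rfl
    have hnd : ¬ 2 ∣ Nat.card Y := by
      rw [hcard]
      intro h
      have := h.trans hdvd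
      exact (Nat.not_even_iff_odd.mpr hodd) (even_iff_two_dvd.mpr this)
    obtain ⟨y, hy⟩ := hS.nonempty_fixed_point_of_prime_not_dvd_card Y hnd
    refine ⟨y.1, y.2, fun s hs => ?_⟩
    have := hy ⟨s, hs⟩
    exact congrArg Subtype.val this
  refine ⟨fun x x' => ?_⟩
  obtain ⟨y, hy, hyf⟩ := key x
  obtain ⟨y', hy', hyf'⟩ := key x'
  have h := hfix y y' hyf hyf'
  subst h
  obtain ⟨u, hu⟩ := hy
  obtain ⟨u', hu'⟩ := hy'
  refine ⟨u'⁻¹ * u, ?_⟩
  rw [mul_smul, inv_smul_eq_iff]
  exact hu.trans hu'.symm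

end Abstract

variable {G : Type*} [Group G] {α : Type*} [MulAction G α]

/-- Setwise stabilizer of the pair `{a, b}`. -/
def pairStab (a b : α) : Subgroup G where
  carrier := {g | (g • a = a ∧ g • b = b) ∨ (g • a = b ∧ g • b = a)}
  mul_mem' := by
    rintro x y (⟨h1, h2⟩ | ⟨h1, h2⟩) (⟨h3, h4⟩ | ⟨h3, h4⟩)
    · left; simp [mul_smul, h1, h2, h3, h4]
    · right; simp [mul_smul, h1, h2, h3, h4]
    · right; simp [mul_smul, h1, h2, h3, h4]
    · left; simp [mul_smul, h1, h2, h3, h4]
  one_mem' := Or.inl ⟨one_smul _ _, one_smul _ _⟩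
  inv_mem' := by
    rintro x (⟨h1, h2⟩ | ⟨h1, h2⟩)
    · left
      exact ⟨by rw [inv_smul_eq_iff, h1], by rw [inv_smul_eq_iff, h2]⟩
    · right
      exact ⟨by rw [inv_smul_eq_iff, h2], by rw [inv_smul_eq_iff, h1]⟩

/-- Pointwise stabilizer in `N` of two points. -/
def twoStab (N : Subgroup G) (a b : α) : Subgroup G :=
  N ⊓ stabilizer G a ⊓ stabilizer G b

theorem mem_twoStab {N : Subgroup G} {a b : α} {x : G} :
    x ∈ twoStab N a b ↔ x ∈ N ∧ x • a = a ∧ x • b = b := by
  simp [twoStab, Subgroup.mem_inf, mem_stabilizer_iff, and_assoc]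

/-- Two-point stabilizers in a 2-transitive normal group have the same order. -/
theorem card_twoStab_eq (N : Subgroup G)
    (h2 : ∀ a b c d : α, a ≠ b → c ≠ d → ∃ x ∈ N, x • a = c ∧ x • b = d)
    {a b c d : α} (hab : a ≠ b) (hcd : c ≠ d) :
    Nat.card (twoStab N a b) = Nat.card (twoStab N c d) := by
  obtain ⟨x, hx, hxa, hxb⟩ := h2 a b c d hab hcd
  have hmap : (twoStab N a b).map (MulAut.conj x).toMonoidHom = twoStab N c d := by
    ext y
    constructor
    · rintro ⟨z, hz, rfl⟩
      obtain ⟨hzN, hza, hzb⟩ := mem_twoStab.mp hz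
      apply mem_twoStab.mpr
      refine ⟨?_, ?_, ?_⟩
      · have := N.mul_mem (N.mul_mem hx hzN) (N.inv_mem hx)
        simpa using this
      · simp [← hxa, mul_smul, hza]
      · simp [← hxb, mul_smul, hzb]
    · intro hy
      obtain ⟨hyN, hyc, hyd⟩ := mem_twoStab.mp hy
      refine ⟨x⁻¹ * y * x, ?_, ?_⟩
      · apply mem_twoStab.mpr
        refine ⟨N.mul_mem (N.mul_mem (N.inv_mem hx) hyN) hx, ?_, ?_⟩
        · rw [mul_smul, mul_smul, hxa, hyc, inv_smul_eq_iff, hxa]
        · rw [mul_smul, mul_smul, hxb, hyd, inv_smul_eq_iff, hxb]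
      · simp [mul_assoc]
  rw [← hmap]
  exact (Subgroup.card_map_of_injective (MulAut.conj x).injective).symm

/-- Wagner's key step: for odd degree, if `G` is 3-transitive and `N` normal 2-transitive then the
two point stabilizer in `N` is transitive on the rest. -/
theorem twoStab_transitive [Finite G] [Finite α] (N : Subgroup G) [hN : N.Normal]
    (h2 : ∀ a b c d : α, a ≠ b → c ≠ d → ∃ x ∈ N, x • a = c ∧ x • b = d)
    (h3 : ∀ a b c d : α, a ≠ b → c ≠ a → c ≠ b → d ≠ a → d ≠ b →
      ∃ g : G, g • a = a ∧ g • b = b ∧ g • c = d)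
    (hodd : Odd (Nat.card α)) {a b : α} (hab : a ≠ b) {c d : α} (hca : c ≠ a) (hcb : c ≠ b)
    (hda : d ≠ a) (hdb : d ≠ b) : ∃ x ∈ N, x • a = a ∧ x • b = b ∧ x • c = d := by
  classical
  haveI : Fact (Nat.Prime 2) := ⟨Nat.prime_two⟩
  let Kt : Subgroup G := pairStab a b
  let X : SubMulAction Kt α :=
    { carrier := {x | x ≠ a ∧ x ≠ b}
      smul_mem' := by
        rintro ⟨g, hg⟩ x ⟨hxa, hxb⟩
        rcases hg with ⟨h1, h2⟩ | ⟨h1, h2⟩
        · constructor
          · intro h
            apply hxa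
            apply smul_left_cancel g
            rw [h1]
            exact h
          · intro h
            apply hxb
            apply smul_left_cancel g
            rw [h2]
            exact h
        · constructor
          · intro h
            apply hxb
            apply smul_left_cancel g
            rw [h2]
            exact h
          · intro h
            apply hxa
            apply smul_left_cancel g
            rw [h1]
            exact h }
  -- the set `X` has odd cardinality
  have hXcard : Nat.card X + 2 = Nat.card α := by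
    have hset : (X : Set α) = ({a, b} : Set α)ᶜ := by
      ext x
      simp [X, not_or]
      rfl
    have h1 := Set.ncard_add_ncard_compl ({a, b} : Set α)
    rw [Set.ncard_pair hab, ← hset] at h1
    have h2 : Nat.card X = (X : Set α).ncard := rfl
    omega
  have hXodd : Odd (Nat.card X) := by
    rw [← hXcard] at hodd
    rcases hodd with ⟨k, hk⟩
    exact ⟨k - 1, by omega⟩
  haveI htX : IsPretransitive Kt X := by
    refine ⟨fun x y => ?_⟩
    obtain ⟨g, hg1, hg2, hg3⟩ := h3 a b x.1 y.1 hab x.2.1 x.2.2 y.2.1 y.2.2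
    exact ⟨⟨g, Or.inl ⟨hg1, hg2⟩⟩, Subtype.ext hg3⟩
  -- `U`
  let U : Subgroup Kt := N.subgroupOf Kt
  haveI : U.Normal := inferInstance
  -- order of `U`
  let D : Subgroup G := twoStab N a b
  have hDle : D ≤ N ⊓ Kt := by
    intro x hx
    obtain ⟨hxN, hxa, hxb⟩ := mem_twoStab.mp hx
    exact ⟨hxN, Or.inl ⟨hxa, hxb⟩⟩
  obtain ⟨t, htN, hta, htb⟩ := h2 a b b a hab hab.symm
  have htKt : t ∈ Kt := Or.inr ⟨hta, htb⟩
  let UG : Subgroup G := N ⊓ Kt
  have hidx : (D.subgroupOf UG).index = 2 := by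
    rw [Subgroup.index_eq_two_iff]
    refine ⟨⟨t, htN, htKt⟩, fun x => ?_⟩
    obtain ⟨x, hxN, hxK⟩ := x
    have hmem : ∀ y : UG, y ∈ D.subgroupOf UG ↔ ((y : G) • a = a ∧ (y : G) • b = b) := by
      intro y
      rw [Subgroup.mem_subgroupOf, mem_twoStab]
      exact ⟨fun h => h.2, fun h => ⟨y.2.1, h⟩⟩
    rw [hmem, hmem]
    change Xor ((x * t) • a = a ∧ (x * t) • b = b) (x • a = a ∧ x • b = b)
    rcases hxK with ⟨h1, h2⟩ | ⟨h1, h2⟩
    · right
      refine ⟨⟨h1, h2⟩, ?_⟩
      rintro ⟨h3, -⟩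
      rw [mul_smul, hta, h2] at h3
      exact hab h3.symm
    · left
      refine ⟨⟨?_, ?_⟩, ?_⟩
      · rw [mul_smul, hta, h2]
      · rw [mul_smul, htb, h1]
      · rintro ⟨h3, -⟩
        rw [h1] at h3
        exact hab h3.symm
  have hcardU : Nat.card UG = 2 * Nat.card D := by
    have h := Subgroup.card_mul_index (D.subgroupOf UG)
    rw [hidx] at h
    have h' : Nat.card (D.subgroupOf UG) = Nat.card D :=
      Nat.card_congr (Subgroup.subgroupOfEquivOfLe hDle).toEquiv
    rw [h'] at h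
    rw [← h, mul_comm]
  have hDpos : Nat.card D ≠ 0 := Nat.card_pos.ne'
  -- A Sylow 2-subgroup of `UG`
  obtain ⟨P⟩ : Nonempty (Sylow 2 UG) := inferInstance
  let SG : Subgroup G := (P : Subgroup UG).map UG.subtype
  have hSGle : SG ≤ UG := by
    rintro _ ⟨y, -, rfl⟩
    exact y.2
  have hSGcard : Nat.card SG = 2 ^ (Nat.card UG).factorization 2 := by
    rw [← Sylow.card_eq_multiplicity P]
    exact Subgroup.card_map_of_injective UG.subtype_injective
  have hSGp : IsPGroup 2 SG := P.isPGroup'.map _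
  -- No two points are fixed by `SG`
  have hclaim : ∀ x y : α, x ≠ y → (∀ s ∈ SG, s • x = x) → (∀ s ∈ SG, s • y = y) → False := by
    intro x y hxy hx hy
    have hle : SG ≤ twoStab N x y := by
      intro s hs
      exact mem_twoStab.mpr ⟨(hSGle hs).1, hx s hs, hy s hs⟩
    have hd := Subgroup.card_dvd_of_le hle
    rw [← card_twoStab_eq N h2 hab hxy, hSGcard] at hd
    have h4 : 2 ^ ((Nat.card UG).factorization 2 + 1) ∣ Nat.card UG := by
      rw [hcardU, pow_succ, mul_comm]
      exact Nat.mul_dvd_mul_left 2 (by rw [← hcardU]; exact hd)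
    exact Nat.pow_succ_factorization_not_dvd (Nat.card_pos.ne') Nat.prime_two h4
  -- Transfer to `Kt`
  let SK : Subgroup Kt := SG.subgroupOf Kt
  have hSKp : IsPGroup 2 SK := hSGp.comap_of_injective Kt.subtype Subtype.val_injective
  have hSKU : SK ≤ U := by
    intro s hs
    exact (hSGle hs).1
  have hfixX : ∀ x y : X, (∀ s ∈ SK, s • x = x) → (∀ s ∈ SK, s • y = y) → x = y := by
    intro x y hx hy
    by_contra hne
    apply hclaim x.1 y.1 (fun h => hne (Subtype.ext h))
    · intro s hs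
      have := hx ⟨s, (hSGle hs).2⟩ hs
      exact congrArg Subtype.val this
    · intro s hs
      have := hy ⟨s, (hSGle hs).2⟩ hs
      exact congrArg Subtype.val this
  have htU : IsPretransitive U X := normal_transitive_of_two_subgroup hXodd U SK hSKU hSKp hfixX
  -- a fixed point
  have hnd : ¬ 2 ∣ Nat.card X := fun h =>
    (Nat.not_even_iff_odd.mpr hXodd) (even_iff_two_dvd.mpr h)
  obtain ⟨c₀, hc₀⟩ := hSKp.nonempty_fixed_point_of_prime_not_dvd_card X hnd
  -- an element of `SG` outside `D`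
  obtain ⟨t₀, ht₀, ht₀a, ht₀b⟩ : ∃ t₀ ∈ SG, t₀ • a = b ∧ t₀ • b = a := by
    by_contra hcon
    have hall : ∀ s ∈ SG, s • a = a ∧ s • b = b := by
      intro s hs
      rcases (hSGle hs).2 with h | h
      · exact h
      · exact absurd ⟨s, hs, h⟩ hcon
    exact hclaim a b hab (fun s hs => (hall s hs).1) (fun s hs => (hall s hs).2)
  have ht₀N : t₀ ∈ N := (hSGle ht₀).1
  have ht₀c : t₀ • (c₀ : α) = c₀ := by
    have := hc₀ ⟨⟨t₀, (hSGle ht₀).2⟩, ht₀⟩
    exact congrArg Subtype.val this
  have hreach : ∀ x : X, ∃ e ∈ N, e • a = a ∧ e • b = b ∧ e • (c₀ : α) = x := by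
    intro x
    obtain ⟨u, hu⟩ := htU.exists_smul_eq c₀ x
    have huN : ((u : Kt) : G) ∈ N := u.2
    have hu' : ((u : Kt) : G) • (c₀ : α) = x := congrArg Subtype.val hu
    rcases (u : Kt).2 with ⟨h1, h4⟩ | ⟨h1, h4⟩
    · exact ⟨_, huN, h1, h4, hu'⟩
    · refine ⟨((u : Kt) : G) * t₀⁻¹, N.mul_mem huN (N.inv_mem ht₀N), ?_, ?_, ?_⟩
      · rw [mul_smul, show t₀⁻¹ • a = b by rw [inv_smul_eq_iff, ht₀b], h4]
      · rw [mul_smul, show t₀⁻¹ • b = a by rw [inv_smul_eq_iff, ht₀a], h1]
      · rw [mul_smul, show t₀⁻¹ • (c₀ : α) = c₀ by rw [inv_smul_eq_iff, ht₀c], hu']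
  obtain ⟨e₁, he₁N, he₁a, he₁b, he₁c⟩ := hreach ⟨c, hca, hcb⟩
  obtain ⟨e₂, he₂N, he₂a, he₂b, he₂c⟩ := hreach ⟨d, hda, hdb⟩
  refine ⟨e₂ * e₁⁻¹, N.mul_mem he₂N (N.inv_mem he₁N), ?_, ?_, ?_⟩
  · rw [mul_smul, show e₁⁻¹ • a = a by rw [inv_smul_eq_iff, he₁a], he₂a]
  · rw [mul_smul, show e₁⁻¹ • b = b by rw [inv_smul_eq_iff, he₁b], he₂b]
  · rw [mul_smul, show e₁⁻¹ • c = (c₀ : α) by rw [inv_smul_eq_iff, he₁c], he₂c]

/-- Wagner's theorem: a non-trivial normal subgroup of a 3-transitive group of odd degree at least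
5 is 3-transitive. -/
theorem wagner [Finite α] [FaithfulSMul G α] (hodd : Odd (Nat.card α)) (h5 : 5 ≤ Nat.card α)
    (hG : IsMultiplyPretransitive G α 3) (N : Subgroup G) [hNn : N.Normal] (hN : N ≠ ⊥) :
    IsMultiplyPretransitive N α 3 := by
  classical
  haveI : Finite G := Finite.of_injective (toPermHom G α) (fun p q hpq => by
    apply FaithfulSMul.eq_of_smul_eq_smul (α := α)
    intro c
    exact congrArg (fun σ : Equiv.Perm α => σ c) hpq)
  haveI := Fintype.ofFinite α
  -- `N` is 2-transitive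
  have h2 : IsMultiplyPretransitive N α 2 := by
    rcases jordan_normal 2 (G := G) (α := α) (by omega) (by omega) hG N hN with h | ⟨-, hcomm, hexp⟩
    · exact h
    · exfalso
      have h2t : IsMultiplyPretransitive G α 2 :=
        haveI := hG
        isMultiplyPretransitive_of_le (n := 3) (by omega) (by omega)
      have hprim := isPreprimitive_of_is_two_pretransitive h2t
      have htr := isPretransitive_of_normal_of_ne_bot hprim N hN
      -- `N` is regular
      have hreg : ∀ x : α, stabilizer N x = ⊥ := by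
        intro x
        rw [Subgroup.eq_bot_iff_forall]
        intro y hy
        exact semiregular_of_comm htr (fun p q => hcomm.is_comm.comm p q) x y hy
      obtain ⟨x⟩ : Nonempty α := by
        have : 0 < Nat.card α := by omega
        exact (Nat.card_pos_iff.mp this).1
      have hbij : Function.Bijective (fun n : N => (n : G) • x) := by
        refine ⟨fun a b h => Subtype.ext (eq_of_smul_eq hreg (x := x) a.2 b.2 h), fun y => ?_⟩
        obtain ⟨n, hn, hny⟩ := exists_mem_smul_eq htr x y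
        exact ⟨⟨n, hn⟩, hny⟩
      have hcard : Nat.card N = Nat.card α := Nat.card_congr (Equiv.ofBijective _ hbij)
      obtain ⟨y, hy⟩ := Subgroup.ne_bot_iff_exists_ne_one.mp hN
      have hord : orderOf y = 2 := by
        apply orderOf_eq_prime
        · apply Subtype.ext
          simpa using hexp y y.2
        · exact hy
      have hdvd : 2 ∣ Nat.card N := by
        rw [← hord]
        exact orderOf_dvd_natCard y
      rw [hcard] at hdvd
      exact (Nat.not_even_iff_odd.mpr hodd) (even_iff_two_dvd.mpr hdvd)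
  have h2e : ∀ a b c d : α, a ≠ b → c ≠ d → ∃ x ∈ N, x • a = c ∧ x • b = d := by
    intro a b c d hab hcd
    obtain ⟨x, h1, h3⟩ := is_two_pretransitive_iff.mp h2 hab hcd
    exact ⟨x, x.2, h1, h3⟩
  -- `G` fixes two points and is transitive on the others
  have h3e : ∀ a b c d : α, a ≠ b → c ≠ a → c ≠ b → d ≠ a → d ≠ b →
      ∃ g : G, g • a = a ∧ g • b = b ∧ g • c = d := by
    intro a b c d hab hca hcb hda hdb
    have hx : Function.Injective ![a, b, c] := by
      intro i j hij
      fin_cases i <;> fin_cases j <;> simp_all [eq_comm]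
    have hy : Function.Injective ![a, b, d] := by
      intro i j hij
      fin_cases i <;> fin_cases j <;> simp_all [eq_comm]
    obtain ⟨g, hg⟩ := hG.exists_smul_eq ⟨_, hx⟩ ⟨_, hy⟩
    refine ⟨g, ?_, ?_, ?_⟩
    · exact congrArg (fun z : Fin 3 ↪ α => z 0) hg
    · exact congrArg (fun z : Fin 3 ↪ α => z 1) hg
    · exact congrArg (fun z : Fin 3 ↪ α => z 2) hg
  -- conclusion
  rw [isMultiplyPretransitive_iff]
  intro x y
  have hx01 : x 0 ≠ x 1 := fun h => by simpa using x.injective h
  have hy01 : y 0 ≠ y 1 := fun h => by simpa using y.injective h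
  obtain ⟨n, hnN, hn0, hn1⟩ := h2e _ _ _ _ hx01 hy01
  have hx2 : n • x 2 ≠ y 0 := by
    rw [← hn0]
    intro h
    simpa using x.injective (smul_left_cancel _ h)
  have hx2' : n • x 2 ≠ y 1 := by
    rw [← hn1]
    intro h
    simpa using x.injective (smul_left_cancel _ h)
  have hy2 : y 2 ≠ y 0 := fun h => by simpa using y.injective h
  have hy2' : y 2 ≠ y 1 := fun h => by simpa using y.injective h
  obtain ⟨d, hdN, hd0, hd1, hd2⟩ := twoStab_transitive N h2e h3e hodd hy01 hx2 hx2' hy2 hy2'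
  refine ⟨⟨d * n, N.mul_mem hdN hnN⟩, ?_⟩
  ext i
  fin_cases i
  · change (d * n) • x 0 = y 0
    rw [mul_smul, hn0, hd0]
  · change (d * n) • x 1 = y 1
    rw [mul_smul, hn1, hd1]
  · change (d * n) • x 2 = y 2
    rw [mul_smul, hd2]

end Cfsg.Agent.Lib.Perm.Wagner
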